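import Cfsg.Agent.Lib.Loc.LBal2
import Cfsg.Agent.S0227
import Cfsg.Prelude.Def_Balance

/-!
The extended 2-layer and core balance.
-/

set_option autoImplicit false

namespace CA.ExtL

open Subgroup Cfsg CA.Amb CA.AmbSyl CA.AmbCore CA.AmbRes CA.AmbChar CA.AmbSpe CA.AmbIso CA.AmbFs
open CA.PComp CA.Comp CA.LBal CA.LBal2
open scoped commutatorElement

variable {G : Type*} [Group G] [Finite G] {A H K R S T U : Subgroup G} {x y : G}

/-- `L_{2'}(G) O_{2',2}(G)` -/
abbrev MM (G : Type*) [Group G] : Subgroup G := pLayer 2 G ⊔ pPrimePCore 2 G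

instance : (pPrimePCore 2 G).Normal := by unfold pPrimePCore; infer_instance

theorem L_le : pLayer 2 G ≤ extendedTwoLayer G := le_sup_left.trans le_sup_left

theorem O_le : pPrimeCore 2 G ≤ extendedTwoLayer G := le_sup_right.trans le_sup_left

theorem OQ_le_ext (h : SylIn 2 T (MM G)) : OQ 2 (𝐂 T) ≤ extendedTwoLayer G := by
  rw [← h.map_toSylow]
  exact le_sup_of_le_right (le_iSup_of_le h.toSylow le_rfl)

theorem ext_le (h1 : pLayer 2 G ≤ U) (h2 : pPrimeCore 2 G ≤ U) (h3 : ∀ T, SylIn 2 T (MM G) → OQ 2 (𝐂 T) ≤ U) :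
    extendedTwoLayer G ≤ U := sup_le (sup_le h1 h2) (iSup_le fun T => h3 _ (sylIn_sylow T))

instance normal_ext : (extendedTwoLayer G).Normal := normal_iff_cj.2 fun g => cj_le_iff.2 (ext_le
  (cj_le_iff.1 ((cj_eq_self_of_normal g _).le.trans L_le)) (cj_le_iff.1 ((cj_eq_self_of_normal g _).le.trans O_le))
  fun T h => cj_le_iff.1 (by
    rw [cj_OQ, cj_centralizer]; exact OQ_le_ext (h.conj_norm (norm_of_normal (mem_top g)))))

theorem map_MM : (MM G).map (QuotientGroup.mk' (pPrimeCore 2 G)) = generalizedFittingSubgroup (G ⧸ pPrimeCore 2 G) := by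
  rw [Subgroup.map_sup, map_mk_pLayer, pPrimePCore, map_comap_eq_self_of_surjective (QuotientGroup.mk'_surjective _),
    Fstar.fstar_eq_layer_sup_pCore Core.pPrimeCore_quotient_pPrimeCore]

theorem MM_le (h : SylIn 2 T (MM G)) : MM G ≤ (pLayer 2 G ⊔ pPrimeCore 2 G) ⊔ T := by
  refine sup_le (le_sup_left.trans le_sup_left) ?_
  have s := (h.inf_norm le_sup_right norm_of_normal).map (QuotientGroup.mk' (pPrimeCore 2 G))
  have e := s.eq_of_isPGroup (by
    rw [pPrimePCore, map_comap_eq_self_of_surjective (QuotientGroup.mk'_surjective _)]; exact isPGroup_pCore _ _)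
  have := le_comap_map (QuotientGroup.mk' (pPrimeCore 2 G)) (pPrimePCore 2 G)
  rw [← e, comap_map_eq, QuotientGroup.ker_mk'] at this
  exact this.trans (sup_le (inf_le_left.trans le_sup_right) (le_sup_right.trans le_sup_left))

theorem ext_eq (h : SylIn 2 T (MM G)) : extendedTwoLayer G = pLayer 2 G ⊔ pPrimeCore 2 G ⊔ OQ 2 (𝐂 T) := by
  refine le_antisymm (ext_le (le_sup_left.trans le_sup_left) (le_sup_right.trans le_sup_left) fun T' h' => ?_)
    (sup_le (sup_le L_le O_le) (OQ_le_ext h))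
  obtain ⟨g, hg, rfl⟩ := h.exists_conj h'
  obtain ⟨l, hl, t, ht, rfl⟩ := (mem_sup_of_norm' norm_of_normal).1 (MM_le h hg)
  rw [← cj_cj, cj_eq_self_of_mem ht, ← cj_centralizer, ← cj_OQ]
  exact cj_le_of_mem le_sup_right (mem_sup_left hl)

theorem mem_OQ (hO : pPrimeCore 2 G = ⊥) (hS : SylIn 2 S (generalizedFittingSubgroup G)) (hx : x ∈ 𝐂 S)
    (ho : (orderOf x).Coprime 2) : x ∈ OQ 2 (𝐂 S) := by
  set F := generalizedFittingSubgroup G
  let f : G →* MulAut F := MulAut.conjNormal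
  let C : Subgroup (MulAut F) :=
    { carrier := {φ | ∀ s : F, s ∈ hS.toSylow → φ s = s}
      mul_mem' := fun {a b} ha hb s hs => by rw [MulAut.mul_apply, hb s hs, ha s hs]
      one_mem' := fun _ _ => rfl
      inv_mem' := fun {a} ha s hs => by rw [MulAut.inv_apply, MulEquiv.symm_apply_eq, ha s hs] }
  have oF := Core.pPrimeCore_eq_bot_of_subnormal (inferInstance : F.Normal).isSubnormal hO
  obtain ⟨T⟩ : Nonempty (Sylow 2 C) := inferInstance
  obtain ⟨-, N, nN, c⟩ := (Cfsg.Agent.S0227.result (fun N hN h => le_bot_iff.1 ((H13ZRed.le_core h).trans oF.le))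
    hS.toSylow C fun _ => Iff.rfl).1 T
  let g : ↥(𝐂 S) →* C := (f.comp (𝐂 S).subtype).codRestrict C fun c s hs =>
    Subtype.ext (mul_inv_eq_of_eq_mul (c.2 s hs).symm)
  have z : g.ker ≤ center _ := fun k hk => mem_center_iff.2 fun c => by
    have k1 : (k : G) ∈ 𝐂 F := fun a ha => (mul_inv_eq_iff_eq_mul.1 (show (k : G) * a * (k : G)⁻¹ = a from
      congrArg Subtype.val (DFunLike.congr_fun (congrArg Subtype.val hk) (⟨a, ha⟩ : F)))).symm
    have k2 := Fstar.centralizer_fstar_le_fitting k1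
    rw [Fitting.fitting_eq_pCore_of_pPrimeCore_eq_bot 2 hO] at k2
    exact Subtype.ext (c.2 k (hS.le_of_norm (isPGroup_pCore 2 G) (Fstar.pCore_le_fstar 2) norm_of_normal k2)).symm
  have oN : ¬ 2 ∣ Nat.card N := by rw [← c.index_eq_card]; exact T.not_dvd_index
  have npc : HasNormalPComplement 2 (N.comap g) := by
    refine H13ZRed.hasNPC_of_central (g.subgroupComap N).ker (fun k hk => mem_center_iff.2 fun c =>
      Subtype.ext (mem_center_iff.1 (z (congrArg Subtype.val hk)) c)) fun h => oN (h.trans ?_)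
    rw [index_ker]
    exact card_subgroup_dvd_card _
  refine mem_map_of_mem _ (H13ZRed.mem_pPrimeCore_of_hasNPC (c := ⟨x, hx⟩) npc ?_ (by rwa [← orderOf_coe]))
  refine Fitting.le_of_coprime_card_index (H := zpowers (g ⟨x, hx⟩)) ?_ (mem_zpowers _)
  rw [c.symm.index_eq_card, Nat.card_zpowers]
  exact coprime_card_of_isPGroup T.2 (Nat.Coprime.coprime_dvd_left (orderOf_map_dvd g _) (by rwa [← orderOf_coe]))

theorem core_aux (hO : pPrimeCore 2 G = ⊥) (h : ∀ S, SylIn 2 S (generalizedFittingSubgroup G) → OQ 2 (𝐂 S) ≤ U)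
    (hE : layer G ≤ U) (hR : IsPGroup 2 R) : OQ 2 (𝐂 R) ≤ U := by
  by_contra n
  obtain ⟨R, -, ⟨hR, n⟩, m⟩ := Finite.exists_le_maximal
    (p := fun T : Subgroup G => IsPGroup 2 T ∧ ¬ OQ 2 (𝐂 T) ≤ U) (a := R) ⟨hR, n⟩
  obtain ⟨S, hS, nS⟩ := Bal.exists_isSylowIn_normalized hR (norm_of_normal (H := generalizedFittingSubgroup G))
  by_cases e : S ≤ R
  · exact n fun y hy => h S (sylIn_iff.2 hS) (mem_OQ hO (sylIn_iff.2 hS) (centralizer_anti e (OQ_le 2 _ hy))
      (PLoc.coprime_orderOf_of_mem (coprime_OQ 2 _) hy))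
  obtain ⟨r, r1, r2, r3⟩ := Bal.exists_mem_normalizer_not_mem hR hS.2.1 nS e
  set W := S ⊓ 𝐍 R
  have pW : IsPGroup 2 W := hS.2.1.to_inf_left
  have nW : W ≤ 𝐍 (OQ 2 (𝐂 R)) := norm_OQ (norm_centralizer inf_le_right)
  refine n ((comm_sup_cent_coprime nW (coprime_card_of_isPGroup pW (coprime_OQ 2 _)).symm
    (Or.inl (isSolvable_of_isPGroup pW))).ge.trans (sup_le (le_trans ?_ hE) (le_trans ?_ (by_contra fun k => r3
      (m (y := R ⊔ W) ⟨isPGroup_sup_of_norm' hR pW inf_le_right, k⟩ le_sup_left (mem_sup_right ⟨r1, r2⟩))))))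
  · refine (le_res_of_coprime ((commutator_mono le_rfl (inf_le_left.trans hS.1)).trans (commutator_le_right _ _))
      ((coprime_OQ 2 _).coprime_dvd_left (card_dvd_of_le (commutator_le_left_of_norm nW)))).trans
      (res_le_of_le_sup (isPGroup_pCore 2 G) norm_of_normal ?_)
    rw [Fstar.fstar_eq_layer_sup_pCore hO, sup_comm]
  · rw [Amb.centralizer_sup]
    exact le_OQ (inf_le_inf_right _ (OQ_le 2 _)) (norm_inf (norm_OQ (norm_of_le inf_le_left)) (norm_of_le inf_le_right))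
      ((coprime_OQ 2 _).coprime_dvd_left (card_dvd_of_le inf_le_left))

/-- core balance -/
theorem core_le (hR : IsPGroup 2 R) : OQ 2 (𝐂 R) ≤ extendedTwoLayer G := by
  set f := QuotientGroup.mk' (pPrimeCore 2 G)
  have c := PLoc.coprime_ker_mk_pPrimeCore (p := 2) (G := G)
  have s : Function.Surjective f := QuotientGroup.mk'_surjective _
  have k : ∀ T : Subgroup G, IsPGroup 2 T → (OQ 2 (𝐂 T)).map f = OQ 2 (𝐂 (T.map f)) := fun T hT =>
    PLoc.map_map_pPrimeCore_of_eq f c (PLoc.map_centralizer_p s c hT)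
  have := core_aux (U := (extendedTwoLayer G).map f) Core.pPrimeCore_quotient_pPrimeCore (fun S hS => by
    obtain ⟨T, h1, h2⟩ := exists_pg_map_eq f (M := MM G) hS.pg (hS.le.trans map_MM.ge)
    obtain ⟨T', h3, h4⟩ := exists_sylIn_ge h1.pg (h1.le.trans inf_le_left)
    have := hS.max (h3.pg.map f) (h2.ge.trans (map_mono h4)) ((map_mono h3.le).trans map_MM.le)
    rw [← this, ← k _ h3.pg]
    exact map_mono (OQ_le_ext h3)) (map_mk_pLayer.ge.trans (map_mono L_le)) (hR.map f)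
  rw [← k R hR, map_le_iff_le_comap, comap_map_eq, QuotientGroup.ker_mk'] at this
  exact this.trans (sup_le le_rfl O_le)

/-- the extended 2-layer of a subgroup -/
abbrev XL (H : Subgroup G) : Subgroup G := (extendedTwoLayer H).map H.subtype

theorem core_le' (hR : IsPGroup 2 R) (l : R ≤ H) : OQ 2 (H ⊓ 𝐂 R) ≤ XL H := by
  have := map_mono (f := H.subtype) (core_le (isPGroup_subgroupOf hR H))
  rwa [map_OQ H.subtype_injective, map_subtype_centralizer, map_subgroupOf_eq_of_le l] at this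

theorem XL_le (h1 : PL 2 H ≤ U) (h3 : ∀ T, T ≤ H → IsPGroup 2 T → OQ 2 (H ⊓ 𝐂 T) ≤ U) : XL H ≤ U := by
  refine map_le_iff_le_comap.2 (ext_le (map_le_iff_le_comap.1 h1) (map_le_iff_le_comap.1 ?_)
    fun T h => map_le_iff_le_comap.1 ?_)
  · have := h3 ⊥ bot_le IsPGroup.of_bot
    rwa [Amb.centralizer_bot, inf_top_eq] at this
  · rw [map_OQ H.subtype_injective, map_subtype_centralizer]
    exact h3 _ (map_subtype_le _) (h.pg.map _)

end CA.ExtL
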