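import Cfsg.Agent.Lib.Loc.AmbS3b

/-! Amalgams of index `(3, 3)`: local facts, arcs, arc transitivity. -/

set_option autoImplicit false

namespace CA.H13Gd

open Subgroup Cfsg CA.Amb CA.AmbSyl CA.AmbCore CA.AmbRes CA.AmbChar CA.AmbSpe CA.AmbRed CA.AmbCos CA.AmbIso
open CA.AmbS3
open scoped commutatorElement

variable {X : Type*} [Group X] {M₁ M₂ : Subgroup X}

local notation "Vx" => CosetVertex M₁ M₂
local notation "𝐐 " δ:max => vertexQ 2 δ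
local notation "𝐙 " δ:max => vertexZ 2 δ
local notation "𝐛" => criticalDistance 2 M₁ M₂

/-- `A ∩ B` has index at most two in `B` -/
def Ix (A B : Subgroup X) : Prop := ∀ x ∈ B, ∀ y ∈ B, x ∉ A → y ∉ A → x * y ∈ A

theorem Ix.mono {A B C : Subgroup X} (h : Ix A B) (k : C ≤ B) : Ix A C :=
  fun x hx y hy => h x (k hx) y (k hy)

theorem Ix.card {A B : Subgroup X} [Finite B] (h : Ix A B) : Nat.card B ≤ 2 * Nat.card ↥(B ⊓ A) := by
  have h1 := card_mul_relIndex (inf_le_left : B ⊓ A ≤ B)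
  rw [inf_relIndex_left] at h1
  by_cases k : B ≤ A
  · rw [inf_eq_left.2 k]; omega
  obtain ⟨a, a1, a2⟩ := SetLike.not_le_iff_exists.1 k
  have : A.relIndex B = 2 := index_eq_two_iff.2 ⟨⟨a, a1⟩, fun b => by
    by_cases c : (b : X) ∈ A
    · exact .inr ⟨c, fun d => a2 ((A.mul_mem_cancel_left c).1 d)⟩
    · exact .inl ⟨h _ b.2 _ a1 c a2, c⟩⟩
  rw [this] at h1
  omega

theorem norm_nbr {F : Vx → Subgroup X} (hF : ∀ g δ, F (g • δ) = cj g (F δ)) (g : X) (μ : Vx) :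
    (⨅ γ, ⨅ _ : Ad (g • μ) γ, F γ) = cj g (⨅ γ, ⨅ _ : Ad μ γ, F γ) := by
  ext x
  simp only [mem_cj, mem_iInf]
  refine ⟨fun h γ e => mem_cj.1 (hF g γ ▸ h _ (e.smul g)), fun h γ e => ?_⟩
  rw [← smul_inv_smul g γ, hF, mem_cj]
  exact h _ (by simpa using e.smul g⁻¹)

theorem norm_of_eqv {F : Vx → Subgroup X} (hF : ∀ g δ, F (g • δ) = cj g (F δ)) (μ : Vx) :
    St μ ≤ 𝐍 (F μ) := fun g hg => cj_eq_self_iff.1 (by rw [← hF, show g • μ = μ from hg])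

theorem mem_St {g x : X} {δ : Vx} (h : x ∈ St δ) : g * x * g⁻¹ ∈ St (g • δ) := by
  rw [St_smul]; exact conj_mem_cj.2 h

theorem mem_Q {g x : X} {δ : Vx} : g * x * g⁻¹ ∈ 𝐐 (g • δ) ↔ x ∈ 𝐐 δ := by
  rw [Q_smul]; exact conj_mem_cj

theorem mem_Z {g x : X} {δ : Vx} : g * x * g⁻¹ ∈ 𝐙 (g • δ) ↔ x ∈ 𝐙 δ := by
  rw [Z_smul]; exact conj_mem_cj

/-- two-sided arcs -/
structure Arc (π : ℤ → Vx) : Prop where
  ad : ∀ i, Ad (π i) (π (i + 1))
  ne : ∀ i, π (i + 2) ≠ π i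

namespace Arc
variable {π σ : ℤ → CosetVertex M₁ M₂} (h : Arc π)
include h

theorem a (i j : ℤ) (e : j = i + 1 ∨ i = j + 1 := by omega) : Ad (π i) (π j) := by
  rcases e with rfl | rfl
  exacts [h.ad i, (h.ad j).symm]

theorem n (i j : ℤ) (e : j = i + 2 ∨ i = j + 2 := by omega) : π i ≠ π j := by
  rcases e with rfl | rfl
  exacts [(h.ne i).symm, h.ne j]

theorem shift (c : ℤ) : Arc fun i => π (i + c) := ⟨fun _ => h.a _ _, fun _ => h.n _ _⟩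

theorem rev (c : ℤ) : Arc fun i => π (c - i) := ⟨fun _ => h.a _ _, fun _ => h.n _ _⟩

theorem smul (g : X) : Arc fun i => g • π i :=
  ⟨fun i => (h.ad i).smul g, fun i e => h.ne i (smul_left_cancel g e)⟩

theorem glue (k : Arc σ) (j : ℤ) (e : π j = σ j) (m : σ (j + 1) ≠ π (j - 1)) :
    Arc fun i => if i ≤ j then π i else σ i := by
  refine ⟨fun i => ?_, fun i => ?_⟩ <;> split_ifs with a b c
  · exact h.ad i
  · obtain rfl : i = j := by omega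
    exact e ▸ k.ad i
  · omega
  · exact k.ad i
  · exact h.ne i
  · omega
  · rcases (by omega : i = j ∨ i = j - 1) with rfl | rfl
    · exact e ▸ k.ne i
    · rwa [show j - 1 + 2 = j + 1 by omega]
  · exact k.ne i

theorem ds_le (g : M₁ ⊔ M₂ = ⊤) (i j : ℤ) (n : ℕ) (h1 : j - i ≤ n := by omega) (h2 : i - j ≤ n := by omega) :
    ds (π i) (π j) ≤ n := by
  have k : ∀ (m : ℕ) i, ds (π i) (π (i + m)) ≤ m := fun m => by
    induction m with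
    | zero => simp [ds_self]
    | succ m ih => exact fun i => (ds_le_right g (h.a (i + (m + 1 : ℕ)) (i + m)) _).trans (by have := ih i; omega)
  rcases le_total i j with c | c
  · have := k (j - i).toNat i
    rw [show i + (j - i).toNat = j by omega] at this
    omega
  · have := k (i - j).toNat j
    rw [show j + (i - j).toNat = i by omega, ds_comm] at this
    omega

end Arc

/-- amalgams with local action `S₃` and `2`-group edge stabilizers -/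
structure B3 (M₁ M₂ : Subgroup X) : Prop where
  am : IsAmalgamPair M₁ M₂
  fin : ∀ δ : CosetVertex M₁ M₂, Finite (St δ)
  syl : ∀ δ μ : CosetVertex M₁ M₂, Ad δ μ → SylIn 2 (St δ ⊓ St μ) (St δ)
  idx : ∀ δ : CosetVertex M₁ M₂, (vertexQ 2 δ).relIndex (St δ) = 6

namespace B3
variable (h : B3 M₁ M₂) {γ δ μ ν κ : CosetVertex M₁ M₂} {g x y : X}
include h

theorem gen : M₁ ⊔ M₂ = ⊤ := h.am.1

theorem syl2 (e : Ad δ μ) : SylIn 2 (St δ ⊓ St μ) (St δ) := h.syl _ _ e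

theorem Q_le (e : Ad δ μ) : 𝐐 δ ≤ St δ ⊓ St μ := pCoreOf_le_syl (h.syl2 e)

theorem Q1 (a : g ∈ 𝐐 δ) : g ∈ St δ := pCoreOf_le 2 _ a

theorem Q2 (a : g ∈ 𝐐 δ) (e : Ad δ μ) : g ∈ St μ := (h.Q_le e a).2

theorem finT (δ μ : Vx) : Finite ↥(St δ ⊓ St μ) := haveI := h.fin δ; finite_of_le inf_le_left

theorem finQ (δ : Vx) : Finite (𝐐 δ) := haveI := h.fin δ; finite_of_le (pCoreOf_le 2 _)

theorem idx23 (e : Ad δ μ) : (𝐐 δ).relIndex (St δ ⊓ St μ) = 2 ∧ (St δ ⊓ St μ).relIndex (St δ) = 3 := by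
  have := h.fin δ
  have := h.finT δ μ
  have h1 := relIndex_mul_relIndex _ _ _ (h.Q_le e) (inf_le_left (b := St μ))
  rw [h.idx] at h1
  have h2 := (h.syl2 e).not_dvd
  obtain ⟨n, hn⟩ := ((h.syl2 e).pg.index ((𝐐 δ).subgroupOf _))
  change (𝐐 δ).relIndex _ = _ at hn
  have h3 : ¬ 3 ∣ (𝐐 δ).relIndex (St δ ⊓ St μ) := fun k => by
    rw [hn] at k; exact absurd (Nat.prime_three.dvd_of_dvd_pow k) (by decide)
  generalize (𝐐 δ).relIndex _ = a at *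
  generalize (St δ ⊓ St μ).relIndex _ = b at *
  have : b ≤ 6 := Nat.le_of_dvd (by decide) (Dvd.intro_left _ h1)
  interval_cases b <;> omega

theorem top (e : Ad δ μ) {K : Subgroup X} (h1 : St δ ⊓ St μ ≤ K) (h2 : g ∈ St δ) (h3 : g ∉ St μ)
    (h4 : g ∈ K) : St δ ≤ K := by
  rcases PGBasic.eq_or_eq_of_relIndex_prime Nat.prime_three (h.idx23 e).2 (K := K ⊓ St δ)
    (le_inf h1 inf_le_left) inf_le_right with k | k
  · exact absurd (k.le ⟨h4, h2⟩).2 h3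
  · exact k.ge.trans inf_le_left

theorem ix (e : Ad δ μ) : Ix (𝐐 δ) (St δ ⊓ St μ) := fun _ a _ b c d =>
  (mul_mem_of_two (h.idx23 e).1 a b).2 (iff_of_false c d)

theorem sup_le (e : Ad δ μ) {K : Subgroup X} (h1 : 𝐐 δ ≤ K) (a : g ∈ St δ) (b : g ∈ St μ) (c : g ∉ 𝐐 δ)
    (d : g ∈ K) : St δ ⊓ St μ ≤ K := fun y hy => by
  by_cases k : y ∈ 𝐐 δ
  · exact h1 k
  · exact (K.mul_mem_cancel_right d).1 (h1 (h.ix e y hy g ⟨a, b⟩ k c))

theorem not_le (e : Ad δ μ) : ¬ St δ ⊓ St μ ≤ 𝐐 δ := fun k => by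
  have := (h.idx23 e).1
  rw [relIndex_eq_one.2 k] at this
  exact absurd this (by decide)

theorem two (e : Ad δ μ) (e' : Ad δ ν) (hne : μ ≠ ν) (a : g ∈ St δ) (b : g ∈ St μ) (c : g ∈ St ν) :
    g ∈ 𝐐 δ := by
  by_contra k
  have h2 : St δ ⊓ St μ ≤ St δ ⊓ St ν := h.sup_le e (h.Q_le e') a b k ⟨a, c⟩
  have h3 := (h.syl2 e).max (h.syl2 e').pg h2 inf_le_left
  obtain ⟨g, g1, rfl⟩ := exists_smul_adj e e'
  refine h.not_le e (le_pCoreOf inf_le_left (h.syl2 e).pg (h.top e le_normalizer g1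
    (fun k => hne (MulAction.mem_stabilizer_iff.1 k).symm) (cj_eq_self_iff.1 ?_)))
  rw [cj_inf, cj_eq_self_of_mem g1, ← St_smul, h3]

theorem ncard (δ : CosetVertex M₁ M₂) : {μ | Ad δ μ}.ncard = 3 := by
  obtain ⟨μ, e⟩ := exists_adj δ
  have h2 : (MulAction.stabilizer (St δ) μ).index = 3 := by
    rw [← (h.idx23 e).2, inf_relIndex_left]; rfl
  rw [← h2, MulAction.index_stabilizer]
  congr 1
  ext ν
  exact ⟨fun k => by obtain ⟨g, a, b⟩ := exists_smul_adj e k; exact ⟨⟨g, a⟩, b⟩,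
    fun ⟨g, k⟩ => k ▸ e.smul_right g.2⟩

theorem third (δ μ ν : Vx) : ∃ κ, Ad δ κ ∧ κ ≠ μ ∧ κ ≠ ν := by
  by_contra! k
  have := (Set.ncard_le_ncard (s := {μ | Ad δ μ}) (t := {μ, ν}) fun κ a => by
    by_cases b : κ = μ
    exacts [.inl b, .inr (k κ a b)]).trans (Set.ncard_insert_le _ _)
  rw [h.ncard] at this
  simp at this

theorem cases3 (e : Ad δ μ) (e1 : Ad δ ν) (e2 : Ad δ κ) (n1 : μ ≠ ν) (n2 : μ ≠ κ) (n3 : ν ≠ κ) (a : Ad δ γ) :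
    γ = μ ∨ γ = ν ∨ γ = κ := by
  have : ({μ, ν, κ} : Set _) = {μ | Ad δ μ} := Set.eq_of_subset_of_ncard_le
    (by rintro _ (rfl | rfl | rfl) <;> assumption)
    (by rw [h.ncard, Set.ncard_eq_three.2 ⟨_, _, _, n1, n2, n3, rfl⟩])
    (Set.finite_of_ncard_ne_zero (by rw [h.ncard]; decide))
  exact this.ge a

theorem mv (e : Ad δ μ) (e1 : Ad δ ν) (n1 : μ ≠ ν) (h1 : g ∈ St δ) (h2 : g ∈ St μ) (h3 : g ∉ 𝐐 δ) :
    Ad δ (g • ν) ∧ g • ν ≠ μ ∧ g • ν ≠ ν :=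
  ⟨e1.smul_right h1, fun k => n1 (smul_left_cancel g ((show g • μ = μ from h2).trans k.symm)),
    fun k => h3 (h.two e e1 n1 h1 h2 k)⟩

theorem swap (e : Ad δ μ) (e1 : Ad δ ν) (e2 : Ad δ κ) (n1 : μ ≠ ν) (n2 : μ ≠ κ) (n3 : ν ≠ κ)
    (h1 : g ∈ St δ) (h2 : g ∈ St μ) (h3 : g ∉ 𝐐 δ) : g • ν = κ := by
  obtain ⟨a, b, c⟩ := h.mv e e1 n1 h1 h2 h3
  exact ((h.cases3 e e1 e2 n1 n2 n3 a).resolve_left b).resolve_left c

theorem exists_notQ (e : Ad δ μ) : ∃ g, g ∈ St δ ∧ g ∈ St μ ∧ g ∉ 𝐐 δ := by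
  obtain ⟨g, a, b⟩ := SetLike.not_le_iff_exists.1 (h.not_le e)
  exact ⟨g, a.1, a.2, b⟩

theorem bot (e : Ad δ μ) {N : Subgroup X} (h1 : N ≤ St δ ⊓ St μ) (h2 : St δ ≤ 𝐍 N) (a : g ∈ St μ)
    (b : g ∉ St δ) (c : g ∈ 𝐍 N) : N = ⊥ :=
  eq_bot_of_norm h.am e h1 h2 (h.top e.symm (inf_le_right.trans h2) a b c)

theorem exists_arc (e : Ad δ μ) (j : ℤ) : ∃ π : ℤ → Vx, Arc π ∧ π j = δ ∧ π (j + 1) = μ := by
  choose nx n1 n2 _ using fun a b : Vx => h.third b a a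
  have k : ∀ a b : Vx, Ad a b → ∃ ρ : ℕ → Vx, ρ 0 = a ∧ ρ 1 = b ∧ (∀ n, Ad (ρ n) (ρ (n + 1))) ∧
      ∀ n, ρ (n + 2) ≠ ρ n := fun a b e => by
    let f : ℕ → Vx × Vx := fun n => Nat.rec (a, b) (fun _ p => (p.2, nx p.1 p.2)) n
    refine ⟨fun n => (f n).1, rfl, rfl, fun n => ?_, fun n => n2 _ _⟩
    cases n
    exacts [e, n1 _ _]
  obtain ⟨ρ, a1, a2, a3, a4⟩ := k _ _ e
  obtain ⟨τ, b1, b2, b3, b4⟩ := k _ _ e.symm
  let π : ℤ → Vx := fun i => if 0 ≤ i then ρ i.toNat else τ (1 - i).toNat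
  have p1 : ∀ i, 0 ≤ i → π i = ρ i.toNat := fun i c => if_pos c
  have p2 : ∀ i, i ≤ 1 → π i = τ (1 - i).toNat := fun i c => by
    rcases (by omega : i = 1 ∨ i = 0 ∨ i < 0) with rfl | rfl | d
    exacts [a2.trans b1.symm, a1.trans b2.symm, if_neg (by omega)]
  have : Arc π := by
    refine ⟨fun i => ?_, fun i => ?_⟩ <;> rcases le_or_gt 0 i with c | c
    · rw [p1 i c, p1 _ (by omega), show (i + 1).toNat = i.toNat + 1 by omega]; exact a3 _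
    · rw [p2 i (by omega), p2 _ (by omega), show (1 - i).toNat = (1 - (i + 1)).toNat + 1 by omega]
      exact (b3 _).symm
    · rw [p1 i c, p1 _ (by omega), show (i + 2).toNat = i.toNat + 2 by omega]; exact a4 _
    · rw [p2 i (by omega), p2 _ (by omega), show (1 - i).toNat = (1 - (i + 2)).toNat + 2 by omega]
      exact (b4 _).symm
  refine ⟨_, this.shift (-j), ?_, ?_⟩
  · rw [add_neg_cancel]; exact a1
  · rw [add_neg_cancel_comm]; exact a2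

theorem branch {π : ℤ → Vx} (k : Arc π) (j : ℤ) (e : Ad (π j) ν) (n : ν ≠ π (j - 1)) :
    ∃ σ : ℤ → Vx, Arc σ ∧ (∀ i, i ≤ j → σ i = π i) ∧ σ (j + 1) = ν := by
  obtain ⟨σ, a, b, c⟩ := h.exists_arc e j
  exact ⟨_, k.glue a j b.symm (c ▸ n), fun i d => if_pos d, (if_neg (by omega)).trans c⟩

theorem branch' {π : ℤ → Vx} (k : Arc π) (j : ℤ) (e : Ad (π j) ν) (n : ν ≠ π (j + 1)) :
    ∃ σ : ℤ → Vx, Arc σ ∧ (∀ i, j ≤ i → σ i = π i) ∧ σ (j - 1) = ν := by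
  obtain ⟨σ, a, b, c⟩ := h.branch (k.rev 0) (-j) (ν := ν) (by simpa using e)
    (by rwa [show 0 - (-j - 1) = j + 1 by omega])
  refine ⟨_, a.rev 0, fun i d => ?_, by rwa [show 0 - (j - 1) = -j + 1 by omega]⟩
  rw [b _ (by omega), sub_sub_cancel]

theorem geo (n : ℕ) : ∀ a b : Vx, ds a b = n + 1 → ∃ π : ℤ → Vx, Arc π ∧ π 0 = a ∧ π (n + 1) = b := by
  induction n with
  | zero => exact fun a b e => by simpa using h.exists_arc (adj_of_ds e) 0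
  | succ n ih =>
    intro a b e
    obtain ⟨c, c1, c2⟩ := exists_adj_ds' h.gen e
    obtain ⟨π, a1, rfl, rfl⟩ := ih a c c2
    obtain ⟨σ, b1, b2, b3⟩ := h.branch a1 (n + 1) c1.symm fun k => by
      have := a1.ds_le h.gen 0 (n + 1 - 1) n
      rw [← k] at this
      omega
    exact ⟨σ, b1, b2 _ (by omega), b3⟩

theorem cardQ (e : Ad δ μ) {A : Subgroup X} (a : A ≤ St δ ⊓ St μ) :
    Nat.card A ≤ 2 * Nat.card ↥(A ⊓ 𝐐 δ) :=
  haveI := h.finT δ μ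
  haveI := finite_of_le a
  ((h.ix e).mono a).card

/-- the non-constrained case -/
theorem not_char (e : Ad δ μ) (c : ¬ CharP 2 (St δ)) : Nat.card ↥(St δ ⊓ St μ) ≤ 16 := by
  obtain ⟨g, ⟨g1, g2⟩, g3⟩ : ∃ g ∈ St δ ⊓ 𝐂 (𝐐 δ), g ∉ St μ := by
    by_contra! k
    obtain ⟨ν, e1, n, -⟩ := h.third δ μ μ
    obtain ⟨g, g1, rfl⟩ := exists_smul_adj e e1
    refine c fun x hx => h.two e e1 n.symm hx.1 (k x hx) ?_
    have := mem_St (g := g) (k _ (inv_conj_mem_of_mem_normalizer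
      (norm_inf le_normalizer (norm_centralizer (norm_pCoreOf 2 _)) g1) hx))
    simpa [mul_assoc] using this
  obtain ⟨ν, e1, n1, -⟩ := h.third μ δ δ
  obtain ⟨κ, e2, n2, n3⟩ := h.third μ δ ν
  have k : (⨅ γ, ⨅ _ : Ad μ γ, 𝐐 γ) ≤ 𝐐 δ := iInf₂_le δ e.symm
  have := h.bot e.symm (k.trans ((h.Q_le e).trans (inf_comm _ _).le))
    (norm_of_eqv (F := fun μ => ⨅ γ, ⨅ _ : Ad μ γ, 𝐐 γ) (norm_nbr fun g δ => Q_smul g δ) μ) g1 g3
    (norm_of_centralizer le_rfl (centralizer_anti k g2))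
  have h0 : 𝐐 μ ⊓ 𝐐 δ ⊓ 𝐐 ν ⊓ 𝐐 κ = ⊥ := le_bot_iff.1 (this ▸ le_iInf₂ fun γ a => by
    rcases h.cases3 e.symm e1 e2 n1.symm n2.symm n3.symm a with rfl | rfl | rfl
    exacts [inf_le_left.trans (inf_le_left.trans inf_le_right), inf_le_left.trans inf_le_right, inf_le_right])
  have q : ∀ γ, Ad μ γ → 𝐐 μ ≤ St γ ⊓ St μ := fun γ a => (h.Q_le a).trans (inf_comm _ _).le
  have h1 := h.cardQ e.symm (inf_comm (St δ) (St μ)).le
  have h2 := h.cardQ e (q _ e.symm)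
  have h3 := h.cardQ e1.symm ((inf_le_left (b := 𝐐 δ)).trans (q _ e1))
  have h4 := h.cardQ e2.symm (((inf_le_left (b := 𝐐 ν)).trans (inf_le_left (b := 𝐐 δ))).trans (q _ e2))
  rw [inf_eq_right.2 (q _ e.symm)] at h1
  rw [h0, card_bot] at h4
  omega

end B3

end CA.H13Gd
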