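import Cfsg.Agent.Lib.Loc.H13Gd1

/-! Amalgams of index `(3, 3)` in characteristic two with `Ω₁(Z(T))` central on exactly one side. -/

set_option autoImplicit false

namespace CA.H13Gd

open Subgroup Cfsg CA.Amb CA.AmbSyl CA.AmbCore CA.AmbRes CA.AmbChar CA.AmbSpe CA.AmbRed CA.AmbCos CA.AmbIso
open CA.AmbS3
open scoped commutatorElement

variable {X : Type*} [Group X] {M₁ M₂ : Subgroup X}

local notation "Vx" => CosetVertex M₁ M₂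
local notation "𝐐 " δ:max => vertexQ 2 δ
local notation "𝐙 " δ:max => vertexZ 2 δ
local notation "𝐛" => criticalDistance 2 M₁ M₂

/-- elements acting trivially on `A` modulo `B` -/
def Act (A B : Subgroup X) : Subgroup X where
  carrier := {g | g ∈ 𝐍 B ∧ ∀ a ∈ A, g * a * g⁻¹ * a⁻¹ ∈ B}
  one_mem' := ⟨one_mem _, fun a _ => by simp⟩
  mul_mem' := fun {g k} hg hk => ⟨mul_mem hg.1 hk.1, fun a ha => by
    have := mul_mem (conj_mem_of_mem_normalizer hg.1 (hk.2 a ha)) (hg.2 a ha)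
    convert this using 1
    group⟩
  inv_mem' := fun {g} hg => ⟨inv_mem hg.1, fun a ha => by
    have := inv_conj_mem_of_mem_normalizer hg.1 (inv_mem (hg.2 a ha))
    convert this using 1
    group⟩

theorem norm_Act {A B L : Subgroup X} (h1 : L ≤ 𝐍 A) (h2 : L ≤ 𝐍 B) : L ≤ 𝐍 (Act A B) :=
  le_normalizer_iff_cj.2 fun g hg => cj_le_iff'.2 fun x hx =>
    ⟨mul_mem (mul_mem (h2 hg) hx.1) (inv_mem (h2 hg)), fun a ha => by
      have := conj_mem_of_mem_normalizer (h2 hg) (hx.2 _ (inv_conj_mem_of_mem_normalizer (h1 hg) ha))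
      convert this using 1
      group⟩

theorem comm_Act {A B : Subgroup X} {d : X} (h : d ∈ Act A B) : ⁅A, zpowers d⁆ ≤ B :=
  commutator_le.2 fun a ha g hg => by
    have := inv_mem ((zpowers_le.2 h hg).2 a ha)
    convert this using 1
    rw [commutatorElement_def]
    group

/-- `Z_δ` is central in the vertex stabilizer -/
def Od (δ : Vx) : Prop := St δ ≤ 𝐂 (𝐙 δ)

theorem od_smul {g : X} {δ : Vx} : Od (g • δ) ↔ Od δ := by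
  rw [Od, St_smul, Z_smul, ← cj_centralizer, cj_le_cj]; rfl

/-- some arc of length `N` has a stabilizer moving the next vertex -/
def Ext (M₁ M₂ : Subgroup X) (N : ℕ) (s : Prop) : Prop := ∃ π : ℤ → CosetVertex M₁ M₂, Arc π ∧ (Od (π N) ↔ s) ∧
  ∃ g, (∀ i, 0 ≤ i → i ≤ (N : ℤ) → g ∈ St (π i)) ∧ g ∉ 𝐐 (π N)

theorem B3.three (h : B3 M₁ M₂) {δ μ : Vx} (e : Ad δ μ) {K : Subgroup X} (h1 : K ≤ St δ) (h2 : St δ ≤ 𝐍 K)
    {u : X} (a : u ∈ K) (b : u ∈ St μ) (c : u ∉ 𝐐 δ) : ∃ d ∈ K, orderOf d = 3 ∧ ∀ ν, Ad δ ν → d ∉ St ν := by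
  have := h.fin δ
  have := finite_of_le h1
  have := h.finQ δ
  obtain ⟨ν, e1, n, -⟩ := h.third δ μ μ
  obtain ⟨g, g1, rfl⟩ := exists_smul_adj e e1
  have k : St δ ≤ 𝐐 δ ⊔ K := h.top e (h.sup_le e le_sup_left (h1 a) b c (mem_sup_right a))
    (h1 (conj_mem_of_mem_normalizer (h2 g1) a)) (fun k => c (mem_Q.1 ((show g • δ = δ from g1).symm ▸
      h.two e e1 n.symm (h1 (conj_mem_of_mem_normalizer (h2 g1) a)) k (mem_St b))))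
    (mem_sup_right (conj_mem_of_mem_normalizer (h2 g1) a))
  have h3 := card_sup_mul_card_inf (((pCoreOf_le 2 _).trans h2 : 𝐐 δ ≤ 𝐍 K))
  rw [le_antisymm (_root_.sup_le (pCoreOf_le 2 _) h1) k, ← card_mul_relIndex (pCoreOf_le 2 (St δ))] at h3
  change Nat.card (𝐐 δ) * (𝐐 δ).relIndex _ * _ = _ at h3
  rw [h.idx, mul_assoc] at h3
  haveI : Fact (Nat.Prime 3) := ⟨Nat.prime_three⟩
  obtain ⟨d, d1, d2⟩ := exists_orderOf_eq_of_dvd (p := 3) (L := K)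
    (by rw [← Nat.eq_of_mul_eq_mul_left Nat.card_pos h3]; omega)
  refine ⟨d, d1, d2, fun κ e2 k => ?_⟩
  obtain ⟨n, hn⟩ := (h.syl2 e2).pg ⟨d, h1 d1, k⟩
  have := orderOf_dvd_of_pow_eq_one (congrArg Subtype.val hn : d ^ 2 ^ n = 1)
  rw [d2] at this
  exact absurd (Nat.prime_three.dvd_of_dvd_pow this) (by decide)

structure C3 (M₁ M₂ : Subgroup X) : Prop extends B3 M₁ M₂ where
  char : ∀ δ : CosetVertex M₁ M₂, CharP 2 (St δ)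
  od : ∀ δ μ : CosetVertex M₁ M₂, Ad δ μ → (Od δ ↔ ¬ Od μ)

namespace C3
variable (h : C3 M₁ M₂) {γ δ μ ν κ : CosetVertex M₁ M₂} {g t x y : X} {π σ : ℤ → CosetVertex M₁ M₂}
include h

theorem cp : CP 2 M₁ M₂ := ⟨h.am, h.fin, h.char,
  fun _ _ e _ hT => (hT.eq_of_isPGroup (h.syl2 e).pg).symm ▸ h.syl2 e, fun δ e => by
    have := h.idx δ
    rw [e, relIndex_bot_right] at this
    omega⟩

theorem ev (e : Ad δ μ) (o : Od δ) : ¬ Od μ := (h.od _ _ e).1 o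

theorem od' (e : Ad δ μ) (o : ¬ Od δ) : Od μ := by_contra fun k => o ((h.od _ _ e).2 k)

theorem orb (e : Ad δ μ) (e' : Ad γ ν) (o : Od δ ↔ Od γ) : ∃ g : X, g • δ = γ ∧ g • μ = ν := by
  obtain ⟨g, a | ⟨-, rfl⟩⟩ := exists_smul_edge e e'
  · exact ⟨g, a⟩
  · have := h.od _ _ e
    rw [od_smul] at o
    tauto

theorem par (k : Arc π) (i j : ℤ) : (Od (π i) ↔ Od (π j)) ↔ (j - i) % 2 = 0 := by
  obtain ⟨n, rfl⟩ : ∃ n, j = i + n := ⟨j - i, by omega⟩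
  rw [add_sub_cancel_left]
  induction n using Int.induction_on with
  | zero => simp
  | succ n ih =>
    have := h.od _ _ (k.a (i + n) (i + (n + 1)))
    have : ((n : ℤ) + 1) % 2 = 0 ↔ ¬ (n : ℤ) % 2 = 0 := by omega
    tauto
  | pred n ih =>
    have := h.od _ _ (k.a (i + -n) (i + (-n - 1)))
    have : (-(n : ℤ) - 1) % 2 = 0 ↔ ¬ (-n : ℤ) % 2 = 0 := by omega
    tauto

theorem oo (k : Arc π) {i : ℤ} (o : Od (π i)) (j : ℤ) (e : (j - i) % 2 = 0 := by omega) : Od (π j) :=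
  ((h.par k i j).2 e).1 o

theorem ee (k : Arc π) {i : ℤ} (o : ¬ Od (π i)) (j : ℤ) (e : (j - i) % 2 = 0 := by omega) : ¬ Od (π j) :=
  mt ((h.par k i j).2 e).2 o

theorem oe (k : Arc π) {i : ℤ} (o : Od (π i)) (j : ℤ) (e : (j - i) % 2 = 1 := by omega) : ¬ Od (π j) :=
  fun a => by have := (h.par k i j).1 (iff_of_true o a); omega

theorem eo (k : Arc π) {i : ℤ} (o : ¬ Od (π i)) (j : ℤ) (e : (j - i) % 2 = 1 := by omega) : Od (π j) :=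
  by_contra fun a => by have := (h.par k i j).1 (iff_of_false o a); omega

theorem trans {N : ℕ} (h1 : Ext M₁ M₂ N True) (h2 : Ext M₁ M₂ N False) (n : ℕ) (hn : n ≤ N) :
    ∀ π σ : ℤ → Vx, Arc π → Arc σ → (Od (π 0) ↔ Od (σ 0)) →
      ∃ g : X, ∀ i, 0 ≤ i → i ≤ (n : ℤ) + 1 → g • π i = σ i := by
  induction n with
  | zero =>
    intro π σ a b o
    obtain ⟨g, c, d⟩ := h.orb (a.a 0 1) (b.a 0 1) o
    exact ⟨g, fun i _ _ => by rcases (by omega : i = 0 ∨ i = 1) with rfl | rfl <;> assumption⟩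
  | succ n ih =>
    intro π σ a b o
    obtain ⟨g, hg⟩ := ih (by omega) π σ a b o
    by_cases c : g • π (n + 2) = σ (n + 2)
    · exact ⟨g, fun i i1 i2 => by
        rcases (by omega : i ≤ n + 1 ∨ i = n + 2) with d | rfl
        exacts [hg i i1 d, c]⟩
    obtain ⟨ρ, r1, r2, u, u1, u2⟩ : Ext M₁ M₂ N (Od (σ (n + 1))) := by
      by_cases d : Od (σ (n + 1))
      exacts [eq_true d ▸ h1, eq_false d ▸ h2]
    obtain ⟨k, hk⟩ := ih (by omega) _ σ (r1.shift (N - (n + 1))) b (by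
      have := h.par r1 (0 + (N - (n + 1))) N
      have := h.par b 0 (n + 1)
      have : ((N : ℤ) - (0 + (N - (n + 1)))) % 2 = 0 ↔ ((n : ℤ) + 1 - 0) % 2 = 0 := by omega
      tauto)
    have v : ∀ i, 0 ≤ i → i ≤ (n : ℤ) + 1 → k * u * k⁻¹ ∈ St (σ i) := fun i i1 i2 =>
      hk i i1 i2 ▸ mem_St (u1 _ (by omega) (by omega))
    refine ⟨k * u * k⁻¹ * g, fun i i1 i2 => ?_⟩
    rw [mul_smul]
    rcases (by omega : i ≤ n + 1 ∨ i = n + 2) with d | rfl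
    · rw [hg i i1 d]; exact v i i1 d
    refine h.swap (b.a (n + 1) n) (hg _ (by omega) le_rfl ▸ (a.a (n + 1) (n + 2)).smul g) (b.a _ _)
      (hg n (by omega) (by omega) ▸ (a.smul g).n _ _) (b.n _ _) c (v _ (by omega) le_rfl)
      (v _ (by omega) (by omega)) fun d => u2 ?_
    rw [← hk _ (by omega) le_rfl, mem_Q] at d
    rwa [show (n : ℤ) + 1 + (N - (n + 1)) = N by omega] at d

theorem ZQ (a : x ∈ 𝐙 δ) : x ∈ 𝐐 δ := h.cp.Z_le_Q δ a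

theorem ZO (a : x ∈ 𝐙 δ) : x ∈ OZ 2 (𝐐 δ) := h.cp.Z_le_OZ δ a

theorem sqZ (a : x ∈ 𝐙 δ) : x * x = 1 := (sq x).symm.trans (ea_pow (h.cp.ea_Z δ) a)

theorem invZ (a : x ∈ 𝐙 δ) : x⁻¹ = x := inv_eq_of_mul_eq_one_right (h.sqZ a)

theorem commQ (a : x ∈ 𝐙 δ) (b : g ∈ 𝐐 δ) : Commute g x := h.cp.Z_le_cent δ a g b

omit h in
theorem commO (o : Od δ) (a : x ∈ 𝐙 δ) (b : g ∈ St δ) : Commute g x := (o b x a).symm

theorem memZ (e : Ad γ μ) (a : x ∈ St γ) (b : x ∈ St μ) (c : x * x = 1)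
    (d : St γ ⊓ St μ ≤ centralizer {x}) : x ∈ 𝐙 μ :=
  OZ_le_ZL (h.syl2 e.symm) (mem_OZ.2 ⟨⟨b, a⟩, fun _ k => mem_centralizer_singleton_iff.1 (d ⟨k.2, k.1⟩),
    (sq x).trans c⟩)

theorem Z_le (e : Ad γ μ) (o : Od μ) : 𝐙 μ ≤ 𝐙 γ := fun _ a => h.memZ e.symm (h.Q1 (h.ZQ a))
  (h.Q2 (h.ZQ a) e.symm) (h.sqZ a) fun _ k => mem_centralizer_singleton_iff.2 (commO o a k.1)

theorem one (e : Ad γ μ) (o : Od μ) (a : x ∈ 𝐙 μ) (b : g ∈ St γ) (c : g ∉ St μ) (d : Commute g x) :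
    x = 1 := zpowers_eq_bot.1 (h.bot e.symm (zpowers_le.2 (h.Q_le e.symm (h.ZQ a)))
  (norm_of_centralizer (centralizer_zpowers x ▸ fun _ k => mem_centralizer_singleton_iff.2 (commO o a k))) b c
  (norm_of_centralizer le_rfl (centralizer_zpowers x ▸ mem_centralizer_singleton_iff.2 d)))

theorem nb (e : Ad γ μ) (o : Od μ) {N : Subgroup X} (h1 : N ≤ St γ ⊓ St μ) (h2 : St γ ⊓ St μ ≤ 𝐍 N)
    (b : g ∈ St γ) (c : g ∉ St μ) (d : ∀ x ∈ N, Commute g x) : N = ⊥ := by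
  by_contra n
  have := h.finT γ μ
  have := finite_of_le h1
  refine inf_OZ_ne_bot (h.syl2 e).pg h1 h2 n (eq_bot_iff.2 fun x hx => h.one e o ?_ b c (d x hx.1))
  exact OZ_le_ZL (h.syl2 e.symm) (inf_comm (St γ) (St μ) ▸ hx.2)

theorem Zinf (e : Ad γ μ) (e1 : Ad γ ν) (n : μ ≠ ν) (o : ¬ Od γ) (a : x ∈ 𝐙 μ) (b : x ∈ 𝐙 ν) : x = 1 := by
  obtain ⟨g, g1, g2, g3⟩ := h.exists_notQ e1
  exact h.one e (h.od' e o) a g1 (fun k => g3 (h.two e e1 n g1 k g2)) (commO (h.od' e1 o) b g2)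

theorem cent (o : ¬ Od γ) (a : g ∈ St γ) (b : ∀ x ∈ 𝐙 γ, Commute g x) : g ∈ 𝐐 γ := by
  have k : ∀ μ, Ad γ μ → g ∈ St μ := fun μ e => by_contra fun k => h.cp.Z_ne μ (eq_bot_iff.2 fun x hx =>
    h.one e (h.od' e o) hx a k (b x (h.Z_le e (h.od' e o) hx)))
  obtain ⟨μ, e⟩ := exists_adj γ
  obtain ⟨ν, e1, n, -⟩ := h.third γ μ μ
  exact h.two e e1 n.symm a (k _ e) (k _ e1)

theorem fixZ (e : Ad γ μ) (a : t ∈ St γ) (b : t ∈ St μ) (c : t ∉ 𝐐 γ) (d : x ∈ OZ 2 (𝐐 γ))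
    (k : Commute t x) : x ∈ 𝐙 μ := h.memZ e (h.Q1 (mem_OZ.1 d).1) (h.Q2 (mem_OZ.1 d).1 e)
  ((sq x).symm.trans (mem_OZ.1 d).2.2) (h.sup_le e (fun q hq => mem_centralizer_singleton_iff.2
    ((mem_OZ.1 d).2.1 q hq)) a b c (mem_centralizer_singleton_iff.2 k))

theorem commZ (e : Ad γ μ) (a : t ∈ St γ) (b : t ∈ St μ) (d : x ∈ OZ 2 (𝐐 γ)) :
    t * x * t⁻¹ * x ∈ 𝐙 μ := by
  by_cases c : t ∈ 𝐐 γ
  · rw [(mem_OZ.1 d).2.1 t c, mul_inv_cancel_right, ← sq, (mem_OZ.1 d).2.2]; exact one_mem _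
  have d1 := conj_mem_of_mem_normalizer (norm_OZ (norm_pCoreOf 2 _) a) d
  refine h.fixZ e a b c (mul_mem d1 d) ?_
  have e1 : t * t * x = x * (t * t) := (mem_OZ.1 d).2.1 _ (h.ix e _ ⟨a, b⟩ _ ⟨a, b⟩ c c)
  have e2 := comm_of_ea (ea_OZ 2 _) d1 d
  calc t * (t * x * t⁻¹ * x) = t * t * x * t⁻¹ * x := by group
    _ = x * (t * x * t⁻¹) * t := by rw [e1]; group
    _ = _ := by rw [← e2]

theorem Zsup (e : Ad γ μ) (e1 : Ad γ ν) (n : μ ≠ ν) {K : Subgroup X} (a : 𝐙 μ ≤ K) (b : 𝐙 ν ≤ K) :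
    𝐙 γ ≤ K := ZL_le_iff.2 fun T hT x hx => by
  have := h.fin γ
  obtain ⟨g, g1, rfl⟩ := (h.syl2 e).exists_conj hT
  rw [cj_inf, cj_eq_self_of_mem g1, ← St_smul] at hx
  have e2 := e.smul_right g1
  have x1 : x ∈ 𝐙 (g • μ) := OZ_le_ZL (h.syl2 e2.symm) (inf_comm (St γ) _ ▸ hx)
  have x2 : x ∈ 𝐙 γ := OZ_le_ZL (h.syl2 e2) hx
  by_cases c : g • μ = μ
  · exact a (c ▸ x1)
  by_cases d : g • μ = ν
  · exact b (d ▸ x1)
  obtain ⟨t, t1, t2, t3⟩ := h.exists_notQ e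
  exact (K.mul_mem_cancel_left (b (h.swap e e2 e1 (Ne.symm c) n d t1 t2 t3 ▸ mem_Z.2 x1))).1
    (a (h.commZ e t1 t2 (h.ZO x2)))

theorem Q_not_le (e : Ad δ μ) : ∃ g, g ∈ 𝐐 μ ∧ g ∉ 𝐐 δ := SetLike.not_le_iff_exists.1 fun k => by
  have h1 := card_mul_relIndex (h.Q_le e)
  have h2 := card_mul_relIndex (h.Q_le e.symm)
  rw [(h.idx23 e).1] at h1
  rw [(h.idx23 e.symm).1, inf_comm, ← h1] at h2
  have := h.finQ δ
  have h3 := eq_of_le_of_card_ge k (by omega)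
  exact h.cp.Q_ne δ (eq_bot_of_norm h.am e (h.Q_le e) (norm_pCoreOf 2 _) (h3 ▸ norm_pCoreOf 2 _))

theorem far (e : ds δ μ < 𝐛) : 𝐙 δ ≤ 𝐐 μ := fun x a => by
  obtain ⟨ν, e1⟩ := exists_adj μ
  obtain ⟨κ, e2, n, -⟩ := h.third μ ν ν
  have := h.cp.Z_le_NK e a
  exact h.two e2 e1 n (NK_le _ this) (NK_le_adj e2 this) (NK_le_adj e1 this)

theorem aQ (k : Arc π) {i : ℤ} (a : x ∈ 𝐙 (π i)) (j : ℤ) (h1 : j - i < 𝐛 := by omega)
    (h2 : i - j < 𝐛 := by omega) : x ∈ 𝐐 (π j) :=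
  h.far (lt_of_le_of_lt (k.ds_le h.gen i j (𝐛 - 1)) (by omega)) a

theorem aS (k : Arc π) {i : ℤ} (a : x ∈ 𝐙 (π i)) (j : ℤ) (h1 : j - i ≤ 𝐛 := by omega)
    (h2 : i - j ≤ 𝐛 := by omega) : x ∈ St (π j) := h.cp.Z_le_St (k.ds_le h.gen i j 𝐛) a

theorem oQ (k : Arc π) {i : ℤ} (o : Od (π i)) (a : x ∈ 𝐙 (π i)) (j : ℤ) (h1 : j - i ≤ 𝐛 := by omega)
    (h2 : i - j ≤ 𝐛 := by omega) : x ∈ 𝐐 (π j) := by
  rcases lt_trichotomy i j with c | rfl | c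
  exacts [h.aQ k (h.Z_le (k.a (i + 1) i) o a) j, h.ZQ a, h.aQ k (h.Z_le (k.a (i - 1) i) o a) j]

theorem oS (k : Arc π) {i : ℤ} (o : Od (π i)) (a : x ∈ 𝐙 (π i)) (j : ℤ) (h1 : j - i ≤ 𝐛 + 1 := by omega)
    (h2 : i - j ≤ 𝐛 + 1 := by omega) : x ∈ St (π j) := by
  rcases lt_trichotomy i j with c | rfl | c
  exacts [h.aS k (h.Z_le (k.a (i + 1) i) o a) j, h.Q1 (h.ZQ a), h.aS k (h.Z_le (k.a (i - 1) i) o a) j]

theorem exists_crit : ∃ π : ℤ → Vx, Arc π ∧ ¬ Od (π 0) ∧ ∃ t ∈ 𝐙 (π 0), t ∉ 𝐐 (π 𝐛) := by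
  obtain ⟨α, α', h1, h2⟩ := h.cp.exists_crit
  obtain ⟨n, hn⟩ := Nat.exists_eq_add_one_of_ne_zero h.cp.crit_pos.ne'
  obtain ⟨π, a, rfl, rfl⟩ := h.geo n α α' (h2.trans hn)
  obtain ⟨t, t1, t2⟩ := SetLike.not_le_iff_exists.1 h1
  have t3 : t ∉ 𝐐 (π 𝐛) := fun k => t2 (h.cp.Q_le_NK _ (by rwa [hn] at k))
  exact ⟨π, a, fun o => t3 (h.oQ a o t1 _), t, t1, t3⟩

theorem two_le : 2 ≤ 𝐛 := by
  by_contra n
  obtain ⟨π, a, o, t, t1, t2⟩ := h.exists_crit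
  have := h.cp.crit_pos
  rw [show 𝐛 = 1 by omega] at t2
  have e := a.a 1 0
  obtain ⟨d, ⟨d1, d2⟩, d3, d4⟩ := h.three e (K := St (π 1) ⊓ Act (𝐐 (π 1)) (𝐙 (π 1))) inf_le_left
    (norm_inf le_normalizer (norm_Act (norm_pCoreOf 2 _) (norm_ZL 2 _))) (u := t)
    ⟨h.Q2 (h.ZQ t1) e.symm, norm_ZL 2 _ (h.Q2 (h.ZQ t1) e.symm), fun q hq => by
      have := inv_mem (h.commZ e.symm (h.Q2 hq e) (h.Q1 hq) (h.ZO t1))
      rw [h.invZ t1]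
      simpa [mul_assoc, h.invZ t1] using this⟩ (h.Q1 (h.ZQ t1)) t2
  have := h.finQ (π 1)
  refine d4 _ e (h.Q2 (h.char _ ⟨d1, mem_cent_of_comm_le (isPGroup_pCoreOf 2 _) (norm_pCoreOf 2 _ d1)
    (by rw [d3]; decide) ((comm_Act d2).trans (cent_symm ((zpowers_le.2 d1).trans (h.od' e.symm o))))⟩) e)

end C3

end CA.H13Gd
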