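import Cfsg.Agent.Lib.Loc.H13Gd2

/-! Amalgams of index `(3, 3)`: four-groups and even critical distance. -/

set_option autoImplicit false

namespace CA.H13Gd

open Subgroup Cfsg CA.Amb CA.AmbSyl CA.AmbCore CA.AmbRes CA.AmbChar CA.AmbSpe CA.AmbRed CA.AmbCos CA.AmbIso
open CA.AmbS3
open scoped commutatorElement

variable {X : Type*} [Group X] {M₁ M₂ : Subgroup X}

local notation "Vx" => CosetVertex M₁ M₂
local notation "𝐐 " δ:max => vertexQ 2 δ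
local notation "𝐙 " δ:max => vertexZ 2 δ
local notation "𝐛" => criticalDistance 2 M₁ M₂
local notation "𝐕 " n:max δ:max => vertexVIter 2 M₁ M₂ n δ

theorem card_le_comm {R Z : Subgroup X} [Finite Z] {d : X} (h : ∀ g ∈ R, g * d * g⁻¹ * d⁻¹ ∈ Z) :
    Nat.card R ≤ Nat.card Z * Nat.card ↥(R ⊓ centralizer {d}) := by
  rw [← card_mul_relIndex (inf_le_left : R ⊓ centralizer {d} ≤ R), inf_relIndex_left, mul_comm]
  refine Nat.mul_le_mul_right _ (Nat.card_le_card_of_injective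
    (fun q : R ⧸ (centralizer {d}).subgroupOf R => (⟨_, h _ q.out.2⟩ : Z)) fun q r e => ?_)
  rw [← q.out_eq', ← r.out_eq', QuotientGroup.eq, mem_subgroupOf, mem_centralizer_singleton_iff]
  have := mul_right_cancel (congrArg Subtype.val e)
  push_cast
  calc _ = (q.out : X)⁻¹ * (r.out * d * (r.out : X)⁻¹) * r.out := by group
    _ = _ := by rw [← this]; group

/-- `Z_μ` has order two for `μ` odd -/
def K1 (M₁ M₂ : Subgroup X) : Prop :=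
  ∀ μ : CosetVertex M₁ M₂, Od μ → ∀ x ∈ 𝐙 μ, ∀ y ∈ 𝐙 μ, x ≠ 1 → y ≠ 1 → x = y

open Classical in
/-- a nonidentity element of `Z_μ` -/
noncomputable def z (μ : Vx) : X := if h : ∃ x ∈ 𝐙 μ, x ≠ 1 then h.choose else 1

namespace C3
variable (h : C3 M₁ M₂) {γ δ μ ν κ : CosetVertex M₁ M₂} {g t x y : X} {π σ : ℤ → CosetVertex M₁ M₂}
include h

theorem z_spec (μ : Vx) : z μ ∈ 𝐙 μ ∧ z μ ≠ 1 := by
  have : ∃ x ∈ 𝐙 μ, x ≠ 1 := by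
    by_contra! k
    exact h.cp.Z_ne μ (eq_bot_iff.2 k)
  rw [z, dif_pos this]
  exact this.choose_spec

theorem zm (μ : Vx) : z μ ∈ 𝐙 μ := (h.z_spec μ).1

theorem k1_of (o : Od μ) (k : ∀ x ∈ 𝐙 μ, ∀ y ∈ 𝐙 μ, x ≠ 1 → y ≠ 1 → x = y) : K1 M₁ M₂ :=
  fun ν o' x hx y hy a b => by
    obtain ⟨γ, e⟩ := exists_adj μ
    obtain ⟨δ, e'⟩ := exists_adj ν
    obtain ⟨g, rfl, -⟩ := h.orb e' e (iff_of_true o' o)
    simpa using k _ (mem_Z.2 hx) _ (mem_Z.2 hy) (by simpa using a) (by simpa using b)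

theorem k1_of_ix (e : Ad γ μ) (o : ¬ Od γ) (k : Ix (𝐙 μ) (𝐙 γ)) : K1 M₁ M₂ := by
  obtain ⟨ν, e1, n, -⟩ := h.third γ μ μ
  refine h.k1_of (h.od' e1 o) fun x hx y hy a b => ?_
  have := h.Zinf e1 e n o (mul_mem hx hy) (k x (h.Z_le e1 (h.od' e1 o) hx) y (h.Z_le e1 (h.od' e1 o) hy)
    (mt (h.Zinf e1 e n o hx) a) (mt (h.Zinf e1 e n o hy) b))
  rw [eq_inv_of_mul_eq_one_left this, h.invZ hy]

theorem V1_le {K : Subgroup X} (a : 𝐙 δ ≤ K) (b : ∀ μ, Ad δ μ → 𝐙 μ ≤ K) : 𝐕 1 δ ≤ K :=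
  V_succ_le h.gen a fun μ e => V_le fun _ k => eq_of_ds h.gen (Nat.le_zero.1 k) ▸ b μ e

theorem aV (k : Arc π) {i : ℤ} (a : x ∈ 𝐙 (π i)) (j : ℤ) (n : ℕ) (h1 : i - j ≤ n := by omega)
    (h2 : j - i ≤ n := by omega) : x ∈ 𝐕 n (π j) := le_V (k.ds_le h.gen j i n) a

theorem V_St (n : ℕ) (e : ds δ μ + n ≤ 𝐛) : 𝐕 n δ ≤ St μ := V_le fun ν k => h.cp.Z_le_St (by
  have := ds_triangle h.gen ν δ μ
  rw [ds_comm ν δ] at this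
  omega)

theorem V_Q (n : ℕ) (e : ds δ μ + n < 𝐛) : 𝐕 n δ ≤ 𝐐 μ := V_le fun ν k => h.far (by
  have := ds_triangle h.gen ν δ μ
  rw [ds_comm ν δ] at this
  omega)

theorem crit_all {N : ℕ} (h1 : Ext M₁ M₂ N True) (h2 : Ext M₁ M₂ N False) (hN : 𝐛 ≤ N + 1) (k : Arc σ)
    (o : ¬ Od (σ 0)) : ∃ t ∈ 𝐙 (σ 0), t ∉ 𝐐 (σ 𝐛) := by
  obtain ⟨π, a, b, t, t1, t2⟩ := h.exists_crit
  obtain ⟨g, hg⟩ := h.trans h1 h2 (𝐛 - 1) (by omega) π σ a k (iff_of_false b o)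
  have := h.two_le
  exact ⟨_, hg 0 le_rfl (by omega) ▸ mem_Z.2 t1, hg 𝐛 (by omega) (by omega) ▸ mt mem_Q.1 t2⟩

theorem ext_two (s : Prop) : Ext M₁ M₂ 2 s := by
  obtain ⟨π, a, b, -⟩ := h.exists_crit
  obtain ⟨σ, c, d⟩ : ∃ σ : ℤ → Vx, Arc σ ∧ (Od (σ 2) ↔ s) := by
    by_cases k : s
    exacts [⟨_, a.shift 1, iff_of_true (h.eo a b _) k⟩, ⟨π, a, iff_of_false (h.ee a b _) k⟩]
  obtain ⟨g, g1, g2⟩ := h.Q_not_le (c.a 2 1)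
  refine ⟨σ, c, d, g, fun i _ _ => ?_, g2⟩
  rcases (by omega : i = 0 ∨ i = 1 ∨ i = 2) with rfl | rfl | rfl
  exacts [h.Q2 g1 (c.a _ _), h.Q1 g1, h.Q2 g1 (c.a _ _)]

theorem ext_crit (s : Prop) (e : 𝐛 % 2 = 1 ↔ s) : Ext M₁ M₂ 𝐛 s := by
  obtain ⟨π, a, b, t, t1, t2⟩ := h.exists_crit
  refine ⟨π, a, ?_, t, fun i _ _ => h.aS a t1 i, t2⟩
  have := h.par a 0 𝐛
  have : ((𝐛 : ℤ) - 0) % 2 = 0 ↔ ¬ 𝐛 % 2 = 1 := by omega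
  tauto

theorem cr_even (hb : 𝐛 % 2 = 0) (k : Arc π) (o : ¬ Od (π 0)) (t1 : t ∈ 𝐙 (π 0)) (t2 : t ∉ 𝐐 (π 𝐛)) :
    ∃ x ∈ 𝐙 (π 𝐛), x ∉ 𝐐 (π 0) := by
  by_contra! n
  exact t2 (h.cent (h.ee k o _) (h.aS k t1 _) fun x hx => (h.commQ t1 (n x hx)).symm)

theorem k1_even (hb : 𝐛 % 2 = 0) : K1 M₁ M₂ := by
  obtain ⟨π, k, o, t, t1, t2⟩ := h.exists_crit
  obtain ⟨x, x1, x2⟩ := h.cr_even hb k o t1 t2
  have := h.two_le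
  have f : ∀ u ∈ 𝐙 (π 0), u ∈ 𝐐 (π 𝐛) → u ∈ 𝐙 (π 1) := fun u a b =>
    h.fixZ (k.a 0 1) (h.aS k x1 _) (h.aS k x1 _) x2 (h.ZO a) (h.commQ x1 b).symm
  exact h.k1_of_ix (k.a 0 1) o fun u a v b c d => f _ (mul_mem a b) (h.ix (k.a 𝐛 (𝐛 - 1))
    _ ⟨h.aS k a _, h.aS k a _⟩ _ ⟨h.aS k b _, h.aS k b _⟩ (mt (f u a) c) (mt (f v b) d))

end C3

structure D3 (M₁ M₂ : Subgroup X) : Prop extends C3 M₁ M₂ where
  k1 : K1 M₁ M₂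

namespace D3
variable (h : D3 M₁ M₂) {γ δ μ ν κ : CosetVertex M₁ M₂} {g t x y : X} {π σ : ℤ → CosetVertex M₁ M₂}
include h

theorem mem_z (o : Od μ) (a : x ∈ 𝐙 μ) : x = 1 ∨ x = z μ :=
  or_iff_not_imp_left.2 fun b => h.k1 μ o x a _ (h.zm μ) b (h.z_spec μ).2

theorem Zle (o : Od μ) {K : Subgroup X} (a : z μ ∈ K) : 𝐙 μ ≤ K := fun x b => by
  rcases h.mem_z o b with rfl | rfl
  exacts [one_mem _, a]

theorem z_smul (o : Od μ) (g : X) : z (g • μ) = g * z μ * g⁻¹ :=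
  ((h.mem_z (od_smul.2 o) (mem_Z.2 (h.zm μ))).resolve_left (by simpa using (h.z_spec μ).2)).symm

theorem zz (e : Ad γ μ) (e1 : Ad γ ν) (n : μ ≠ ν) (o : ¬ Od γ) : z μ ≠ z ν := fun k =>
  (h.z_spec μ).2 (h.Zinf e e1 n o (h.zm μ) (k ▸ h.zm ν))

theorem zi (μ : Vx) : (z μ)⁻¹ = z μ := h.invZ (h.zm μ)

theorem zs (μ : Vx) : z μ * z μ = 1 := h.sqZ (h.zm μ)

theorem zZ (e : Ad γ μ) (o : ¬ Od γ) : z μ ∈ 𝐙 γ := h.Z_le e (h.od' e o) (h.zm μ)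

theorem z3 (e : Ad γ μ) (e1 : Ad γ ν) (e2 : Ad γ κ) (n1 : μ ≠ ν) (n2 : μ ≠ κ) (n3 : ν ≠ κ) (o : ¬ Od γ) :
    z μ * z ν = z κ := by
  obtain ⟨t, t1, t2, t3⟩ := h.exists_notQ e2
  have := h.commZ e2 t1 t2 (h.ZO (h.zZ e1 o))
  rw [← h.z_smul (h.od' e1 o), h.swap e2 e1 e n3.symm n2.symm n1.symm t1 t2 t3] at this
  exact (h.mem_z (h.od' e2 o) this).resolve_left fun k =>
    h.zz e e1 n1 o ((eq_inv_of_mul_eq_one_left k).trans (h.zi ν))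

theorem conjQ (e : Ad γ μ) (e1 : Ad γ ν) (n : μ ≠ ν) (o : ¬ Od γ) (a : g ∈ St γ) (b : g ∈ St μ)
    (c : g ∉ 𝐐 γ) : g * z ν * g⁻¹ = z μ * z ν := by
  obtain ⟨d1, d2, d3⟩ := h.mv e e1 n a b c
  rw [← h.z_smul (h.od' e1 o), h.z3 e e1 d1 n d2.symm d3.symm o]

theorem cQ (e : Ad γ μ) (e1 : Ad γ ν) (n : μ ≠ ν) (o : ¬ Od γ) (a : g ∈ St γ) (b : g ∈ St μ)
    (c : Commute g (z ν)) : g ∈ 𝐐 γ := by_contra fun k => (h.z_spec μ).2 (by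
  have := h.conjQ e e1 n o a b k
  rw [c.eq, mul_inv_cancel_right] at this
  exact mul_eq_right.1 this.symm)

theorem mem4 (e : Ad γ μ) (e1 : Ad γ ν) (n : μ ≠ ν) (o : ¬ Od γ) (a : y ∈ OZ 2 (𝐐 γ)) :
    y ∈ 𝐙 μ ∨ y * z ν ∈ 𝐙 μ := by
  obtain ⟨t, t1, t2, t3⟩ := h.exists_notQ e
  have y2 : y * y = 1 := (sq y).symm.trans (mem_OZ.1 a).2.2
  refine (h.mem_z (h.od' e o) (h.commZ e t1 t2 a)).imp (fun k => h.fixZ e t1 t2 t3 a ?_) fun k =>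
    h.fixZ e t1 t2 t3 (mul_mem a (h.ZO (h.zZ e1 o))) ?_
  · exact mul_inv_eq_iff_eq_mul.1 (mul_right_cancel (k.trans y2.symm))
  · have k1 : t * y * t⁻¹ = y * z μ := by
      rw [comm_of_ea (ea_OZ 2 _) a (h.ZO (h.zZ e o)), ← k, mul_assoc (t * y * t⁻¹), y2, mul_one]
    refine mul_inv_eq_iff_eq_mul.1 ?_
    rw [← conj_mul, k1, h.conjQ e e1 n o t1 t2 t3, mul_assoc, ← mul_assoc (z μ), h.zs, one_mul]

theorem F5 (o : ¬ Od γ) (a : y ∈ OZ 2 (𝐐 γ)) : y ∈ 𝐙 γ := by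
  obtain ⟨μ, e⟩ := exists_adj γ
  obtain ⟨ν, e1, n, -⟩ := h.third γ μ μ
  rcases h.mem4 e e1 n.symm o a with k | k
  exacts [h.Z_le e (h.od' e o) k, (mul_mem_cancel_right (h.zZ e1 o)).1 (h.Z_le e (h.od' e o) k)]

theorem cls (o : ¬ Od γ) (a : y ∈ 𝐙 γ) (b : y ≠ 1) : ∃ μ, Ad γ μ ∧ y = z μ := by
  obtain ⟨μ, e⟩ := exists_adj γ
  obtain ⟨ν, e1, n, -⟩ := h.third γ μ μ
  obtain ⟨κ, e2, n2, n3⟩ := h.third γ μ ν
  rcases h.mem4 e e1 n.symm o (h.ZO a) with k | k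
  · exact ⟨μ, e, (h.mem_z (h.od' e o) k).resolve_left b⟩
  rcases h.mem_z (h.od' e o) k with k | k
  · exact ⟨ν, e1, (eq_inv_of_mul_eq_one_left k).trans (h.zi ν)⟩
  · exact ⟨κ, e2, by rw [← h.z3 e e1 e2 n.symm n2.symm n3.symm o, ← k, mul_assoc, h.zs, mul_one]⟩

theorem ne2 (o : Od ν) (e1 : Ad ν γ) (e2 : Ad ν δ) (n : γ ≠ δ) (a : Ad γ μ) (b : μ ≠ ν) : z μ ∉ 𝐙 δ := fun k => by
  have o1 := h.ev e1 o
  have o2 := h.ev e2 o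
  have h1 := h.Zsup a e1.symm b (h.Zle (h.od' a o1) k) (h.Z_le e2.symm o)
  obtain ⟨κ, c, d⟩ := h.cls o2 k (h.z_spec μ).2
  have h2 := h.Zsup c e2.symm (fun e => h.zz a e1.symm b o1 (e ▸ d)) (h.Zle (h.od' c o2) (d ▸ h.zZ a o1))
    (h.Z_le e1.symm o)
  obtain ⟨g, g1, g2, g3⟩ := h.exists_notQ e2
  exact h.cp.Z_ne γ (h.bot e1.symm (fun _ a => h.Q_le e1.symm (h.ZQ a)) (norm_ZL 2 _) g1
    (fun k => g3 (h.two e1 e2 n g1 k g2)) (le_antisymm h1 h2 ▸ norm_ZL 2 _ g2))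

theorem card4 (o : ¬ Od γ) : Nat.card (𝐙 γ) ≤ 4 := by
  obtain ⟨μ, e⟩ := exists_adj γ
  obtain ⟨ν, e1, n, -⟩ := h.third γ μ μ
  have := h.cp.finZ γ
  have := h.cp.finZ μ
  have h1 := Ix.card (A := ⊥) (B := 𝐙 μ) fun x a y b c d => by
    rw [h.k1 μ (h.od' e o) x a y b c d, h.sqZ b]; exact one_mem _
  have h2 := Ix.card (A := 𝐙 μ) (B := 𝐙 γ) fun x a y b c d => by
    have := mul_mem ((h.mem4 e e1 n.symm o (h.ZO a)).resolve_left c)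
      ((h.mem4 e e1 n.symm o (h.ZO b)).resolve_left d)
    rwa [mul_assoc, (h.commQ (h.zZ e1 o) (h.ZQ b)).eq, ← mul_assoc (z ν), h.zs, one_mul] at this
  rw [inf_bot_eq, card_bot] at h1
  rw [inf_eq_right.2 (h.Z_le e (h.od' e o))] at h2
  omega

theorem zeq (hb : 𝐛 % 2 = 0) (k : Arc π) (o : ¬ Od (π 0)) (t1 : t ∈ 𝐙 (π 0)) (t2 : t ∉ 𝐐 (π 𝐛)) :
    z (π 1) = z (π (𝐛 - 1)) := by
  obtain ⟨x, x1, x2⟩ := h.cr_even hb k o t1 t2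
  have := h.two_le
  have h1 := h.commZ (k.a 0 1) (h.aS k x1 _) (h.aS k x1 _) (h.ZO t1)
  have h2 := inv_mem (h.commZ (k.a 𝐛 (𝐛 - 1)) (h.aS k t1 _) (h.aS k t1 _) (h.ZO x1))
  rw [show (t * x * t⁻¹ * x)⁻¹ = x * t * x⁻¹ * t by simp [mul_assoc, h.invZ x1, h.invZ t1]] at h2
  have h3 : x * t * x⁻¹ * t ≠ 1 := fun e => t2 (h.aQ k (h.fixZ (k.a 0 1) (h.aS k x1 _) (h.aS k x1 _) x2
    (h.ZO t1) (mul_inv_eq_iff_eq_mul.1 ((eq_inv_of_mul_eq_one_left e).trans (h.invZ t1)))) _)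
  exact ((h.mem_z (h.eo k o _) h1).resolve_left h3).symm.trans ((h.mem_z (h.eo k o _) h2).resolve_left h3)

theorem even_two (hb : 𝐛 % 2 = 0) : 𝐛 = 2 := by
  by_contra n
  have := h.two_le
  obtain ⟨π, k, o, t, t1, t2⟩ := h.exists_crit
  have e0 := h.zeq hb k o t1 t2
  by_cases c : Ext M₁ M₂ 𝐛 True
  · obtain ⟨κ, a1, a2, a3⟩ := h.third (π (𝐛 - 2)) (π (𝐛 - 2 - 1)) (π (𝐛 - 1))
    obtain ⟨σ, s1, s2, s3⟩ := h.branch k _ a1 a2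
    have o' : ¬ Od (σ 0) := s2 0 (by omega) ▸ o
    obtain ⟨u, u1, u2⟩ := h.crit_all c (h.ext_crit _ (by simp; omega)) (by omega) s1 o'
    have := h.zeq hb s1 o' u1 u2
    rw [s2 1 (by omega), e0, show σ (𝐛 - 1) = κ by rw [← s3]; congr 1; omega] at this
    exact h.zz (k.a _ _) a1 a3.symm (h.ee k o _) this
  obtain ⟨x, x1, x2⟩ := h.cr_even hb k o t1 t2
  have v1 : 𝐕 1 (π (-1)) ≤ St (π 𝐛) ⊓ St (π (𝐛 - 1)) := h.V1_le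
    (fun u a => ⟨h.oS k (h.eo k o _) a _, h.oS k (h.eo k o _) a _⟩) fun μ e u a => by
      by_cases d : μ = π (-1 + 1)
      · exact ⟨h.aS k (d ▸ a) _, h.aS k (d ▸ a) _⟩
      obtain ⟨σ, s1, s2, rfl⟩ := h.branch' k _ e d
      have o' : ¬ Od (σ 0) := s2 0 (by omega) ▸ o
      have a' : u ∈ 𝐙 (σ (0 + -2)) := by rwa [show (0 + -2 : ℤ) = -1 - 1 by omega]
      have u1 : u ∈ 𝐐 (σ (𝐛 + -2)) := by_contra fun m => by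
        have := h.zeq hb (s1.shift (-2)) (h.ee s1 o' (0 + -2)) a' m
        simp only [s2 _ (show (-1 : ℤ) ≤ 1 + -2 by omega), s2 _ (show (-1 : ℤ) ≤ 𝐛 - 1 + -2 by omega)] at this
        exact x2 (h.cQ (k.a 0 1) (k.a 0 (1 + -2)) (k.n _ _) o (h.aS k x1 _) (h.aS k x1 _)
          (this ▸ (h.commQ x1 (h.aQ k (h.zm _) _)).symm))
      have u2 : u ∈ 𝐐 (σ (𝐛 + -1)) := by_contra fun m => c ⟨_, s1.shift (-1), iff_of_true (h.eo s1 o' _) trivial,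
        u, fun i _ _ => by
          rcases (by omega : i < 𝐛 ∨ i = 𝐛) with f | rfl
          exacts [h.aS s1 a _, h.Q2 u1 (s1.a _ _)], m⟩
      rw [s2 _ (by omega)] at u2
      exact ⟨h.Q2 u2 (k.a _ _), h.Q1 u2⟩
  have := h.finT (π 𝐛) (π (𝐛 - 1))
  have := finite_of_le v1
  have v2 := h.bot (k.a (-1) 0) (le_inf (h.V_St 1 (by rw [ds_self]; omega))
    (h.V_St 1 (by rw [(k.a _ _).ds_eq]; omega))) (norm_V h.gen 1 _) (h.aS k x1 _)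
    (fun m => x2 (h.two (k.a 0 1) (k.a 0 (-1)) (k.n _ _) (h.aS k x1 _) (h.aS k x1 _) m))
    (mem_normalizer_of_cj_le (cj_le_iff'.2 fun v hv => by
      have := h.Zle (K := 𝐕 1 (π (-1))) (h.eo k o (𝐛 - 1)) (e0 ▸ h.aV k (h.zZ (k.a 0 1) o) _ _)
        (h.commZ (k.a 𝐛 (𝐛 - 1)) (v1 (inv_mem hv)).1 (v1 (inv_mem hv)).2 (h.ZO x1))
      simpa [mul_assoc, h.invZ x1] using mul_mem hv this))
  exact (h.z_spec _).2 (mem_bot.1 (v2 ▸ h.aV k (h.zm (π 0)) _ _))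

end D3

end CA.H13Gd
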