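import Cfsg.Agent.Lib.Loc.H13Gd3

/-! Amalgams of index `(3, 3)`: critical distance two. -/

set_option autoImplicit false

namespace CA.H13Gd

open Subgroup Cfsg CA.Amb CA.AmbSyl CA.AmbCore CA.AmbRes CA.AmbChar CA.AmbSpe CA.AmbRed CA.AmbCos CA.AmbIso
open CA.AmbS3
open scoped commutatorElement

variable {X : Type*} [Group X] {M₁ M₂ : Subgroup X}

local notation "Vx" => CosetVertex M₁ M₂
local notation "𝐐 " δ:max => vertexQ 2 δ
local notation "𝐙 " δ:max => vertexZ 2 δ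
local notation "𝐛" => criticalDistance 2 M₁ M₂
local notation "𝐕 " n:max δ:max => vertexVIter 2 M₁ M₂ n δ

namespace D3
variable (h : D3 M₁ M₂) {γ δ μ ν κ : CosetVertex M₁ M₂} {g t x y : X} {π σ : ℤ → CosetVertex M₁ M₂}
include h

theorem bound_two (hb : 𝐛 = 2) (k : Arc π) (o : ¬ Od (π 2)) : Nat.card ↥(St (π 2) ⊓ St (π 1)) ≤ 128 := by
  have cr : ∀ σ : ℤ → Vx, Arc σ → ¬ Od (σ 0) → z (σ (-1)) ∉ 𝐐 (σ 2) := fun σ s o m => by
    obtain ⟨t, t1, t2⟩ := h.crit_all (h.ext_two _) (h.ext_two _) (by omega) s o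
    rw [hb] at t2
    exact t2 (h.Zsup (s.a 0 (-1)) (s.a 0 1) (s.n _ _) (h.Zle (h.eo s o _) m) (fun _ a => h.aQ s a _) t1)
  have a1 := cr π k (h.ee k o _)
  have b1 : z (π 5) ∉ 𝐐 (π 2) := cr _ (k.rev 4) (h.ee k o _)
  have a2 := h.zZ (k.a 0 (-1)) (h.ee k o _)
  have b2 := h.zZ (k.a 4 5) (h.ee k o _)
  generalize z (π (-1)) = a at *
  generalize z (π 5) = b at *
  obtain ⟨κ, c1, c2, c3⟩ := h.third (π 2) (π 1) (π 3)
  obtain ⟨γ, d1, d2, d3⟩ := h.third (π 1) (π 0) (π 2)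
  have e1 := k.a 2 1
  have e3 := k.a 2 3
  have m1 : (a * b) • π 1 = π 3 := by
    rw [mul_smul, h.swap e3 e1 c1 (k.n _ _) c3.symm c2.symm (h.aS k b2 _) (h.aS k b2 _) b1,
      h.swap e1 c1 e3 c2.symm (k.n _ _) c3 (h.aS k a2 _) (h.aS k a2 _) a1]
  have m2 : (a * b) • π 3 = κ := by
    rw [mul_smul, show b • π 3 = π 3 from h.aS k b2 _,
      h.swap e1 e3 c1 (k.n _ _) c2.symm c3.symm (h.aS k a2 _) (h.aS k a2 _) a1]
  have C := h.nb e1 (h.od' e1 o) (N := 𝐐 (π 2) ⊓ 𝐂 (𝐕 2 (π 2))) (inf_le_left.trans (h.Q_le e1))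
    (inf_le_left.trans (norm_inf (norm_pCoreOf 2 _) (norm_centralizer (norm_V h.gen 2 _)))) (h.aS k b2 _)
    (fun m => b1 (h.two e1 e3 (k.n _ _) (h.aS k b2 _) m (h.aS k b2 _))) fun x hx => hx.2 _ (h.aV k b2 _ _)
  set R := 𝐐 (π 2) ⊓ 𝐐 (π 1) ⊓ 𝐐 (π 3) with hR
  have h0 : R ⊓ centralizer {a * b} ⊓ 𝐐 (π 0) ⊓ 𝐐 γ = ⊥ := le_bot_iff.1 (C ▸ fun g ⟨⟨⟨g1, g2⟩, g3⟩, g4⟩ => by
    have p1 : ∀ δ, Ad (π 1) δ → g ∈ 𝐐 δ := fun δ e => by
      rcases h.cases3 (k.a 1 0) e1.symm d1 (k.n _ _) d2.symm d3.symm e with rfl | rfl | rfl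
      exacts [g3, g1.1.1, g4]
    have p2 : ∀ μ : Vx, (∀ δ, Ad μ δ → g ∈ 𝐐 δ) → ∀ δ, Ad ((a * b) • μ) δ → g ∈ 𝐐 δ := fun μ p δ e => by
      have := (mem_Q (g := a * b)).2 (p ((a * b)⁻¹ • δ) (by have := e.smul (a * b)⁻¹; rwa [inv_smul_smul] at this))
      rwa [smul_inv_smul, ← mem_centralizer_singleton_iff.1 g2, mul_inv_cancel_right] at this
    refine ⟨g1.1.1, fun v hv => mem_centralizer_singleton_iff.1 (V_succ_le h.gen (K := centralizer {g})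
      (fun w a => mem_centralizer_singleton_iff.2 (h.commQ a g1.1.1).symm) (fun μ e => h.V1_le
        (fun w a => mem_centralizer_singleton_iff.2 (h.commQ (h.Z_le e (h.od' e o) a) g1.1.1).symm)
        fun δ e' w a => mem_centralizer_singleton_iff.2 (h.commQ a ?_).symm) hv)⟩
    rcases h.cases3 e1 e3 c1 (k.n _ _) c2.symm c3.symm e with rfl | rfl | rfl
    exacts [p1 δ e', p2 _ p1 δ (m1 ▸ e'), p2 _ (m1 ▸ p2 _ p1) δ (m2 ▸ e')])
  have := h.cp.finZ (π 2)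
  have h1 := card_le_comm (R := R) (Z := 𝐙 (π 2)) (d := a * b) fun g ⟨⟨_, g2⟩, g3⟩ => by
    have r1 := h.Z_le e1 (h.od' e1 o) (h.commZ (k.a 0 1) (h.Q2 g2 (k.a _ _)) (h.Q1 g2) (h.ZO a2))
    have r2 := h.Z_le e3 (h.od' e3 o) (h.commZ (k.a 4 3) (h.Q2 g3 (k.a _ _)) (h.Q1 g3) (h.ZO b2))
    have := mul_mem r1 (inv_conj_mem_of_mem_normalizer (norm_ZL 2 _ (h.aS k a2 _)) r2)
    rw [mul_inv_rev, h.invZ b2, h.invZ a2]
    convert this using 1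
    group
  have q1 : R ≤ 𝐐 (π 1) := inf_le_left.trans inf_le_right
  have q : ∀ δ, Ad (π 1) δ → R ≤ St δ ⊓ St (π 1) := fun δ e => q1.trans ((h.Q_le e).trans (inf_comm _ _).le)
  have h2 := h.cardQ (k.a 0 1) ((inf_le_left (b := centralizer {a * b})).trans (q _ (k.a _ _)))
  have h3 := h.cardQ d1.symm (((inf_le_left (b := 𝐐 (π 0))).trans
    (inf_le_left (b := centralizer {a * b}))).trans (q _ d1))
  have h4 := h.cardQ e1 le_rfl
  have h5 := h.cardQ e1.symm ((h.Q_le e1).trans (inf_comm _ _).le)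
  have h6 := h.cardQ e3.symm ((inf_le_left (b := 𝐐 (π 1))).trans ((h.Q_le e3).trans (inf_comm _ _).le))
  rw [inf_eq_right.2 (h.Q_le e1)] at h4
  rw [h0, card_bot] at h3
  have h7 := h1.trans (Nat.mul_le_mul_right _ (h.card4 o))
  rw [← hR] at h6
  omega

end D3

end CA.H13Gd
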