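import Cfsg.Agent.Lib.Loc.H13Gd4

/-! Amalgams of index `(3, 3)`: for odd critical distance all arcs are critical. -/

set_option autoImplicit false

namespace CA.H13Gd

open Subgroup Cfsg CA.Amb CA.AmbSyl CA.AmbCore CA.AmbRes CA.AmbChar CA.AmbSpe CA.AmbRed CA.AmbCos CA.AmbIso
open CA.AmbS3
open scoped commutatorElement

variable {X : Type*} [Group X] {M₁ M₂ : Subgroup X}

local notation "Vx" => CosetVertex M₁ M₂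
local notation "𝐐 " δ:max => vertexQ 2 δ
local notation "𝐙 " δ:max => vertexZ 2 δ
local notation "𝐛" => criticalDistance 2 M₁ M₂
local notation "𝐕 " n:max δ:max => vertexVIter 2 M₁ M₂ n δ

/-- `V_b ∩ Q_1 ≤ Q_0` on all arcs -/
def H2 (M₁ M₂ : Subgroup X) : Prop := ∀ π : ℤ → CosetVertex M₁ M₂, Arc π → ∀ i, ¬ Od (π i) →
  ∀ x ∈ vertexVIter 2 M₁ M₂ 1 (π (i + criticalDistance 2 M₁ M₂)), x ∈ 𝐐 (π (i + 1)) → x ∈ 𝐐 (π i)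

namespace C3
variable (h : C3 M₁ M₂) {γ δ μ ν κ : CosetVertex M₁ M₂} {g t x y : X} {π σ : ℤ → CosetVertex M₁ M₂} {i : ℤ}
include h

theorem V1_le' (o : Od δ) {K : Subgroup X} (b : ∀ μ, Ad δ μ → 𝐙 μ ≤ K) : 𝐕 1 δ ≤ K := by
  obtain ⟨μ, e⟩ := exists_adj δ
  exact h.V1_le ((h.Z_le e.symm o).trans (b μ e)) b

theorem V_Act (o : Od ν) : 𝐕 1 ν ≤ Act (𝐐 ν) (𝐙 ν) := h.V1_le' o fun γ e x a =>
  ⟨norm_ZL 2 _ (h.Q2 (h.ZQ a) e.symm), fun q hq => by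
    have := inv_mem (h.commZ e.symm (h.Q2 hq e) (h.Q1 hq) (h.ZO a))
    rw [h.invZ a]
    simpa [mul_assoc, h.invZ a] using this⟩

theorem mem_V {n : ℕ} (a : x ∈ 𝐕 n δ) : g * x * g⁻¹ ∈ 𝐕 n (g • δ) := cj_V_le h.gen n g δ (conj_mem_cj.2 a)

theorem V_smul (n : ℕ) (g : X) (δ : Vx) : 𝐕 n (g • δ) = cj g (𝐕 n δ) :=
  le_antisymm (le_cj_iff.2 ((cj_V_le h.gen n _ _).trans (by rw [inv_smul_smul]))) (cj_V_le h.gen n g δ)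

theorem caseI (hb : 𝐛 % 2 = 1) (k : Arc π) (o : ¬ Od (π 0)) (x1 : x ∈ 𝐕 1 (π 𝐛)) (x2 : x ∈ 𝐐 (π 1))
    (x3 : x ∉ 𝐐 (π 0)) : Ext M₁ M₂ 𝐛 False ∧ K1 M₁ M₂ := by
  have := h.two_le
  have s1 : x ∈ St (π 0) := h.Q2 x2 (k.a _ _)
  have c : Ext M₁ M₂ 𝐛 False := ⟨_, k.rev 𝐛, by simpa using o, x, fun i _ _ => by
    rcases (by omega : i < 𝐛 ∨ i = 𝐛) with f | rfl
    exacts [h.V_St 1 (by have := k.ds_le h.gen 𝐛 (𝐛 - i) (𝐛 - 1); omega) x1, by simpa using s1],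
    by simpa using x3⟩
  refine ⟨c, ?_⟩
  obtain ⟨κ, a1, a2, a3⟩ := h.third (π (𝐛 - 1)) (π (𝐛 - 1 - 1)) (π 𝐛)
  obtain ⟨σ, s2, s3, s4⟩ := h.branch k _ a1 a2
  obtain ⟨g, hg⟩ := h.trans (h.ext_crit _ (iff_of_true hb trivial)) c (𝐛 - 1) (by omega) π σ k s2
    (by rw [s3 0 (by omega)])
  have g1 : g ∈ St (π 1) := (hg 1 (by omega) (by omega)).trans (s3 1 (by omega))
  have g2 : g • π 𝐛 = κ := by rw [hg _ (by omega) (by omega), ← s4, sub_add_cancel]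
  have f : ∀ u ∈ 𝐙 (π 0), u ∈ 𝐐 (π 𝐛) → u ∈ 𝐙 (π 1) := fun u a b => by
    have b1 := h.commZ (k.a 0 1) s1 (h.Q1 x2) (h.ZO a)
    have b2 := (h.V_Act (h.eo k o _) x1).2 u b
    rw [h.invZ a] at b2
    have b3 := (mem_Z (g := g)).2 b2
    rw [g2, (commO (h.eo k o _) b1 g1).eq, mul_inv_cancel_right] at b3
    have := h.Zinf (k.a (𝐛 - 1) 𝐛) a1 a3.symm (h.ee k o _) b2 b3
    exact h.fixZ (k.a 0 1) s1 (h.Q1 x2) x3 (h.ZO a)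
      (mul_inv_eq_iff_eq_mul.1 ((eq_inv_of_mul_eq_one_left this).trans (h.invZ a)))
  exact h.k1_of_ix (k.a 0 1) o fun u a v b c d => f _ (mul_mem a b) (h.ix (k.a 𝐛 (𝐛 - 1))
    _ ⟨h.aS k a _, h.aS k a _⟩ _ ⟨h.aS k b _, h.aS k b _⟩ (mt (f u a) c) (mt (f v b) d))

theorem R2 (hb : 𝐛 % 2 = 1) (H : H2 M₁ M₂) (k : Arc π) (o : ¬ Od (π i)) (c : ¬ 𝐙 (π i) ≤ 𝐐 (π (i + 𝐛)))
    (x1 : x ∈ 𝐙 (π (i + 𝐛 + 2))) (x2 : x ∈ 𝐐 (π (i + 1))) : x = 1 := by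
  have := h.two_le
  obtain ⟨t, t1, t2⟩ := SetLike.not_le_iff_exists.1 c
  have e1 := k.a (i + 𝐛) (i + 𝐛 + 1)
  have e2 := k.a (i + 𝐛) (i + 𝐛 - 1)
  have e3 := k.a (i + 𝐛 + 1) (i + 𝐛 + 2)
  have o1 := h.eo k o (i + 𝐛 + 2)
  have x3 := h.Z_le e3 o1 x1
  have n1 := k.n (i + 𝐛 - 1) (i + 𝐛 + 1)
  obtain ⟨a1, a2, a3⟩ := h.mv e2 e1 n1 (h.aS k t1 _) (h.aS k t1 _) t2
  have x4 := (mem_Z (g := t)).2 x3
  rw [← (h.commQ t1 (H π k i o x (h.aV k x3 _ _) x2)).eq, mul_inv_cancel_right] at x4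
  obtain ⟨q, q1, q2⟩ := h.Q_not_le e1
  have x5 := (mem_Z (g := q)).2 x4
  rw [(h.commQ x3 q1).eq, mul_inv_cancel_right,
    h.swap e1 a1 e2 a3.symm n1.symm a2 (h.Q2 q1 e1.symm) (h.Q1 q1) q2] at x5
  let I : Vx → Subgroup X := fun μ => ⨅ δ, ⨅ _ : Ad μ δ, 𝐙 δ
  have hI : ∀ g μ, I (g • μ) = cj g (I μ) := norm_nbr fun g δ => Z_smul g δ
  have y1 : x ∈ I (π (i + 𝐛)) := mem_iInf.2 fun δ => mem_iInf.2 fun e => by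
    rcases h.cases3 e1 a1 e2 a3.symm n1.symm a2 e with rfl | rfl | rfl <;> assumption
  obtain ⟨s, s1, s2, s3⟩ := h.exists_notQ e3
  have n2 := k.n (i + 𝐛 + 2) (i + 𝐛)
  obtain ⟨b1, b2, b3⟩ := h.mv e3 e1.symm n2 s1 s2 s3
  have y2 : x ∈ I (s • π (i + 𝐛)) := by
    rw [hI, ← mul_inv_cancel_right x s, ← (commO o1 x1 s2).eq]
    exact conj_mem_cj.2 y1
  obtain ⟨r, r1, r2⟩ := h.Q_not_le e2
  have j1 : (⨅ μ, ⨅ _ : Ad (π (i + 𝐛 + 1)) μ, I μ) ≤ I (π (i + 𝐛)) := iInf₂_le _ e1.symm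
  have := h.bot e1.symm (j1.trans ((iInf₂_le _ e1).trans fun _ a => h.Q_le e1.symm (h.ZQ a)))
    (norm_of_eqv (F := fun γ => ⨅ μ, ⨅ _ : Ad γ μ, I μ) (norm_nbr hI) _) (h.Q2 r1 e2.symm)
    (fun m => r2 (h.two e1 e2 n1.symm (h.Q2 r1 e2.symm) m (h.Q1 r1)))
    (norm_of_centralizer le_rfl fun u a => (h.commQ (iInf₂_le (f := fun δ _ => 𝐙 δ) _ e2 (j1 a)) r1).symm)
  refine mem_bot.1 (this ▸ mem_iInf.2 fun μ => mem_iInf.2 fun e => ?_)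
  rcases h.cases3 e3 e1.symm b1 n2 b2.symm b3.symm e with rfl | rfl | rfl
  exacts [mem_iInf.2 fun δ => mem_iInf.2 fun e => h.Z_le e.symm o1 x1, y1, y2]

theorem k1_II (hb : 𝐛 % 2 = 1) (H : H2 M₁ M₂) : K1 M₁ M₂ := by
  obtain ⟨π, k, o, t, t1, t2⟩ := h.exists_crit
  have f := fun x => h.R2 (x := x) hb H k o fun m => t2 (by simpa using m t1)
  have o1 := h.eo k o (0 + 𝐛 + 2)
  refine h.k1_of o1 fun x a y b c d => ?_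
  have := f _ (mul_mem a b) (h.ix (k.a (0 + 1) 2) _ ⟨h.oS k o1 a _, h.oS k o1 a _⟩ _
    ⟨h.oS k o1 b _, h.oS k o1 b _⟩ (mt (f x a) c) (mt (f y b) d))
  rw [eq_inv_of_mul_eq_one_left this, h.invZ b]

theorem R3 (hb : 𝐛 % 2 = 1) (H : H2 M₁ M₂) (k : Arc π) (o : ¬ Od (π i)) (c : ¬ 𝐙 (π i) ≤ 𝐐 (π (i + 𝐛))) :
    ¬ 𝐙 (π (i + 𝐛 + 1)) ≤ 𝐐 (π (i + 1)) := fun m => (h.z_spec _).2 (h.R2 hb H k o c (h.zm _)
  (m (h.Z_le (k.a _ _) (h.eo k o _) (h.zm _))))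

theorem D2 (hb : 𝐛 % 2 = 1) (H : H2 M₁ M₂) (k : Arc π) (s : Arc σ) (o : ¬ Od (π i)) {j : ℤ}
    (e : ∀ n, 1 ≤ n → σ (j + n) = π (i + n)) (c : ¬ 𝐙 (π i) ≤ 𝐐 (π (i + 𝐛))) : ¬ 𝐙 (σ j) ≤ 𝐐 (σ (j + 𝐛)) := by
  have h1 := h.R3 hb H k o c
  have o1 := h.ee k o (i + (𝐛 + 1))
  rw [add_assoc, ← e _ (by omega), ← e _ le_rfl] at h1
  rw [← e _ (by omega)] at o1
  have := h.R3 (i := -(j + (𝐛 + 1))) hb H (s.rev 0) (by simpa only [zero_sub, neg_neg] using o1)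
    (by rwa [zero_sub, neg_neg, show 0 - (-(j + (𝐛 + 1)) + 𝐛) = j + 1 by omega])
  rwa [show 0 - (-(j + (𝐛 + 1)) + 𝐛 + 1) = j by omega, show 0 - (-(j + (𝐛 + 1)) + 1) = j + 𝐛 by omega] at this

omit h in
theorem nE (c : ¬ Ext M₁ M₂ 𝐛 False) (k : Arc π) (o : ¬ Od (π i))
    (f : ∀ l, i - 𝐛 ≤ l → l ≤ i → x ∈ St (π l)) : x ∈ 𝐐 (π i) := by_contra fun m =>
  c ⟨_, k.shift (i - 𝐛), by simpa using o, x, fun l _ _ => f _ (by omega) (by omega), by simpa using m⟩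

theorem S2 (hb : 𝐛 % 2 = 1) (H : H2 M₁ M₂) (E : ¬ Ext M₁ M₂ 𝐛 False) (k : Arc π) (o : ¬ Od (π i))
    (c : ¬ 𝐙 (π i) ≤ 𝐐 (π (i + 𝐛))) : ¬ 𝐕 1 (π (i - 1)) ≤ 𝐐 (π (i + 𝐛 - 2)) := fun v => by
  have := h.two_le
  have e1 : ∀ w ∈ 𝐕 1 (π (i - 1)), ∀ j, i - 1 ≤ j → j ≤ i + 𝐛 - 1 → w ∈ St (π j) := fun w a j _ _ => by
    rcases (by omega : j ≤ i + 𝐛 - 2 ∨ j = i + 𝐛 - 1) with f | rfl
    exacts [h.V_St 1 (by have := k.ds_le h.gen (i - 1) j (𝐛 - 1); omega) a, h.Q2 (v a) (k.a _ _)]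
  have e2 : ∀ w ∈ 𝐕 1 (π (i - 1)), w ∈ St (π (i + 𝐛)) ⊓ St (π (i + 𝐛 - 1)) := fun w a =>
    ⟨h.Q2 (nE E k (h.ee k o (i + 𝐛 - 1)) fun l _ _ => e1 w a l (by omega) (by omega)) (k.a _ _),
      e1 w a _ (by omega) le_rfl⟩
  have o1 := h.eo k o (i + 𝐛 + 2)
  have x1 := h.zm (π (i + 𝐛 + 2))
  have x2 := mt (h.R2 hb H k o c x1) (h.z_spec _).2
  generalize z (π (i + 𝐛 + 2)) = x at *
  have e := k.a (i + 1) i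
  obtain ⟨a1, a2, a3⟩ := h.mv (k.a (i + 1) (i + 2)) e (k.n _ _) (h.oS k o1 x1 _) (h.oS k o1 x1 _) x2
  have e3 : ∀ w ∈ 𝐕 1 (π (i - 1)), w ∈ 𝐐 (π (i + 𝐛)) → w ∈ 𝐕 2 (x • π i) := fun w a b => by
    have w1 : w ∈ 𝐐 (π (i + 𝐛 + 1)) := nE E k (h.ee k o _) fun l _ _ => by
      rcases (by omega : l ≤ i + 𝐛 - 1 ∨ l = i + 𝐛 ∨ l = i + 𝐛 + 1) with f | rfl | rfl
      exacts [e1 w a l (by omega) f, h.Q1 b, h.Q2 b (k.a _ _)]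
    have := V_le_V h.gen 1 ((k.a i (i - 1)).smul x) (h.mem_V (g := x) a)
    rwa [← (h.commQ (h.Z_le (k.a _ _) o1 x1) w1).eq, mul_inv_cancel_right] at this
  obtain ⟨t, t1, t2⟩ := SetLike.not_le_iff_exists.1 c
  have t3 : t ∈ 𝐕 2 (x • π i) := V_le_V h.gen 1 a1.symm (h.aV k t1 _ _)
  have t4 := h.aV k t1 (i - 1) 1
  have e4 : 𝐕 1 (π (i - 1)) ≤ 𝐕 2 (x • π i) := fun w a => by
    by_cases b : w ∈ 𝐐 (π (i + 𝐛))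
    exacts [e3 w a b, (mul_mem_cancel_right t3).1 (e3 _ (mul_mem a t4) (h.ix (k.a _ _) _ (e2 w a) _ (e2 t t4) b t2))]
  obtain ⟨s, s1, s2⟩ := h.Q_not_le e.symm
  obtain ⟨b1, b2, b3⟩ := h.mv e.symm (k.a i (i - 1)) (k.n _ _) (h.Q2 s1 e) (h.Q1 s1) s2
  have e5 : 𝐕 2 (π i) ≤ 𝐕 2 (x • π i) := V_succ_le h.gen (fun _ a => e4 (h.aV k a _ _)) fun μ m => by
    rcases h.cases3 e.symm (k.a i (i - 1)) b1 (k.n _ _) b2.symm b3.symm m with rfl | rfl | rfl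
    · exact V_le_V h.gen 1 a1.symm
    · exact e4
    · rw [h.V_smul, ← cj_eq_self (norm_V h.gen 2 _ (h.Q2 s1 a1))]
      exact cj_mono _ e4
  have v1 : 𝐕 2 (π i) ≤ St (π i) ⊓ St (π (i + 1)) :=
    le_inf (h.V_St 2 (by rw [ds_self]; omega)) (h.V_St 2 (by rw [(k.a i (i + 1)).ds_eq]; omega))
  have := h.finT (π i) (π (i + 1))
  have := finite_of_le v1
  have := h.bot e.symm v1 (norm_V h.gen 2 _) (h.oS k o1 x1 _) a3 (mem_normalizer_of_le_cj (h.V_smul 2 x _ ▸ e5))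
  exact t2 (mem_bot.1 (this ▸ h.aV k t1 i 2) ▸ one_mem _)

theorem S3 (hb : 𝐛 % 2 = 1) (H : H2 M₁ M₂) (E : ¬ Ext M₁ M₂ 𝐛 False) (k : Arc π) (o : ¬ Od (π (i + 2)))
    (c : ¬ 𝐙 (π (i + 2)) ≤ 𝐐 (π (i + 2 + 𝐛))) : ¬ 𝐙 (π i) ≤ 𝐐 (π (i + 𝐛)) := fun m => by
  have := h.two_le
  refine h.S2 hb H E k o c (h.V1_le' (h.eo k o _) fun μ e => ?_)
  by_cases d : μ = π (i + 2 - 1 + 1)
  · exact d ▸ fun _ a => h.aQ k a _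
  obtain ⟨σ, s1, s2, rfl⟩ := h.branch' k _ e d
  rw [show i + 2 - 1 - 1 = i by omega, show i + 2 + 𝐛 - 2 = i + 𝐛 by omega, ← s2 _ (by omega)]
  by_contra n
  exact h.D2 hb H s1 k (h.ee s1 (s2 (i + 2) (by omega) ▸ o) _) (fun n _ => (s2 _ (by omega)).symm) n m

theorem all_odd (hb : 𝐛 % 2 = 1) : K1 M₁ M₂ ∧ ∀ σ : ℤ → Vx, Arc σ → ¬ Od (σ 0) → ¬ 𝐙 (σ 0) ≤ 𝐐 (σ 𝐛) := by
  have k1 : Ext M₁ M₂ 𝐛 False → ∀ σ : ℤ → Vx, Arc σ → ¬ Od (σ 0) → ¬ 𝐙 (σ 0) ≤ 𝐐 (σ 𝐛) := fun c σ s o =>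
    SetLike.not_le_iff_exists.2 (h.crit_all (h.ext_crit _ (iff_of_true hb trivial)) c (by omega) s o)
  by_cases H : H2 M₁ M₂
  swap
  · simp only [H2, not_forall] at H
    obtain ⟨π, k, i, o, x, a, b, c⟩ := H
    have := h.caseI hb (k.shift i) (by rwa [zero_add]) (by rwa [add_comm]) (by rwa [add_comm]) (by rwa [zero_add])
    exact ⟨this.2, k1 this.1⟩
  refine ⟨h.k1_II hb H, ?_⟩
  by_cases E : Ext M₁ M₂ 𝐛 False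
  · exact k1 E
  intro σ s o
  have k2 : ∀ (n : ℕ) (τ : ℤ → Vx) i, Arc τ → ¬ Od (τ i) → ¬ 𝐙 (τ (i + 2 * n)) ≤ 𝐐 (τ (i + 2 * n + 𝐛)) →
      ¬ 𝐙 (τ i) ≤ 𝐐 (τ (i + 𝐛)) := fun n τ => by
    induction n with
    | zero => simp
    | succ n ih => exact fun i a b c => h.S3 hb H E a (h.ee a b _) (ih _ a (h.ee a b _)
        (by rwa [show i + 2 + 2 * n = i + 2 * (n + 1 : ℕ) by omega]))
  obtain ⟨π, k, o', t, t1, t2⟩ := h.exists_crit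
  obtain ⟨n, hn⟩ : ∃ n : ℕ, (𝐛 : ℤ) + 1 = 0 + 2 * n := ⟨(𝐛 + 1) / 2, by omega⟩
  obtain ⟨g, g1, g2⟩ := h.orb (k.a 1 2) (s.a (𝐛 + 2) (𝐛 + 3)) (iff_of_true (h.eo k o' _) (h.eo s o _))
  have a := s.glue ((k.smul g).shift (-(𝐛 + 1))) (𝐛 + 2) (by rw [← g1]; congr 2; omega)
    (by rw [show (𝐛 : ℤ) + 2 + 1 + -(𝐛 + 1) = 2 by omega, g2]; exact s.n _ _)
  have := k2 n _ 0 a (by rwa [if_pos (by omega)]) (h.D2 (i := 0) hb H (k.smul g) a (mt od_smul.1 o')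
    (fun m _ => by
      rcases (by omega : m = 1 ∨ 1 < m) with rfl | f
      · rw [if_pos (by omega), zero_add 1, g1]; congr 1; omega
      · rw [if_neg (by omega)]; congr 2; omega)
    fun m => t2 (mem_Q.1 (by simpa using m (mem_Z.2 t1))))
  rwa [if_pos (by omega), if_pos (by omega), zero_add] at this

end C3

end CA.H13Gd
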