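import Cfsg.Agent.Lib.Loc.H13Gd5

/-! Amalgams of index `(3, 3)`: odd critical distance is three. -/

set_option autoImplicit false

namespace CA.H13Gd

open Subgroup Cfsg CA.Amb CA.AmbSyl CA.AmbCore CA.AmbRes CA.AmbChar CA.AmbSpe CA.AmbRed CA.AmbCos CA.AmbIso
open CA.AmbS3
open scoped commutatorElement

variable {X : Type*} [Group X] {M₁ M₂ : Subgroup X}

local notation "Vx" => CosetVertex M₁ M₂
local notation "𝐐 " δ:max => vertexQ 2 δ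
local notation "𝐙 " δ:max => vertexZ 2 δ
local notation "𝐛" => criticalDistance 2 M₁ M₂
local notation "𝐕 " n:max δ:max => vertexVIter 2 M₁ M₂ n δ

/-- products of noncentral elements from the two other neighbours -/
def Ty (ν γ : Vx) (y : X) : Prop := ∃ (δ κ : Vx) (a b : X), Ad ν δ ∧ Ad ν κ ∧ γ ≠ δ ∧ γ ≠ κ ∧ δ ≠ κ ∧
  a ∈ 𝐙 δ ∧ a ∉ 𝐙 ν ∧ b ∈ 𝐙 κ ∧ b ∉ 𝐙 ν ∧ y = a * b

theorem Ty.smul {ν γ : Vx} {y : X} (h : Ty ν γ y) (g : X) : Ty (g • ν) (g • γ) (g * y * g⁻¹) := by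
  obtain ⟨δ, κ, a, b, e1, e2, n1, n2, n3, a1, a2, b1, b2, rfl⟩ := h
  exact ⟨g • δ, g • κ, _, _, e1.smul g, e2.smul g, mt (smul_left_cancel g) n1, mt (smul_left_cancel g) n2,
    mt (smul_left_cancel g) n3, mem_Z.2 a1, mt mem_Z.1 a2, mem_Z.2 b1, mt mem_Z.1 b2, conj_mul.symm⟩

theorem Ty.conj {ν γ : Vx} {y g : X} (h : Ty ν γ y) (a : g ∈ St ν) (b : g ∈ St γ) : Ty ν γ (g * y * g⁻¹) := by
  have := h.smul g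
  rwa [show g • ν = ν from a, show g • γ = γ from b] at this

theorem B3.arc3 (h : B3 M₁ M₂) {γ δ ν : Vx} (e1 : Ad ν γ) (e2 : Ad ν δ) (n : γ ≠ δ) :
    ∃ π : ℤ → Vx, Arc π ∧ π 0 = γ ∧ π 1 = ν ∧ π 2 = δ := by
  obtain ⟨π, k, rfl, rfl⟩ := h.exists_arc e2 1
  obtain ⟨σ, s, a, b⟩ := h.branch' k 1 e1 n
  exact ⟨σ, s, b, a _ le_rfl, a _ (by omega)⟩

namespace D3
variable (h : D3 M₁ M₂) {γ δ μ ν κ : CosetVertex M₁ M₂} {a g t x y : X} {π σ : ℤ → CosetVertex M₁ M₂}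
include h

theorem ixZ (e : Ad γ μ) (o : ¬ Od γ) : Ix (𝐙 μ) (𝐙 γ) := fun x a y b c d => by
  obtain ⟨ν, e1, n, -⟩ := h.third γ μ μ
  have := mul_mem ((h.mem4 e e1 n.symm o (h.ZO a)).resolve_left c)
    ((h.mem4 e e1 n.symm o (h.ZO b)).resolve_left d)
  rwa [mul_assoc, (h.commQ (h.zZ e1 o) (h.ZQ b)).eq, ← mul_assoc (z ν), h.zs, one_mul] at this

theorem ZZ (o : Od ν) (e1 : Ad ν γ) (e2 : Ad ν δ) (n : γ ≠ δ) (a : x ∈ 𝐙 γ) (b : x ∈ 𝐙 δ) : x ∈ 𝐙 ν := by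
  by_cases c : x = 1
  · exact c ▸ one_mem _
  obtain ⟨μ, e, rfl⟩ := h.cls (h.ev e1 o) a c
  exact by_contra fun m => h.ne2 o e1 e2 n e (fun d => m (d ▸ h.zm μ)) b

theorem conjZ (e : Ad γ μ) (o : ¬ Od γ) (a : g ∈ St γ) (b : g ∈ St μ) (c : g ∉ 𝐐 γ) (x1 : x ∈ 𝐙 γ)
    (x2 : x ∉ 𝐙 μ) : g * x * g⁻¹ = z μ * x := by
  rcases h.mem_z (h.od' e o) (h.commZ e a b (h.ZO x1)) with k | k
  · exact (x2 (h.fixZ e a b c (h.ZO x1)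
      (mul_inv_eq_iff_eq_mul.1 ((eq_inv_of_mul_eq_one_left k).trans (h.invZ x1))))).elim
  · rw [← k, mul_assoc _ x x, h.sqZ x1, mul_one]

theorem znZ (e : Ad γ μ) (e1 : Ad γ ν) (n : μ ≠ ν) (o : ¬ Od γ) : z μ ∉ 𝐙 ν := fun m =>
  (h.z_spec μ).2 (h.Zinf e e1 n o (h.zm μ) m)

theorem ty_mk (e1 : Ad ν γ) (e2 : Ad ν δ) (n : γ ≠ δ) (a1 : a ∈ 𝐙 δ) (a2 : a ∉ 𝐙 ν) (x1 : x ∈ St ν)
    (x2 : x ∈ St γ) (x3 : x ∉ 𝐐 ν) : Ty ν γ (a * (x * a * x⁻¹)) ∧ Ty ν γ (x * a * x⁻¹ * a) := by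
  obtain ⟨b1, b2, b3⟩ := h.mv e1 e2 n x1 x2 x3
  have c : x * a * x⁻¹ ∉ 𝐙 ν := fun m => a2 (mem_Z.1 ((show x • ν = ν from x1).symm ▸ m))
  exact ⟨⟨_, _, _, _, e2, b1, n, b2.symm, b3.symm, a1, a2, mem_Z.2 a1, c, rfl⟩,
    ⟨_, _, _, _, b1, e2, b2.symm, n, b3, mem_Z.2 a1, c, a1, a2, rfl⟩⟩

end D3

structure O3 (M₁ M₂ : Subgroup X) : Prop extends D3 M₁ M₂ where
  hb : criticalDistance 2 M₁ M₂ % 2 = 1
  all : ∀ σ : ℤ → CosetVertex M₁ M₂, Arc σ → ¬ Od (σ 0) → ¬ 𝐙 (σ 0) ≤ 𝐐 (σ (criticalDistance 2 M₁ M₂))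

namespace O3
variable (h : O3 M₁ M₂) {γ δ μ ν κ : CosetVertex M₁ M₂} {a b g t x y y' : X} {π σ : ℤ → CosetVertex M₁ M₂} {i : ℤ}
include h

theorem b3 : 3 ≤ 𝐛 ∧ 𝐛 % 2 = 1 := by
  have := h.two_le
  have := h.hb
  omega

theorem cr (k : Arc π) (o : Od (π i)) (j : ℤ) (e : j = i + 𝐛 + 1 ∨ i = j + 𝐛 + 1 := by omega) :
    z (π i) ∉ 𝐐 (π j) := fun m => by
  have := h.b3
  rcases e with rfl | e
  · refine h.all _ (k.shift (i + 1)) (h.oe k o _) ?_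
    rw [zero_add, show (𝐛 : ℤ) + (i + 1) = i + 𝐛 + 1 by omega]
    exact h.Zsup (k.a _ i) (k.a _ (i + 2)) (k.n _ _) (h.Zle o m) fun _ a => h.oQ k (h.oo k o _) a _
  · refine h.all _ (k.rev (i - 1)) (h.oe k o _) ?_
    rw [sub_zero, show i - 1 - 𝐛 = j by omega]
    exact h.Zsup (k.a _ i) (k.a _ (i - 2)) (k.n _ _) (h.Zle o m) fun _ a => h.oQ k (h.oo k o _) a _

theorem nbQ (e1 : Ad ν δ) (e2 : Ad ν κ) (a1 : a ∈ 𝐙 δ) : a ∈ 𝐐 κ := h.far (by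
  have := ds_triangle h.gen δ ν κ
  rw [e2.ds_eq, ds_comm δ ν, e1.ds_eq] at this
  have := h.b3
  omega) a1

theorem ty_Q (e : Ad ν γ) (k : Ty ν γ y) : y ∈ 𝐕 1 ν ∧ y ∈ 𝐐 γ ∧ y⁻¹ = y := by
  obtain ⟨δ, κ, a, b, e1, e2, -, -, -, a1, -, b1, -, rfl⟩ := k
  exact ⟨mul_mem (le_V e1.ds_eq.le a1) (le_V e2.ds_eq.le b1), mul_mem (h.nbQ e1 e a1) (h.nbQ e2 e b1), by
    rw [mul_inv_rev, h.invZ a1, h.invZ b1, (h.commQ b1 (h.nbQ e1 e2 a1)).eq]⟩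

theorem ty_ne (o : Od ν) (k : Ty ν γ y) : y ∉ 𝐙 ν := fun m => by
  obtain ⟨δ, κ, a, b, e1, e2, -, -, n, a1, -, b1, b2, rfl⟩ := k
  exact b2 (h.ZZ o e1 e2 n ((mul_mem_cancel_left a1).1 (h.Z_le e1.symm o m)) b1)

theorem ty_uniq (o : Od ν) (e : Ad ν γ) (k : Ty ν γ y) (k' : Ty ν γ y') : y' * y ∈ 𝐙 ν := by
  obtain ⟨δ, κ, a, b, e1, e2, n1, n2, n3, a1, a2, b1, b2, rfl⟩ := k
  obtain ⟨δ', κ', c, d, f1, f2, m1, m2, m3, c1, c2, d1, d2, rfl⟩ := k'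
  have i1 := h.ixZ e1.symm (h.ev e1 o)
  have i2 := h.ixZ e2.symm (h.ev e2 o)
  rcases (h.cases3 e e1 e2 n1 n2 n3 f1).resolve_left m1.symm with rfl | rfl <;>
    rcases (h.cases3 e e1 e2 n1 n2 n3 f2).resolve_left m2.symm with rfl | rfl
  · exact (m3 rfl).elim
  · rw [mul_assoc, ← mul_assoc d, ← (h.commQ d1 (h.nbQ e1 e2 a1)).eq, mul_assoc, ← mul_assoc]
    exact mul_mem (i1 _ c1 _ a1 c2 a2) (i2 _ d1 _ b1 d2 b2)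
  · rw [mul_assoc, ← mul_assoc d, (h.commQ b1 (h.nbQ e1 e2 (mul_mem d1 a1))).eq, ← mul_assoc]
    exact mul_mem (i2 _ c1 _ b1 c2 b2) (i1 _ d1 _ a1 d2 a2)
  · exact (m3 rfl).elim

theorem ty_Act (o : Od ν) (e : Ad ν γ) (k : Ty ν γ y) : y ∈ Act (𝐐 γ) (𝐙 γ) :=
  ⟨norm_ZL 2 _ (h.Q1 (h.ty_Q e k).2.1), fun q a => by
    have := inv_mem (h.Z_le e.symm o (h.ty_uniq o e k (k.conj (h.Q2 a e.symm) (h.Q1 a))))
    rw [mul_inv_rev, (h.ty_Q e k).2.2] at this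
    simpa [mul_assoc] using this⟩

theorem two_ty (o : ¬ Od γ) (e : Ad γ μ) (e1 : Ad γ ν) (n : μ ≠ ν) (k : Ty μ γ y) (k' : Ty ν γ y) : y ∈ 𝐙 γ := by
  obtain ⟨-, y1, y2⟩ := h.ty_Q e.symm k
  refine h.F5 o (mem_OZ.2 ⟨y1, fun q a => mul_inv_eq_iff_eq_mul.1 ?_, by rw [sq, mul_eq_one_iff_inv_eq, y2]⟩)
  exact (eq_inv_of_mul_eq_one_left (h.Zinf e e1 n o
    (h.ty_uniq (h.od' e o) e.symm k (k.conj (h.Q2 a e) (h.Q1 a)))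
    (h.ty_uniq (h.od' e1 o) e1.symm k' (k'.conj (h.Q2 a e1) (h.Q1 a))))).trans y2

theorem Y (k : Arc π) (o : Od (π i)) (j : ℤ) (e : j = i + 𝐛 + 3 := by omega) :
    Ty (π (i + 2)) (π (i + 3)) (z (π i) * z (π j) * z (π i) * z (π j)) ∧
      Ty (π (j - 2)) (π (j - 3)) (z (π i) * z (π j) * z (π i) * z (π j)) := by
  have := h.b3
  have o' := h.oo k o j
  have h1 := (h.ty_mk (k.a (i + 2) (i + 3)) (k.a _ (i + 1)) (k.n _ _) (h.zZ (k.a _ i) (h.oe k o _))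
    (h.znZ (k.a (i + 1) _) (k.a _ _) (k.n _ _) (h.oe k o _)) (h.oS k o' (h.zm _) _) (h.oS k o' (h.zm _) _)
    (h.cr k o' _)).1
  have h2 := (h.ty_mk (k.a (j - 2) (j - 3)) (k.a _ (j - 1)) (k.n _ _) (h.zZ (k.a _ j) (h.oe k o' _))
    (h.znZ (k.a (j - 1) _) (k.a _ _) (k.n _ _) (h.oe k o' _)) (h.oS k o (h.zm _) _) (h.oS k o (h.zm _) _)
    (h.cr k o _)).2
  rw [h.zi, ← mul_assoc, ← mul_assoc] at h1
  rw [h.zi] at h2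
  exact ⟨h1, h2⟩

theorem QQ (o : Od ν) (e1 : Ad ν γ) (e2 : Ad ν δ) (n : γ ≠ δ) : ∃ g ∈ 𝐐 ν, g ∈ 𝐐 γ ∧ g ∉ 𝐐 δ := by
  by_contra! m
  have := h.b3
  obtain ⟨κ, e3, n1, n2⟩ := h.third ν γ δ
  obtain ⟨π, k, rfl, rfl, rfl⟩ := h.arc3 e1 e3 n1.symm
  have o' := h.oo k o (𝐛 + 2)
  have x0 := h.zs (π (𝐛 + 2))
  have x1 := h.oS k o' (h.zm _) 1
  have x2 := h.oS k o' (h.zm _) 2
  have x3 := h.cr k o' 1
  have a1 := h.zZ (k.a 0 (-1)) (h.oe k o _)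
  have a2 := h.znZ (k.a 0 (-1)) (k.a 0 1) (k.n _ _) (h.oe k o _)
  generalize z (π (𝐛 + 2)) = x at *
  generalize z (π (-1)) = a at *
  have t := (h.ty_mk e3 e1 n1 a1 a2 x1 x2 x3).1
  have s1 := h.swap e3 e1 e2 n1 n2 n x1 x2 x3
  have s2 := h.swap e3 e2 e1 n2 n1 n.symm x1 x2 x3
  have b1 : x * a * x⁻¹ ∈ 𝐙 δ := s1 ▸ mem_Z.2 a1
  have b2 : x * a * x⁻¹ ∉ 𝐙 (π 1) := fun m => a2 (mem_Z.1 ((show x • π 1 = π 1 from x1).symm ▸ m))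
  obtain ⟨-, y1, y2⟩ := h.ty_Q e3 t
  refine h.ty_ne o t (h.memZ e3.symm (h.Q1 y1) (h.Q2 y1 e3.symm) (mul_eq_one_iff_inv_eq.2 y2)
    ((inf_comm _ _).le.trans (h.sup_le e3 (fun q q1 => ?_) x1 x2 x3 ?_))) <;>
    refine mem_centralizer_singleton_iff.2 (mul_inv_eq_iff_eq_mul.1 ?_) <;> rw [← conj_mul]
  · by_cases c : q ∈ 𝐐 (π 0)
    · rw [(h.commQ a1 c).eq, (h.commQ b1 (m q q1 c)).eq, mul_inv_cancel_right, mul_inv_cancel_right]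
    have d : q ∉ 𝐐 δ := fun d => c (mem_Q.1 (s1 ▸ m _ (conj_mem_of_mem_normalizer (norm_pCoreOf 2 _ x1) q1)
      (s2 ▸ mem_Q.2 d)))
    rw [h.conjZ e1.symm (h.ev e1 o) (h.Q2 q1 e1) (h.Q1 q1) c a1 a2,
      h.conjZ e2.symm (h.ev e2 o) (h.Q2 q1 e2) (h.Q1 q1) d b1 b2, ← (h.commQ (h.Z_le e1.symm o (h.zm _)) (h.ZQ a1)).eq,
      mul_assoc, ← mul_assoc (z _), h.zs, one_mul]
  · rw [(h.commQ b1 (h.nbQ e1 e2 a1)).eq]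
    congr 1
    calc _ = x * x * a * (x * x)⁻¹ := by group
      _ = a := by rw [x0]; group

theorem TZ (o : Od ν) (e : Ad ν γ) (k : Ty ν γ y) : y ∈ 𝐙 γ := by
  suffices H : ∃ (ν γ : Vx) (y : X), Od ν ∧ Ad ν γ ∧ Ty ν γ y ∧ y ∈ 𝐙 γ by
    obtain ⟨ν', γ', y', o', e', k', m⟩ := H
    obtain ⟨g, rfl, rfl⟩ := h.orb e' e (iff_of_true o' o)
    exact (mul_mem_cancel_right (mem_Z.2 m)).1 (h.Z_le e.symm o (h.ty_uniq o e (k'.smul g) k))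
  clear k
  have := h.b3
  obtain ⟨π, k, rfl, -⟩ := h.exists_arc e 0
  obtain ⟨y1, y2⟩ := h.Y k o (𝐛 + 3)
  generalize z (π 0) * z (π (𝐛 + 3)) * z (π 0) * z (π (𝐛 + 3)) = y at *
  by_cases c : 𝐛 = 3
  · rw [show (𝐛 : ℤ) + 3 - 3 = 0 + 3 by omega] at y2
    exact ⟨_, _, y, h.oo k o _, k.a _ _, y1, h.two_ty (h.oe k o _) (k.a _ _) (k.a _ _) (k.n _ _) y1 y2⟩
  have o1 := h.oo k o (-2)
  have u1 := h.zZ (k.a (-1) (-2)) (h.oe k o _)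
  have e1 := k.a (𝐛 - 1) (𝐛 + 3 - 3)
  have e2 := k.a (𝐛 + 3 - 3) (𝐛 + 3 - 2)
  have n1 := k.n (𝐛 - 1) (𝐛 + 3 - 2)
  have u2 := h.oS k o1 (h.zm _) (𝐛 - 1)
  obtain ⟨e3, -, n2⟩ := h.mv (k.a (𝐛 - 1) (𝐛 - 2)) e1 (k.n _ _) u2 (h.oS k o1 (h.zm _) _) (h.cr k o1 _)
  have y3 := y2.smul (z (π (-2)))
  rw [← (h.commQ u1 (h.V_Q 1 (by have := k.ds_le h.gen (0 + 2) (-1) 3; omega) (h.ty_Q (k.a _ _) y1).1)).eq,
    mul_inv_cancel_right] at y3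
  have e4 := e2.smul (z (π (-2)))
  have n3 : z (π (-2)) • π (𝐛 + 3 - 2) ≠ π (𝐛 - 1) := fun m => n1 (smul_left_cancel _ (u2.trans m.symm))
  have o2 := h.oo k o (𝐛 - 1)
  have o3 := h.ev e1 o2
  have o4 := h.ev e3 o2
  generalize z (π (-2)) • π (𝐛 + 3 - 2) = μ' at *
  generalize z (π (-2)) • π (𝐛 + 3 - 3) = γ' at *
  generalize π (𝐛 + 3 - 2) = μ at *
  generalize π (𝐛 + 3 - 3) = γ at *
  generalize π (𝐛 - 1) = ν at *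
  obtain ⟨g, g1, g2, g3⟩ := h.QQ o2 e3 e1 n2
  obtain ⟨b1, b2, b3⟩ := h.mv e1.symm e2 n1 (h.Q2 g1 e1) (h.Q1 g1) g3
  have y4 := y2.smul g
  rw [show g • γ = γ from h.Q2 g1 e1] at y4
  rcases h.mem_z (h.od' e4 o4) (h.ty_uniq (h.od' e4 o4) e4.symm y3 (y3.conj (h.Q2 g2 e4) (h.Q1 g2))) with m | m
  · rw [eq_inv_of_mul_eq_one_left m, (h.ty_Q e2.symm y2).2.2] at y4
    exact ⟨_, _, y, h.od' e2 o3, e2.symm, y2, h.two_ty o3 e2 b1 b3.symm y2 y4⟩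
  obtain ⟨r, r1, r2⟩ := h.Q_not_le e1
  have := (mul_mem (h.ty_Act (h.od' b1 o3) b1.symm y4) (h.ty_Act (h.od' e2 o3) e2.symm y2)).2 r r1
  rw [m, h.zi] at this
  exact ⟨_, _, _, o2, e1, (h.ty_mk e1 e3 n2.symm (h.zZ e4 o4) (h.znZ e4 e3.symm n3 o4) (h.Q2 r1 e1.symm)
    (h.Q1 r1) r2).1, by simpa only [mul_assoc] using this⟩

theorem Y5 (hb : 𝐛 ≠ 3) (k : Arc π) (o : Od (π i)) (j : ℤ) (e : j = i + 𝐛 + 3 := by omega) :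
    𝐛 = 5 ∧ z (π i) * z (π j) * z (π i) * z (π j) = z (π (i + 4)) := by
  have := h.b3
  obtain ⟨y1, y2⟩ := h.Y k o j
  generalize z (π i) * z (π j) * z (π i) * z (π j) = y at *
  have y3 := h.ty_ne (h.oo k o _) y1
  have y4 := h.TZ (h.oo k o _) (k.a _ _) y2
  obtain ⟨μ, e1, rfl⟩ := h.cls (h.oe k o _) (h.TZ (h.oo k o _) (k.a _ _) y1) fun m => y3 (m ▸ one_mem _)
  have o1 := h.od' e1 (h.oe k o _)
  by_cases c : μ = π (i + 3 + 1)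
  · subst c
    exact ⟨by_contra fun m => h.cr k o1 (i + 𝐛 + 5) (by omega) (h.aQ k y4 _), by rw [add_assoc]; rfl⟩
  obtain ⟨σ, s1, s2, rfl⟩ := h.branch' k _ e1 c
  exact (h.cr s1 o1 j (by omega) (s2 j (by omega) ▸ h.aQ k y4 _)).elim

theorem three_eq : 𝐛 = 3 := by
  by_contra hb
  have L : ∀ π : ℤ → Vx, Arc π → Od (π 1) → (z (π (-3)) * z (π 7)) ^ 4 = z (π 1) := fun π k o => by
    have b5 := (h.Y5 hb k o _ rfl).1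
    have o' := h.oo k o 7
    have x1 := h.oS k o' (h.zm _) 1
    have a := k.glue ((k.rev 2).smul (z (π 7))) 1 (by rw [show (2 : ℤ) - 1 = 1 by omega]; exact x1.symm)
      (by rw [show (2 : ℤ) - (1 + 1) = 0 by omega, sub_self]
          exact (h.mv (k.a 1 2) (k.a 1 0) (k.n _ _) x1 (h.oS k o' (h.zm _) 2) (h.cr k o' 1)).2.2)
    have := (h.Y5 hb a (i := -3) (by rw [if_pos (by omega)]; exact h.oo k o (-3)) 5).2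
    rw [if_pos (by omega), if_neg (by omega), if_pos (by omega), show (2 : ℤ) - 5 = -3 by omega,
      h.z_smul (h.oo k o _), h.zi] at this
    rw [show (1 : ℤ) = -3 + 4 by omega, ← this]
    simp only [pow_succ, pow_zero, one_mul, mul_assoc]
  obtain ⟨π, k, o, -⟩ := h.exists_crit
  have h1 := L π k (h.eo k o _)
  have h2 := L _ (k.rev 4) (h.eo k o (4 - 1))
  rw [show (4 : ℤ) - -3 = 7 by omega, show (4 : ℤ) - 7 = -3 by omega, show (4 : ℤ) - 1 = 3 by omega, ← h.zi (π 7), ← h.zi (π (-3)), ← mul_inv_rev, inv_pow, h1, h.zi] at h2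
  exact h.zz (k.a 2 1) (k.a 2 3) (k.n _ _) (h.ee k o _) h2

end O3

end CA.H13Gd
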