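import Cfsg.Agent.Lib.Loc.H13Gd6

/-! Goldschmidt's bound for amalgams of index `(3, 3)`. -/

set_option autoImplicit false

namespace CA.H13Gd

open Subgroup Cfsg CA.Amb CA.AmbSyl CA.AmbCore CA.AmbRes CA.AmbChar CA.AmbSpe CA.AmbRed CA.AmbCos CA.AmbIso
open CA.AmbS3
open scoped commutatorElement

variable {X : Type*} [Group X] {M₁ M₂ : Subgroup X}

local notation "Vx" => CosetVertex M₁ M₂
local notation "𝐐 " δ:max => vertexQ 2 δ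
local notation "𝐙 " δ:max => vertexZ 2 δ
local notation "𝐛" => criticalDistance 2 M₁ M₂
local notation "𝐕 " n:max δ:max => vertexVIter 2 M₁ M₂ n δ

/-- elements fixed by `u` modulo `B` -/
def Cm (u : X) (B : Subgroup X) : Subgroup X where
  carrier := {a | a ∈ 𝐍 B ∧ u * a * u⁻¹ * a⁻¹ ∈ B}
  one_mem' := ⟨one_mem _, by simp⟩
  mul_mem' := fun {a b} ha hb => ⟨mul_mem ha.1 hb.1, by
    have := mul_mem ha.2 (conj_mem_of_mem_normalizer ha.1 hb.2)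
    convert this using 1
    group⟩
  inv_mem' := fun {a} ha => ⟨inv_mem ha.1, by
    have := inv_conj_mem_of_mem_normalizer ha.1 (inv_mem ha.2)
    convert this using 1
    group⟩

theorem card_sup_zp {K : Subgroup X} {a : X} [Finite (zpowers a)] (h1 : a ∈ 𝐍 K) (h2 : a * a ∈ K) :
    Nat.card ↥(zpowers a ⊔ K) ≤ 2 * Nat.card K := by
  have f : ∀ n : ℤ, Even n → a ^ n ∈ K := fun n ⟨j, e⟩ => by
    rw [e, ← two_mul, zpow_mul, zpow_two]; exact zpow_mem h2 j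
  have h3 := Ix.card (A := K) (B := zpowers a) fun _ ⟨m, e1⟩ _ ⟨n, e2⟩ c d => by
    subst e1 e2
    exact zpow_add a m n ▸ f _ ((Int.not_even_iff_odd.1 (mt (f m) c)).add_odd (Int.not_even_iff_odd.1 (mt (f n) d)))
  have h4 := card_sup_mul_card_inf (zpowers_le.2 h1)
  have : Finite ↥(zpowers a ⊓ K) := finite_of_le inf_le_left
  refine Nat.le_of_mul_le_mul_right ?_ (Nat.card_pos (α := ↥(zpowers a ⊓ K)))
  rw [h4, mul_right_comm]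
  exact Nat.mul_le_mul_right _ h3

namespace O3
variable (h : O3 M₁ M₂) {γ δ μ ν κ : CosetVertex M₁ M₂} {a b g t x y y' : X} {π σ : ℤ → CosetVertex M₁ M₂} {i : ℤ}
include h

theorem Y3 (k : Arc π) (o : Od (π i)) (j : ℤ) (e : j = i + 6 := by omega) :
    z (π i) * z (π j) * z (π i) * z (π j) = z (π (i + 2)) * z (π (i + 4)) := by
  have := h.three_eq
  obtain ⟨y1, y2⟩ := h.Y k o j
  generalize z (π i) * z (π j) * z (π i) * z (π j) = y at *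
  have y3 := h.ty_ne (h.oo k o _) y1
  have y4 := h.ty_ne (h.oo k o _) y2
  rw [show j - 2 = i + 4 by omega] at y4
  obtain ⟨μ, e1, rfl⟩ := h.cls (h.oe k o _) (h.TZ (h.oo k o _) (k.a _ _) y1) fun m => y3 (m ▸ one_mem _)
  exact (h.z3 (k.a _ _) (k.a _ _) e1 (k.n _ _) (fun m => y3 (m ▸ h.zm _)) (fun m => y4 (m ▸ h.zm _))
    (h.oe k o _)).symm

theorem U3 (o : Od ν) (e1 : Ad ν γ) (e2 : Ad ν δ) (n : γ ≠ δ) : ∃ u ∈ 𝐕 2 γ, u ∈ 𝐐 ν ∧ u ∉ 𝐐 δ := by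
  have := h.three_eq
  obtain ⟨π, k, rfl, rfl, rfl⟩ := h.arc3 e1 e2 n
  obtain ⟨κ, e3, n1, n2⟩ := h.third (π 0) (π (0 + 1)) (π (-3 + 2))
  obtain ⟨σ, s, s1, s2⟩ := h.branch' k 0 e3 n1
  have o1 := h.oo k o (-3)
  have o2 := h.oo s (s1 1 (by omega) ▸ o) (-3)
  have y1 := h.Y3 k o1 3
  have y2 := h.Y3 s o2 3
  rw [s1 3 (by omega), s1 (-3 + 4) (by omega), show σ (-3 + 2) = κ by rw [← s2]; congr 1] at y2
  refine ⟨z (π (-3)) * z (σ (-3)), mul_mem (h.aV k (h.zZ (k.a (-2) _) (h.oe k o _)) _ _)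
    (s1 0 le_rfl ▸ h.aV s (h.zZ (s.a (-2) _) (h.oe s o2 _)) _ _), h.ix e1 _ ⟨h.oS k o1 (h.zm _) _, h.oS k o1 (h.zm _) _⟩
    _ ⟨s1 1 (by omega) ▸ h.oS s o2 (h.zm _) _, s1 0 le_rfl ▸ h.oS s o2 (h.zm _) _⟩ (h.cr k o1 _)
    (s1 1 (by omega) ▸ h.cr s o2 _), fun m => h.zz (k.a 0 _) e3 n2.symm (h.oe k o _) ?_⟩
  have c := (h.commQ (h.zZ (k.a 2 3) (h.oe k o _)) m).eq
  refine mul_right_cancel (y1.symm.trans (Eq.trans ?_ y2))
  congr 1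
  calc _ = z (π (-3)) * (z (π 3) * (z (π (-3)) * z (σ (-3)))) * z (σ (-3)) := by
        simp only [mul_assoc, h.zs, mul_one]
    _ = _ := by rw [← c]; simp only [← mul_assoc, h.zs, one_mul]

theorem W_Act (o : ¬ Od γ) : 𝐕 2 γ ≤ Act (𝐐 γ) (𝐙 γ) := by
  have f : 𝐙 γ ≤ Act (𝐐 γ) (𝐙 γ) := fun x a => ⟨le_normalizer a, fun q b => by
    rw [← (h.commQ a b).eq]; simp⟩
  refine V_succ_le h.gen f fun μ e => h.V1_le' (h.od' e o) fun δ e1 a a1 => ?_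
  by_cases c : a ∈ 𝐙 γ
  · exact f c
  refine ⟨norm_ZL 2 _ (h.Q1 (h.nbQ e1 e.symm a1)), fun q b => ?_⟩
  by_cases d : q ∈ 𝐐 μ
  · exact h.Z_le e (h.od' e o) ((h.V_Act (h.od' e o) (le_V e1.ds_eq.le a1)).2 q d)
  have := h.TZ (h.od' e o) e.symm (h.ty_mk e.symm e1 (fun m => c (m ▸ a1)) a1 (mt (h.Z_le e (h.od' e o) ·) c)
    (h.Q2 b e) (h.Q1 b) d).1
  rw [h.invZ a1]
  simpa only [mul_assoc] using this

theorem V8 (o : Od μ) (e1 : Ad μ γ) (e2 : Ad μ δ) (n : γ ≠ δ) (a1 : a ∈ 𝐙 δ) (a2 : a ∉ 𝐙 μ) {K : Subgroup X}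
    (k1 : 𝐙 γ ≤ K) (k2 : a ∈ K) : 𝐕 1 μ ≤ K := h.V1_le' o fun κ e c c1 => by
  by_cases c2 : c ∈ 𝐙 μ
  · exact k1 (h.Z_le e1.symm o c2)
  by_cases m : γ = κ
  · exact k1 (m ▸ c1)
  refine (mul_mem_cancel_left k2).1 (k1 ?_)
  by_cases m' : δ = κ
  · exact h.Z_le e1.symm o (h.ixZ e2.symm (h.ev e2 o) _ a1 _ (m' ▸ c1) a2 c2)
  · exact h.TZ o e1 ⟨δ, κ, a, c, e2, e, n, m, m', a1, a2, c1, c2, rfl⟩

theorem bound_three (k : Arc π) (o : ¬ Od (π 2)) : Nat.card ↥(St (π 2) ⊓ St (π 1)) ≤ 128 := by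
  have := h.three_eq
  have e := k.a 2 1
  have e0 := k.a 1 0
  have o1 := h.od' e o
  have WQ : 𝐕 2 (π 2) ≤ 𝐐 (π 2) := h.V_Q 2 (by rw [ds_self]; omega)
  have ZW : 𝐙 (π 2) ≤ 𝐕 2 (π 2) := fun _ a => h.aV k a _ _
  obtain ⟨u, u1, u2, u3⟩ := h.U3 o1 e0 e.symm (k.n _ _)
  obtain ⟨v, v1, v2, v3⟩ := h.U3 o1 e.symm e0 (k.n _ _)
  have w1 := h.aV k (h.zZ (k.a 4 5) (h.ee k o _)) 2 2
  have w2 := h.cr k (h.eo k o 5) 1
  have nW := norm_V (p := 2) h.gen 2 (π 2)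
  have f0 : 𝐕 2 (π 2) ≤ Cm u (𝐕 2 (π 2)) := fun w a =>
    ⟨le_normalizer a, mul_mem (conj_mem_of_mem_normalizer (nW (h.Q2 u2 e.symm)) a) (inv_mem a)⟩
  have f1 : ∀ q ∈ 𝐐 (π 2), q ∈ 𝐐 (π 0) → q ∈ Cm u (𝐕 2 (π 2)) := fun q a b =>
    ⟨nW (h.Q1 a), h.aV k ((h.W_Act (h.ee k o _) u1).2 q b) _ _⟩
  have f2 : ∀ q ∈ 𝐐 (π 2), q ∈ 𝐐 (π 1) → q ∈ Cm u (𝐕 2 (π 2)) := fun q a b => by
    by_cases c : q ∈ 𝐐 (π 0)
    exacts [f1 q a c, (mul_mem_cancel_right (f0 v1)).1 (f1 _ (mul_mem a (WQ v1))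
      (h.ix e0.symm _ ⟨h.Q2 b e0, h.Q1 b⟩ _ ⟨h.Q2 v2 e0, h.Q1 v2⟩ c v3))]
  obtain ⟨d, ⟨d1, d2⟩, d3, d4⟩ := h.three e (K := St (π 2) ⊓ Act (𝐐 (π 2)) (𝐕 2 (π 2))) inf_le_left
    (norm_inf le_normalizer (norm_Act (norm_pCoreOf 2 _) nW)) (u := u)
    ⟨h.Q2 u2 e.symm, nW (h.Q2 u2 e.symm), fun q a => by
      by_cases c : q ∈ 𝐐 (π 1)
      exacts [(f2 q a c).2, ((mul_mem_cancel_right (f0 w1)).1 (f2 _ (mul_mem a (WQ w1))
        (h.ix e.symm _ ⟨h.Q2 a e, h.Q1 a⟩ _ ⟨h.Q2 (WQ w1) e, h.Q1 (WQ w1)⟩ c w2))).2]⟩ (h.Q1 u2) u3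
  have d5 : d * d * d = 1 := by rw [← pow_three', ← d3, pow_orderOf_eq_one]
  have a1 := h.zZ (k.a 0 (-1)) (h.ee k o _)
  have a2 := h.znZ (k.a 0 (-1)) e0.symm (k.n _ _) (h.ee k o _)
  generalize z (π (-1)) = a at *
  have n0 := k.n 2 0
  generalize π 2 = γ at *
  generalize π 1 = μ at *
  generalize π 0 = δ at *
  have fx : d • γ = γ := d1
  have e1 := e.smul_right d1
  have e2 := e1.smul_right d1
  have Wle : ∀ K : Subgroup X, 𝐙 γ ≤ K → a ∈ K → d * a * d⁻¹ ∈ K → d * (d * a * d⁻¹) * d⁻¹ ∈ K → 𝐕 2 γ ≤ K :=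
    fun K k1 k2 k3 k4 => V_succ_le h.gen k1 fun ν f => by
      rcases h.cases3 e e1 e2 (fun m => d4 _ e m.symm) (fun m => d4 _ e (by
        have := congrArg (d • ·) m
        simp only [← mul_smul, ← mul_assoc, d5, one_smul] at this
        exact this)) (fun m => d4 _ e1 m.symm) f with rfl | rfl | rfl
      · exact h.V8 o1 e.symm e0 n0 a1 a2 k1 k2
      · exact h.V8 (od_smul.2 o1) e1.symm (e0.smul d) (fx ▸ mt (smul_left_cancel d) n0) (mem_Z.2 a1)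
          (mt mem_Z.1 a2) k1 k3
      · exact h.V8 (od_smul.2 (od_smul.2 o1)) e2.symm ((e0.smul d).smul d)
          (fx ▸ mt (smul_left_cancel d) (fx ▸ mt (smul_left_cancel d) n0)) (mem_Z.2 (mem_Z.2 a1))
          (mt mem_Z.1 (mt mem_Z.1 a2)) k1 k4
  have aW : a ∈ 𝐕 2 γ := V_le_V h.gen 1 e (le_V e0.ds_eq.le a1)
  have bW := conj_mem_of_mem_normalizer (nW d1) aW
  have cW := conj_mem_of_mem_normalizer (nW d1) bW
  have ai := h.invZ a1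
  have bi := h.invZ ((mem_Z (g := d)).2 a1)
  have ci := h.invZ ((mem_Z (g := d)).2 ((mem_Z (g := d)).2 a1))
  have dc : d * (d * (d * a * d⁻¹) * d⁻¹) * d⁻¹ = a := by
    calc _ = d * d * d * a * (d * d * d)⁻¹ := by group
      _ = a := by rw [d5]; group
  have := h.finQ γ
  have := h.cp.finZ γ
  have F0 : 𝐐 γ ⊓ 𝐂 (𝐕 2 γ) ⊓ centralizer {d} = ⊥ := by
    by_contra n
    have : Finite ↥(𝐐 γ ⊓ 𝐂 (𝐕 2 γ) ⊓ centralizer {d}) := finite_of_le (inf_le_left.trans inf_le_left)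
    refine inf_OZ_ne_bot (isPGroup_pCoreOf 2 _) (inf_le_left.trans inf_le_left) (le_normalizer_iff_cj.2 fun q a =>
      cj_le_iff'.2 fun x b => ?_) n (eq_bot_iff.2 fun x ⟨b, c⟩ => by_contra fun m => ?_)
    · have c := conj_mem_of_mem_normalizer (norm_inf (norm_pCoreOf 2 _) (norm_centralizer nW) (h.Q1 a)) b.1
      refine ⟨c, mem_centralizer_singleton_iff.2 (mul_inv_eq_iff_eq_mul.1 ?_).symm⟩
      calc _ = d * q * d⁻¹ * q⁻¹ * (q * (d * x * d⁻¹) * q⁻¹) * (d * q * d⁻¹ * q⁻¹)⁻¹ := by group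
        _ = _ := by rw [← mem_centralizer_singleton_iff.1 b.2, mul_inv_cancel_right, c.2 _ (d2.2 q a),
          mul_inv_cancel_right]
    · obtain ⟨ν, f, rfl⟩ := h.cls o (h.F5 o c) m
      exact m (h.one f (h.od' f o) (h.zm _) d1 (d4 _ f) (mem_centralizer_singleton_iff.1 b.2).symm)
  have F1 := card_le_comm (R := 𝐐 γ ⊓ centralizer {d}) (Z := 𝐙 γ) (d := a) fun g c => by
    simpa [mul_assoc] using inv_mem ((h.W_Act o aW).2 g c.1)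
  have F2 : 𝐐 γ ⊓ centralizer {d} ⊓ centralizer {a} = ⊥ := le_bot_iff.1 (F0 ▸ fun g ⟨⟨g1, g2⟩, g3⟩ => by
    have p : ∀ x ∈ centralizer {g}, d * x * d⁻¹ ∈ centralizer {g} := fun x c => mul_mem (mul_mem
      (mem_centralizer_singleton_iff.2 (mem_centralizer_singleton_iff.1 g2).symm) c)
      (inv_mem (mem_centralizer_singleton_iff.2 (mem_centralizer_singleton_iff.1 g2).symm))
    have q := mem_centralizer_singleton_iff.2 (mem_centralizer_singleton_iff.1 g3).symm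
    exact ⟨⟨g1, fun w c => mem_centralizer_singleton_iff.1 (Wle _ (fun x b =>
      mem_centralizer_singleton_iff.2 (h.commQ b g1).symm) q (p _ q) (p _ (p _ q)) c)⟩, g2⟩)
  generalize hb : d * a * d⁻¹ = b at *
  generalize hc : d * b * d⁻¹ = c at *
  have nH : ∀ H, 𝐙 γ ≤ H → H ≤ 𝐕 2 γ → 𝐕 2 γ ≤ 𝐍 H := fun H h1 h2 => le_normalizer_iff_cj.2 fun q f =>
    cj_le_iff'.2 fun w m => by simpa [mul_assoc] using mul_mem (h1 ((h.W_Act o f).2 w (WQ (h2 m)))) m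
  have sq : ∀ x ∈ 𝐕 2 γ, ∀ y ∈ 𝐕 2 γ, x⁻¹ = x → y⁻¹ = y → x * y * (x * y) ∈ 𝐙 γ := fun x x1 y y1 x2 y2 => by
    have := (h.W_Act o x1).2 y (WQ y1)
    rwa [x2, y2, mul_assoc] at this
  have H1 : zpowers (a * b) ⊔ 𝐙 γ ≤ 𝐕 2 γ := sup_le (zpowers_le.2 (mul_mem aW bW)) ZW
  have H2 : zpowers (b * c) ⊔ (zpowers (a * b) ⊔ 𝐙 γ) ≤ 𝐕 2 γ := sup_le (zpowers_le.2 (mul_mem bW cW)) H1
  have := finite_of_le ((zpowers_le.2 (mul_mem aW bW)).trans WQ)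
  have := finite_of_le ((zpowers_le.2 (mul_mem bW cW)).trans WQ)
  have := finite_of_le (H2.trans WQ)
  have c1 := card_sup_zp (nH _ le_rfl ZW (mul_mem aW bW)) (sq a aW b bW ai bi)
  have c2 := card_sup_zp (nH _ le_sup_right H1 (mul_mem bW cW)) (mem_sup_right (sq b bW c cW bi ci))
  have ab : a * b ∈ zpowers (b * c) ⊔ (zpowers (a * b) ⊔ 𝐙 γ) := mem_sup_right (mem_sup_left (mem_zpowers _))
  have bc : b * c ∈ zpowers (b * c) ⊔ (zpowers (a * b) ⊔ 𝐙 γ) := mem_sup_left (mem_zpowers _)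
  have zH : 𝐙 γ ≤ zpowers (b * c) ⊔ (zpowers (a * b) ⊔ 𝐙 γ) := le_sup_right.trans le_sup_right
  have ac := mul_mem ab bc
  rw [mul_assoc, ← mul_assoc b, mul_eq_one_iff_inv_eq.2 bi, one_mul] at ac
  have dH : d ∈ 𝐍 (zpowers (b * c) ⊔ (zpowers (a * b) ⊔ 𝐙 γ)) := mem_normalizer_of_cj_le (by
    rw [cj_sup, cj_sup, cj_zpowers, cj_zpowers, ← conj_mul, ← conj_mul, hb, hc, dc, cj_eq_self (norm_ZL 2 _ d1)]
    exact sup_le (zpowers_le.2 (by simpa [ai, ci] using inv_mem ac)) (sup_le (zpowers_le.2 bc) zH))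
  have nH' := nH _ zH H2
  generalize zpowers (b * c) ⊔ (zpowers (a * b) ⊔ 𝐙 γ) = H at *
  have WH := Wle (Cm d H) (fun x f => ⟨nH' (ZW f), zH (mul_mem (conj_mem_of_mem_normalizer (norm_ZL 2 _ d1) f)
    (inv_mem f))⟩) ⟨nH' aW, by simpa [hb, ai, bi] using inv_mem ab⟩ ⟨nH' bW, by simpa [hc, bi, ci] using inv_mem bc⟩
    ⟨nH' cW, by rwa [dc, ci]⟩
  have : Finite (zpowers d) := finite_zpowers.2 (orderOf_pos_iff.1 (by omega))
  have QH : ⁅𝐐 γ, zpowers d⁆ ≤ H := by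
    rw [← comm_comm_coprime (zpowers_le.2 (norm_pCoreOf 2 _ d1)) (coprime_card_of_isPGroup (isPGroup_pCoreOf 2 _)
      (by rw [Nat.card_zpowers, d3]; decide)) (.inl (isSolvable_zpowers d))]
    exact (commutator_mono (comm_Act d2) le_rfl).trans (comm_Act ⟨dH, fun w f => (WH f).2⟩)
  have F3 := card_le_comm (R := 𝐐 γ) (Z := H) (d := d) fun g f => QH (commutator_mem_commutator f (mem_zpowers d))
  have F4 := h.cardQ e le_rfl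
  rw [inf_eq_right.2 (h.Q_le e)] at F4
  rw [F2, card_bot] at F1
  have := h.card4 o
  have := F3.trans (Nat.mul_le_mul (show _ ≤ 16 by omega) (show _ ≤ 4 by omega))
  omega

end O3

theorem cardT {γ δ μ ν : Vx} (e : Ad δ μ) (e' : Ad γ ν) : Nat.card ↥(St γ ⊓ St ν) = Nat.card ↥(St δ ⊓ St μ) := by
  obtain ⟨g, ⟨rfl, rfl⟩ | ⟨rfl, rfl⟩⟩ := exists_smul_edge e e' <;> rw [St_smul, St_smul, ← cj_inf, card_cj]
  rw [inf_comm]

theorem C3.bound (h : C3 M₁ M₂) {δ μ : Vx} (e : Ad δ μ) : Nat.card ↥(St δ ⊓ St μ) ≤ 128 := by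
  obtain ⟨π, k, o, -⟩ := h.exists_crit
  rw [cardT (k.a 2 1) e]
  rcases Nat.mod_two_eq_zero_or_one 𝐛 with hb | hb
  · have h' : D3 M₁ M₂ := ⟨h, h.k1_even hb⟩
    exact h'.bound_two (h'.even_two hb) k (h.ee k o _)
  · exact O3.bound_three ⟨⟨h, (h.all_odd hb).1⟩, hb, (h.all_odd hb).2⟩ k (h.ee k o _)

theorem B3.od_iff (h : B3 M₁ M₂) {δ μ : Vx} (e : Ad δ μ) : Od δ ↔ St δ ≤ 𝐂 (OZ 2 (St δ ⊓ St μ)) := by
  refine ⟨fun o => le_trans o (centralizer_anti (OZ_le_ZL (h.syl2 e))), fun c => cent_symm (ZL_le_iff.2 fun T hT => ?_)⟩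
  have := h.fin δ
  obtain ⟨g, g1, rfl⟩ := (h.syl2 e).exists_conj hT
  rw [← cj_OZ, cj_eq_self (norm_of_centralizer c g1)]
  exact cent_symm c

theorem B3.bound (h : B3 M₁ M₂) {δ μ : Vx} (e : Ad δ μ) : Nat.card ↥(St δ ⊓ St μ) ≤ 128 := by
  by_cases c : ∀ γ : Vx, CharP 2 (St γ)
  swap
  · obtain ⟨γ, c⟩ := not_forall.1 c
    obtain ⟨ν, e'⟩ := exists_adj γ
    rw [cardT e' e]
    exact (h.not_char e' c).trans (by omega)
  by_cases d : ∀ γ ν : Vx, Ad γ ν → ¬ Od γ → Od ν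
  · refine C3.bound ⟨h, c, fun γ ν f => ⟨fun o o' => ?_, fun o => d _ _ f.symm o⟩⟩ e
    have := h.finT γ ν
    refine inf_OZ_ne_bot (h.syl2 f).pg le_rfl le_normalizer (fun m => h.not_le f (m ▸ bot_le))
      (eq_bot_iff.2 (inf_le_right.trans (eq_bot_of_norm h.am f (OZ_le 2 _)
        (norm_of_centralizer ((h.od_iff f).1 o)) (norm_of_centralizer ?_)).le))
    rw [inf_comm]
    exact (h.od_iff f.symm).1 o'
  simp only [not_forall] at d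
  obtain ⟨γ, ν, f, o, o'⟩ := d
  have k : A3 M₁ M₂ := ⟨⟨h.am, h.fin, c, fun _ _ e _ hT => (hT.eq_of_isPGroup (h.syl2 e).pg).symm ▸ h.syl2 e,
    fun δ e => by
      have := h.idx δ
      rw [e, relIndex_bot_right] at this
      omega⟩, fun _ _ e => (h.syl2 e).pg, h.idx, fun α β e m => by
      have := (h.od_iff e).2 m
      obtain ⟨g, ⟨rfl, rfl⟩ | ⟨rfl, rfl⟩⟩ := exists_smul_edge e f
      exacts [o (od_smul.2 this), o' (od_smul.2 this)]⟩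
  have := h.fin δ
  have h1 := card_le_of_le (inf_le_left : St δ ⊓ St μ ≤ St δ)
  rw [AmbS3b.card_St k e] at h1
  have := AmbS3b.card_D k e
  omega

theorem goldschmidt {P₁ P₂ : Subgroup X} [Finite P₁] [Finite P₂] (hgen : P₁ ⊔ P₂ = ⊤)
    (h₃ : ∀ N : Subgroup X, N ≤ P₁ ⊓ P₂ → N.Normal → N = ⊥)
    (s1 : SylIn 2 (P₁ ⊓ P₂) P₁) (s2 : SylIn 2 (P₁ ⊓ P₂) P₂) (i1 : (pCoreOf 2 P₁).relIndex P₁ = 6)
    (i2 : (pCoreOf 2 P₂).relIndex P₂ = 6) : Nat.card ↥(P₁ ⊓ P₂) ≤ 128 := by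
  have t : ∀ P : Subgroup X, IsPGroup 2 P → (pCoreOf 2 P).relIndex P ≠ 6 := fun P a => by
    rw [relIndex_eq_one.2 (le_pCoreOf le_rfl a le_normalizer)]; decide
  have h : B3 P₁ P₂ := by
    refine ⟨⟨hgen, fun k => t _ (s1.pg.to_le (le_inf (k ▸ le_top) le_rfl)) i2,
      fun k => t _ (s1.pg.to_le (le_inf le_rfl (k ▸ le_top))) i1, h₃⟩, fun δ => ?_, fun δ μ e => ?_, fun δ => ?_⟩
    · obtain ⟨x, a | a⟩ := exists_St δ <;> rw [a] <;> infer_instance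
    · obtain ⟨x, ⟨a, b⟩ | ⟨a, b⟩⟩ := e.stab <;> rw [a, b, ← cj_inf]
      · exact s1.conj x
      · rw [inf_comm]; exact s2.conj x
    · change (pCoreOf 2 (St δ)).relIndex _ = _
      obtain ⟨x, a | a⟩ := exists_St δ <;> rw [a, ← cj_pCoreOf, relIndex_cj] <;> assumption
  have := h.bound (adj_base 1)
  rwa [St_inl, St_inr, cj_one, cj_one] at this

end CA.H13Gd
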