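import Cfsg.Agent.Lib.Loc.H13Gd3
import Cfsg.Agent.Lib.Grp.H7SR

/-! Sectional 2-rank at most four: 2-groups with a four-group whose involutions have small centralizers. -/

set_option autoImplicit false

namespace CA.H13Sr

open Subgroup Cfsg CA.Amb CA.AmbSyl CA.AmbCore CA.AmbRes CA.AmbChar CA.AmbSpe CA.AmbIso CA.H13Gd
open scoped commutatorElement

variable {G : Type*} [Group G]

/-- sections inside `S` have rank at most four -/
def SRin (S : Subgroup G) : Prop :=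
  ∀ H N : Subgroup G, H ≤ S → N ≤ H → (∀ x ∈ H, x * x ∈ N) → Nat.card H ≤ 16 * Nat.card N

theorem cm {H N : Subgroup G} (h : ∀ x ∈ H, x * x ∈ N) {x y : G} (a : x ∈ H) (b : y ∈ H) :
    x * y * x⁻¹ * y⁻¹ ∈ N := by
  have := mul_mem (mul_mem (h x a) (h _ (mul_mem (inv_mem a) b))) (h _ (inv_mem b))
  convert this using 1
  group

theorem ix_cyc {r : G} {C N : Subgroup G} (h : C ≤ zpowers r) (h2 : ∀ x ∈ C, x * x ∈ N) : Ix N C := by
  obtain ⟨k, rfl⟩ := (le_zpowers_iff r C).1 h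
  generalize r ^ k = a at *
  have f : ∀ n : ℤ, Even n → a ^ n ∈ N := fun n ⟨j, e⟩ => by
    rw [e, ← two_mul, zpow_mul, zpow_two]; exact zpow_mem (h2 a (mem_zpowers a)) j
  rintro _ ⟨m, rfl⟩ _ ⟨n, rfl⟩ c d
  exact zpow_add a m n ▸ f _ ((Int.not_even_iff_odd.1 (mt (f m) c)).add_odd (Int.not_even_iff_odd.1 (mt (f n) d)))

theorem sq_out {H T : Subgroup G} (hH : IsPGroup 2 H) {x : G} (a : x ∈ H) (b : x ∉ T) :
    ∃ u ∈ H, u ∉ T ∧ u * u ∈ T := by
  obtain ⟨k, e⟩ := isPGroup_iff_mem.1 hH x a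
  induction k generalizing x with
  | zero => exact (b (by simpa using (show x = 1 by simpa using e) ▸ one_mem T)).elim
  | succ k ih =>
    by_cases c : x * x ∈ T
    exacts [⟨x, a, b, c⟩, ih (mul_mem a a) c (by rwa [← sq, ← pow_mul, ← pow_succ'])]

variable [Finite G]

theorem rel_le {C D R : Subgroup G} (h : ∀ d ∈ D, ∃ r ∈ R, r⁻¹ * d ∈ C) : C.relIndex D ≤ C.relIndex R := by
  choose! φ h1 h2 using h
  refine Nat.card_le_card_of_injective (fun q : D ⧸ C.subgroupOf D =>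
    ((⟨φ q.out, h1 _ q.out.2⟩ : R) : R ⧸ C.subgroupOf R)) fun p q h => ?_
  rw [← p.out_eq, ← q.out_eq]
  have h3 := QuotientGroup.eq.1 h
  have := mul_mem (mul_mem (inv_mem (h2 _ p.out.2)) h3) (h2 _ q.out.2)
  exact QuotientGroup.eq.2 (by simpa [mem_subgroupOf, mul_assoc] using this)

theorem card_le_rel {T H L : Subgroup G} {n : ℕ} (h : H ≤ L) (e : T.relIndex L ≤ n) :
    Nat.card H ≤ n * Nat.card ↥(T ⊓ H) := by
  rw [← card_inf_mul_relIndex T H, mul_comm]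
  exact Nat.mul_le_mul_right _ ((relIndex_le_of_le_right h (relIndex_ne_zero _ _)).trans e)

theorem half {K T : Subgroup G} (h : K < T) : 2 * Nat.card K ≤ Nat.card T := by
  rw [← card_mul_relIndex h.le, mul_comm]
  have := relIndex_ne_zero K T
  have := mt relIndex_eq_one.1 h.not_ge
  exact Nat.mul_le_mul_left _ (by omega)

theorem of_srin {S : Subgroup G} (hS : SylIn 2 S ⊤) (h : SRin S) : SectionalPRankLE 2 4 G := by
  refine H7SR.of_sr fun H N h1 h2 => ?_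
  obtain ⟨P, hP⟩ := exists_sylIn 2 H
  obtain ⟨g, -, hg⟩ := hS.exists_conj_le hP.pg le_top
  have h3 := h (cj g P) (cj g (N ⊓ P)) hg (cj_mono g inf_le_right) fun x hx => by
    obtain ⟨y, a, rfl⟩ := mem_cj'.1 hx
    rw [conj_mul]
    exact conj_mem_cj.2 ⟨sq y ▸ h2 y (hP.le a), mul_mem a a⟩
  rw [card_cj, card_cj, ← card_inf_mul_relIndex N P, mul_comm] at h3
  refine (rel_le fun d hd => ?_).trans (Nat.le_of_mul_le_mul_right h3 Nat.card_pos)
  rw [← syl_sup_res hP] at hd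
  obtain ⟨y, a, z, b, rfl⟩ := (mem_sup_of_norm (hP.le.trans (norm_res 2 H))).1 hd
  exact ⟨y, a, by simpa using res_le_of_pow (fun x hx => ⟨1, h2 x hx⟩) b⟩

theorem disj {T B C : Subgroup G} (hc : T ≤ 𝐂 T) (hB : B ≤ T) (b4 : Nat.card B = 4) (h : C ≤ T)
    (e : C ⊓ B = ⊥) : Nat.card C * 4 ≤ Nat.card T := by
  have := card_sup_mul_card_inf (norm_of_centralizer (h.trans (hc.trans (centralizer_anti hB))))
  rw [e, card_bot, mul_one, b4] at this
  exact this ▸ card_le_of_le (sup_le h hB)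

theorem e16 {S T B : Subgroup G} (hS : IsPGroup 2 S) (hT : T ≤ S) (hc : T ≤ 𝐂 T) (h2 : ∀ x ∈ T, x * x = 1)
    (t16 : Nat.card T = 16) (hB : B ≤ T) (b4 : Nat.card B = 4)
    (hb : ∀ b ∈ B, b ≠ 1 → ∀ g ∈ S, g * b = b * g → g ∈ T) : SRin S := fun H N hH hN sq => by
  have c4 : ∀ u ∈ S, u ∉ T → Nat.card ↥(T ⊓ centralizer {u}) ≤ 4 := fun u a b => by
    have := disj hc hB b4 (inf_le_left (b := centralizer {u})) (eq_bot_iff.2 fun x ⟨c, d⟩ => by_contra fun e =>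
      b (hb x d e u a (mem_centralizer_singleton_iff.1 c.2).symm))
    omega
  obtain ⟨M, hM⟩ : ∃ M, M = S ⊓ 𝐍 T := ⟨_, rfl⟩
  have m1 : M ≤ S := hM ▸ inf_le_left
  have m2 : M ≤ 𝐍 T := hM ▸ inf_le_right
  have m3 : T ≤ M := hM ▸ le_inf hT le_normalizer
  have m64 : Nat.card M ≤ 64 := by
    have k : ∀ b ∈ B, b ≠ 1 → ∀ K : Subgroup G, b ∈ K → Nat.card ↥⁅K, M⁆ ≤ 4 → Nat.card M ≤ 64 :=
      fun b a c K d e => by
        have h1 := card_le_comm (R := M) (Z := ⁅K, M⁆) (d := b) fun g f =>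
          commutator_comm K M ▸ commutator_mem_commutator f d
        have h3 := card_le_of_le (show M ⊓ centralizer {b} ≤ T from fun g f =>
          hb b a c g (m1 f.1) (mem_centralizer_singleton_iff.1 f.2))
        exact h1.trans (Nat.mul_le_mul e (t16 ▸ h3))
    have l := commutator_lt (hS.to_le m1) (hS.to_le hT) m2 fun e => by simp [e] at t16
    by_cases c : ⁅T, M⁆ ⊓ B = ⊥
    · obtain ⟨b, a, d⟩ := (bot_or_exists_ne_one B).resolve_left fun e => by simp [e] at b4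
      have := disj hc hB b4 l.le c
      exact k b a d T (hB a) (by omega)
    · obtain ⟨b, a, d⟩ := (bot_or_exists_ne_one _).resolve_left c
      have h1 := half l
      have h3 := half (commutator_lt (hS.to_le m1) (hS.to_le (l.le.trans hT)) (norm_comm_right T M)
        fun e => c (by rw [e, bot_inf_eq]))
      exact k b a.2 d _ a.1 (by omega)
  have i4 : T.relIndex M ≤ 4 := by
    have := card_mul_relIndex m3
    rw [t16] at this
    omega
  have n0 : 0 < Nat.card N := Nat.card_pos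
  by_cases c : H ≤ M
  · by_cases d : H ≤ T
    · have := card_le_of_le d
      omega
    obtain ⟨u, a, b⟩ := SetLike.not_le_iff_exists.1 d
    have h1 := card_le_rel c i4
    have h3 := card_le_comm (R := T ⊓ H) (Z := N) (d := u) fun g f => cm sq f.2 a
    have h4 := (card_le_of_le (inf_le_inf_right (centralizer {u}) (inf_le_left : T ⊓ H ≤ T))).trans (c4 u (hH a) b)
    have := h3.trans (Nat.mul_le_mul_left _ h4)
    omega
  obtain ⟨g, g1, g2, g3⟩ := exists_mem_normalizer_not_mem hS (lt_of_le_of_ne m1 fun e => c (e ▸ hH))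
  have nm : ∀ a ∈ S, cj a T ≤ T → a ∈ M := fun a b e => hM ▸ ⟨b, mem_normalizer_of_cj_le e⟩
  obtain ⟨U, hU⟩ : ∃ U, U = cj g T := ⟨_, rfl⟩
  have u1 : U ≤ M := hU ▸ cj_le_of_le m3 g2
  have u2 : M ≤ 𝐍 U := by rw [hU, ← cj_normalizer, ← cj_eq_self g2]; exact cj_mono g m2
  have u3 : U ≤ 𝐂 U := by rw [hU, ← cj_centralizer]; exact cj_mono g hc
  have s2 : ∀ a, ∀ x ∈ cj a T, x * x = 1 := fun a x f => by
    obtain ⟨y, b, rfl⟩ := mem_cj'.1 f
    rw [conj_mul, h2 y b]; group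
  have u16 : Nat.card U = 16 := by rw [hU, card_cj, t16]
  have w1 : ∀ u ∈ U, T ⊓ U ≤ T ⊓ centralizer {u} := fun u a x f =>
    ⟨f.1, mem_centralizer_singleton_iff.2 (u3 a x f.2)⟩
  have w2 := card_le_rel u1 i4
  have w4 : Nat.card ↥(T ⊓ U) ≤ 4 := by
    obtain ⟨u, a, b⟩ := SetLike.not_le_iff_exists.1 (mt (nm g g1) g3)
    exact (card_le_of_le (w1 u (hU ▸ a))).trans (c4 u (m1 (u1 (hU ▸ a))) b)
  have cw : ∀ t ∈ T, ∀ u ∈ U, u ∉ T → t * u = u * t → t ∈ U := fun t a u b d e =>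
    ((eq_of_le_of_card_ge (w1 u b) (by have := c4 u (m1 (u1 b)) d; omega)).ge
      ⟨a, mem_centralizer_singleton_iff.2 e⟩).2
  have mu : U ⊔ T = M := eq_of_le_of_card_ge (sup_le u1 m3) (by
    have := card_sup_mul_card_inf (u1.trans m2)
    rw [inf_comm, show Nat.card ↥(T ⊓ U) = 4 by omega, u16, t16] at this
    omega)
  have ea : ∀ A ≤ M, (∀ x ∈ A, x * x = 1) → A ≤ T ∨ A ≤ U := fun A a b => SubgroupClass.subset_union.1 fun x f => by
    obtain ⟨u, d, t, e, rfl⟩ := (mem_sup_of_norm (u1.trans m2)).1 (mu.ge (a f))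
    by_cases k : u ∈ T
    · exact .inl (mul_mem k e)
    · exact .inr (mul_mem d (cw t e u d k (H7SR.comm_of_sq ((pow_two _).trans (s2 g u (hU ▸ d)))
        ((pow_two _).trans (h2 t e)) ((pow_two _).trans (b _ f))).symm))
  have cT : ∀ a ∈ S, a ∉ M → cj a T ≤ M → cj a T = U := fun a b d e => eq_of_le_of_card_ge
    ((ea _ e (s2 a)).resolve_left (mt (nm a b) d)) (by rw [card_cj, t16, u16])
  have sw : ∀ a ∈ S ⊓ 𝐍 M, a ∉ M → cj a T = U ∧ cj a U = T := fun a b d =>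
    ⟨cT a b.1 d (cj_le_of_le m3 b.2), by
      rw [← cT a⁻¹ (inv_mem b.1) (mt (inv_mem_iff (x := a)).1 d) (cj_le_of_le m3 (inv_mem b.2)), cj_cj,
        mul_inv_cancel, cj_one]⟩
  have ix : Ix M (S ⊓ 𝐍 M) := fun a b a' b' d d' => nm _ (mul_mem b.1 b'.1)
    (by rw [← cj_cj, (sw a' b' d').1, (sw a b d).2])
  have fx : ∀ A ≤ S ⊓ 𝐍 M, ¬ A ≤ M → (∀ x ∈ A, x * x = 1) → Nat.card A ≤ 8 := fun A l n b => by
    obtain ⟨a, a1, a2⟩ := SetLike.not_le_iff_exists.1 n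
    have k : ∀ x ∈ A, a * x * a⁻¹ = x := fun x f => mul_inv_eq_iff_eq_mul.2 (H7SR.comm_of_sq
      ((pow_two _).trans (b a a1)) ((pow_two _).trans (b x f)) ((pow_two _).trans (b _ (mul_mem a1 f))))
    have h1 := (ix.mono l).card
    have h3 := card_le_of_le (show A ⊓ M ≤ T ⊓ U from fun x f => by
      rcases ea (A ⊓ M) inf_le_right fun x f => b x f.1 with e | e
      exacts [⟨e f, (sw a (l a1) a2).1 ▸ k x f.1 ▸ conj_mem_cj.2 (e f)⟩,
        ⟨(sw a (l a1) a2).2 ▸ k x f.1 ▸ conj_mem_cj.2 (e f), e f⟩])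
    omega
  have hS2 : S ⊓ 𝐍 M = S := eq_of_inf_normalizer_le hS inf_le_left fun h ⟨h1, h3⟩ => by
    have l : cj h T ≤ S ⊓ 𝐍 M := cj_le_of_le (m3.trans (le_inf m1 le_normalizer)) h3
    by_cases d : h ∈ M
    · exact ⟨h1, le_normalizer d⟩
    by_cases e : cj h T ≤ M
    · refine ⟨h1, (mul_mem_cancel_left (inv_mem g2)).1 (le_normalizer (nm _ (mul_mem (inv_mem g1) h1) ?_))⟩
      rw [← cj_cj, cT h h1 d e, hU, cj_inv_cj]
    · have := fx _ l e (s2 h)
      rw [card_cj] at this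
      omega
  rw [← hS2] at hH
  by_cases d : N = ⊥
  · have := fx H hH c fun x f => mem_bot.1 (d ▸ sq x f)
    omega
  have h1 := (ix.mono hH).card
  have h3 := card_le_rel (inf_le_right : H ⊓ M ≤ M) i4
  have h4 := card_le_of_le (inf_le_inf_left T (inf_le_left : H ⊓ M ≤ H))
  suffices Nat.card ↥(T ⊓ H) ≤ 2 * Nat.card N by omega
  by_cases e : T ⊓ H ≤ U
  · have := card_le_of_le (le_inf inf_le_left e)
    have := (one_lt_card_iff_ne_bot N).2 d
    omega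
  obtain ⟨t, t1, t2⟩ := SetLike.not_le_iff_exists.1 e
  obtain ⟨a, a1, a2⟩ := SetLike.not_le_iff_exists.1 c
  have k : ∀ x, a * x * a⁻¹ ∈ U ↔ x ∈ T := fun x => (sw a (hH a1) a2).1 ▸ conj_mem_cj
  have t3 := (k t).2 t1.1
  have h5 : 1 < Nat.card ↥(U ⊓ N) := (one_lt_card_iff_ne_bot _).2 fun f => t2 (cw t t1.1 _ t3
    (fun m => t2 (conj_mem_cj.1 ((sw a (hH a1) a2).2.symm ▸ m))) (mul_inv_eq_iff_eq_mul.1 (mul_inv_eq_one.1
      (mem_bot.1 (f ▸ ⟨U.mul_mem (conj_mem_of_mem_normalizer (u2 (m3 t1.1)) t3) (U.inv_mem t3),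
        cm sq t1.2 (mul_mem (mul_mem a1 t1.2) (inv_mem a1))⟩)))))
  have h6 := rel_le (C := U) (D := T ⊓ H) (R := N) fun x f => ⟨_, cm sq f.2 a1, by
    simpa [mul_assoc] using (k x).2 f.1⟩
  have h7 := card_le_rel (le_refl (T ⊓ H)) h6
  have h8 := card_le_of_le (show U ⊓ (T ⊓ H) ≤ T ⊓ U from le_inf (inf_le_right.trans inf_le_left) inf_le_left)
  rw [← card_inf_mul_relIndex U N]
  nlinarith

theorem main {S T D B : Subgroup G} {r : G} (hS : IsPGroup 2 S) (hT : T ≤ S) (hD : D ⊔ B = T) (hc : D ≤ 𝐂 B)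
    (hi : D ⊓ B = ⊥) (b4 : Nat.card B = 4) (b2 : ∀ x ∈ B, x * x = 1) (r1 : r ∈ D)
    (r2 : Nat.card D = Nat.card (zpowers r) * 2) (r3 : (∀ d ∈ D, d * r = r * d) → r * r = 1)
    (hb : ∀ b ∈ B, b ≠ 1 → ∀ g ∈ S, g * b = b * g → g ∈ T) : SRin S := by
  have t1 := card_sup_mul_card_inf (norm_of_centralizer hc)
  rw [hD, hi, card_bot, mul_one, b4] at t1
  have d1 : D ≤ T := hD ▸ le_sup_left
  have b1 : B ≤ T := hD ▸ le_sup_right
  have p : 0 < Nat.card (zpowers r) := Nat.card_pos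
  by_cases c : T = S
  · intro H N h1 _ h3
    have h4 := card_mul_relIndex ((zpowers_le.2 r1).trans d1)
    rw [t1, r2, mul_assoc] at h4
    have h5 := card_le_rel (c ▸ h1) (Nat.eq_of_mul_eq_mul_left p h4).le
    have h6 := (ix_cyc (inf_le_left : zpowers r ⊓ H ≤ _) fun x f => h3 x f.2).card
    have := card_le_of_le (inf_le_right : zpowers r ⊓ H ⊓ N ≤ N)
    omega
  obtain ⟨x, x1, x2, x3⟩ := exists_mem_normalizer_not_mem hS (lt_of_le_of_ne hT c)
  obtain ⟨u, ⟨u1, u2⟩, u3, u4⟩ := sq_out (hS.to_le (inf_le_left : S ⊓ 𝐍 T ≤ S)) ⟨x1, x2⟩ x3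
  have e2 : ∀ x ∈ OZ 2 T, x * x = 1 := fun x a => (sq x).symm.trans (mem_OZ.1 a).2.2
  have ec : OZ 2 T ≤ 𝐂 (OZ 2 T) := ea_le_cent (ea_OZ 2 T)
  have bE : B ≤ OZ 2 T := fun b a => mem_OZ.2 ⟨b1 a, hD ▸ cent_symm (sup_le hc fun y f z e => H7SR.comm_of_sq
    ((pow_two _).trans (b2 z e)) ((pow_two _).trans (b2 y f)) ((pow_two _).trans (b2 _ (mul_mem e f)))) a,
    (sq b).trans (b2 b a)⟩
  have h1 := disj ec bE b4 (inf_le_left (b := centralizer {u})) (eq_bot_iff.2 fun x ⟨c, d⟩ => by_contra fun e =>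
    u3 (hb x d e u u1 (mem_centralizer_singleton_iff.1 c.2).symm))
  have h2 := card_le_comm (R := OZ 2 T) (Z := OZ 2 T ⊓ centralizer {u}) (d := u) fun g a => by
    have a1 := conj_mem_of_mem_normalizer (norm_OZ le_rfl u2) (inv_mem a)
    have a2 : u * u * g⁻¹ = g⁻¹ * (u * u) := (mem_OZ.1 (inv_mem a)).2.1 _ u4
    refine mem_inf.2 ⟨by simpa only [mul_assoc] using mul_mem a a1, mem_centralizer_singleton_iff.2 ?_⟩
    calc _ = g * (u * g⁻¹ * u⁻¹) * u := by group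
      _ = u * g * u⁻¹ * (g⁻¹ * (u * u)) * u⁻¹ := by
        rw [ec a1 g a, inv_eq_of_mul_eq_one_right (e2 g a)]; group
      _ = _ := by rw [← a2]; group
  have p2 : 0 < Nat.card ↥(OZ 2 T ⊓ centralizer {u}) := Nat.card_pos
  have h3 : 16 ≤ Nat.card (OZ 2 T) := by nlinarith
  have h4 := card_mul_relIndex d1
  rw [t1] at h4
  have h5 := card_le_rel (OZ_le 2 T) (Nat.eq_of_mul_eq_mul_left Nat.card_pos h4).le
  obtain ⟨f, ⟨f1, f2⟩, f3⟩ := SetLike.not_le_iff_exists.1 fun e : D ⊓ OZ 2 T ≤ zpowers r => by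
    have := (ix_cyc (N := ⊥) e fun x a => e2 x a.2).card
    rw [inf_bot_eq, card_bot] at this
    omega
  have h6 := card_mul_relIndex (zpowers_le.2 r1)
  rw [r2] at h6
  have z : ∀ d ∈ zpowers r, d ∈ centralizer {r} := fun d a => zpowers_le.2 (mem_centralizer_singleton_iff.2 rfl) a
  have h7 := r3 fun d a => mem_centralizer_singleton_iff.1 (by
    by_cases e : d ∈ zpowers r
    · exact z d e
    · exact (mul_mem_cancel_right (mem_centralizer_singleton_iff.2 ((mem_OZ.1 f2).2.1 r (d1 r1)).symm)).1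
        (z _ ((AmbS3.mul_mem_of_two (Nat.eq_of_mul_eq_mul_left p h6) a f1).2 (iff_of_false e f3))))
  have h8 : Nat.card (zpowers r) ≤ 2 := by
    rw [Nat.card_zpowers]; exact orderOf_le_of_pow_eq_one (by decide) ((sq r).trans h7)
  have h9 : OZ 2 T = T := eq_of_le_of_card_ge (OZ_le 2 T) (by omega)
  rw [h9] at e2 ec h3
  exact e16 hS hT ec e2 (by omega) b1 b4 hb

end CA.H13Sr
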