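import Cfsg.Agent.Lib.Grp.H7SR
import Cfsg.Agent.Lib.Grp.L0Con
import Cfsg.Agent.Lib.Lie.HigLin

/-! 2-constrained groups of sectional 2-rank at most four: linear algebra on `Q/Φ(Q)`. -/

set_option autoImplicit false
set_option linter.unusedSectionVars false

namespace CA.H5Sr
open Subgroup Cfsg CA.HigLin CA.H7SR Module
open scoped commutatorElement

universe u

theorem setup {X : Type u} [Group X] [Finite X] (hc : centralizer (pCore 2 X : Set X) ≤ pCore 2 X) :
    ∃ (W : Type u) (_ : AddCommGroup W) (_ : Module (ZMod 2) W) (π : X → W) (ρ : X →* Module.End (ZMod 2) W),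
      Add (pCore 2 X) ((frattini (pCore 2 X)).map (pCore 2 X).subtype) π ∧
      (∀ g, ∀ x ∈ pCore 2 X, ρ g (π x) = π (g * x * g⁻¹)) ∧ ∀ g, ρ g = 1 ↔ g ∈ pCore 2 X := by
  have hQ : IsPGroup 2 (pCore 2 X) := Core.isPGroup_pCore
  have hΦ := (PGFrattini.frattini_le_iff hQ).1 le_rfl
  have hN : (pCore 2 X).Normal := inferInstance
  have hle : ∀ K : Subgroup X, K.Normal → IsPGroup 2 K → K ≤ pCore 2 X := fun K _ h => Core.le_pCore h
  generalize pCore 2 X = Q at *
  have hcm : ∀ x ∈ Q, ∀ y ∈ Q, x * y * x⁻¹ * y⁻¹ ∈ (frattini Q).map Q.subtype := fun x hx y hy =>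
    ⟨_, hΦ.1 (commutator_mem_commutator (mem_top (⟨x, hx⟩ : Q)) (mem_top ⟨y, hy⟩)), rfl⟩
  obtain ⟨W, _, π, hπ⟩ := exists_add (map_subtype_le (frattini Q)) hcm
  obtain ⟨_⟩ : Nonempty (Module (ZMod 2) W) := ⟨AddCommGroup.zmodModule fun w => by
    obtain ⟨x, hx, rfl⟩ := hπ.surj w
    rw [two_nsmul, ← hπ.mul x hx x hx, ← pow_two]
    exact (hπ.zero _ (pow_mem hx 2)).2 ⟨_, hΦ.2 ⟨x, hx⟩, rfl⟩⟩
  have hΦn : ((frattini Q).map Q.subtype).Normal := inferInstance
  choose T hT using fun g : X => hπ.lift (fun x => π (g * x * g⁻¹)) (fun x hx y hy => by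
    rw [← hπ.mul _ (hN.conj_mem x hx g) _ (hN.conj_mem y hy g)]; congr 1; group) fun x hx' hx =>
      (hπ.zero _ (hN.conj_mem x hx' g)).2 (hΦn.conj_mem x hx g)
  have e1 : ∀ w, T 1 w = w := fun w => by
    obtain ⟨x, hx, rfl⟩ := hπ.surj w
    exact (hT 1 x hx).trans (by simp)
  have e2 : ∀ a b w, T (a * b) w = T a (T b w) := fun a b w => by
    obtain ⟨x, hx, rfl⟩ := hπ.surj w
    rw [hT _ x hx, hT _ x hx, hT _ _ (hN.conj_mem x hx b)]; congr 1; group
  obtain ⟨ρ, hρ⟩ : ∃ ρ : X →* Module.End (ZMod 2) W, ∀ g, ∀ x ∈ Q, ρ g (π x) = π (g * x * g⁻¹) :=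
    ⟨⟨⟨fun g => (T g).toZModLinearMap 2, LinearMap.ext e1⟩, fun a b => LinearMap.ext (e2 a b)⟩, hT⟩
  refine ⟨W, inferInstance, inferInstance, π, ρ, hπ, hρ, fun g => ⟨fun h => hle ρ.toHomUnits.ker inferInstance
    (fun x => ?_) (Units.ext h), fun h => LinearMap.ext fun w => ?_⟩⟩
  · obtain ⟨k, n, hn, e⟩ := Nat.exists_eq_pow_mul_and_not_dvd (orderOf_pos x).ne' 2 (by norm_num)
    have : (x.1 ^ 2 ^ k) ∈ Q := hc (Fus2.mem_centralizer_of_frattini hQ ?_ fun a ha q hq => ?_)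
    · obtain ⟨j, hj⟩ := hQ ⟨_, this⟩
      exact ⟨k + j, Subtype.ext (by simpa [pow_add, pow_mul] using congrArg Subtype.val hj)⟩
    · rw [orderOf_pow_of_dvd (by positivity) (by rw [Subgroup.orderOf_coe, e]; simp), Subgroup.orderOf_coe, e,
        Nat.mul_div_cancel_left _ (by positivity)]
      exact ((Nat.Prime.coprime_iff_not_dvd Nat.prime_two).2 hn).symm
    · have h1 : ρ a = 1 := congrArg Units.val (zpowers_le.2 (pow_mem x.2 _) ha : ρ.toHomUnits a = 1)
      have h2 := (hπ.eq_iff hq (hN.conj_mem q hq a)).1 (by rw [← hρ a q hq, h1]; rfl)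
      simpa [mul_assoc] using hΦn.conj_mem _ h2 q
  · obtain ⟨x, hx, rfl⟩ := hπ.surj w
    exact (hρ g x hx).trans (hπ.conj h hx)

section
variable {S W : Type*} [Group S] [AddCommGroup W] [Module (ZMod 2) W] [Finite W] {τ : S →* Module.End (ZMod 2) W}

/-- fixed space -/
abbrev K (τ : S →* Module.End (ZMod 2) W) (s : S) : Submodule (ZMod 2) W := LinearMap.ker (τ s - 1)
/-- commutator space -/
abbrev R (τ : S →* Module.End (ZMod 2) W) (s : S) : Submodule (ZMod 2) W := LinearMap.range (τ s - 1)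

theorem mem_K {s : S} {v : W} : v ∈ K τ s ↔ τ s v = v := by simp [sub_eq_zero]

theorem mem_R (s : S) (v : W) : τ s v - v ∈ R τ s := ⟨v, rfl⟩

theorem mm (s t : S) (v : W) : τ (s * t) v = τ s (τ t v) := by rw [map_mul]; rfl

theorem R_le {s : S} (h : s * s = 1) : R τ s ≤ K τ s := by
  rintro _ ⟨v, rfl⟩
  rw [mem_K, LinearMap.sub_apply, map_sub, ← mm, h, map_one, ZModModule.sub_eq_add, ZModModule.sub_eq_add, add_comm]
  rfl

theorem two {U : Submodule (ZMod 2) W} {a b : W} (ha : a ∈ U) (hb : b ∈ U) (h1 : a ≠ 0) (h2 : b ≠ 0) (h3 : a ≠ b) :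
    2 ≤ finrank (ZMod 2) U := by
  by_contra h
  obtain ⟨v, hv⟩ := finrank_le_one_iff.1 (Nat.lt_succ_iff.1 (not_le.1 h))
  have key : ∀ w : U, w.1 ≠ 0 → w = v := fun w hw => by
    obtain ⟨c, rfl⟩ := hv w
    rcases (by decide : ∀ c : ZMod 2, c = 0 ∨ c = 1) c with rfl | rfl
    · simp at hw
    · simp
  exact h3 (congrArg Subtype.val ((key ⟨a, ha⟩ h1).trans (key ⟨b, hb⟩ h2).symm))

theorem card_eq (U : Type*) [AddCommGroup U] [Module (ZMod 2) U] [Finite U] : Nat.card U = 2 ^ finrank (ZMod 2) U := by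
  rw [Module.natCard_eq_pow_finrank (K := ZMod 2), Nat.card_zmod]

theorem modEq {s : S} {p : ℕ} [Fact p.Prime] (h : s ^ p = 1) :
    2 ^ finrank (ZMod 2) W ≡ 2 ^ finrank (ZMod 2) (K τ s) [MOD p] := by
  classical
  have := Fintype.ofFinite W
  let f : Function.End W := fun v => τ s v
  have hp : ∀ (n : ℕ) v, (f ^ n) v = τ (s ^ n) v := fun n => by
    induction n with
    | zero => intro v; rw [pow_zero, pow_zero, map_one]; rfl
    | succ n ih => intro v; rw [pow_succ, pow_succ, mm]; exact ih _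
  have h1 := Equiv.Perm.card_fixedPoints_modEq (f := f) (p := p) (n := 1) (funext fun v => by
    rw [hp, pow_one, h, map_one]; rfl)
  have e : Function.fixedPoints f ≃ K τ s := Equiv.subtypeEquivRight fun v => mem_K.symm
  rw [← card_eq, ← card_eq, Nat.card_eq_fintype_card]
  rwa [← Nat.card_eq_fintype_card (α := Function.fixedPoints _), Nat.card_congr e] at h1

theorem K_lt (hτ : Function.Injective τ) {s : S} (h : s ≠ 1) : finrank (ZMod 2) (K τ s) < finrank (ZMod 2) W :=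
  Submodule.finrank_lt fun e => h (hτ (LinearMap.ext fun v => by
    rw [map_one]; exact mem_K.1 (e.ge Submodule.mem_top)))

/-- involutions two conjugates of which have product of order five -/
def R2 (s : S) : Prop := s * s = 1 ∧ ∃ g : S, (s * (g * s * g⁻¹)) ^ 5 = 1 ∧ s * (g * s * g⁻¹) ≠ 1

variable (hτ : Function.Injective τ) (h4 : finrank (ZMod 2) W ≤ 4)
include hτ h4

theorem r2 {s : S} (h : R2 s) : R τ s = K τ s ∧ finrank (ZMod 2) (K τ s) = 2 ∧ finrank (ZMod 2) W = 4 := by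
  obtain ⟨h0, g, h1, h2⟩ := h
  have := Fact.mk Nat.prime_five
  have h3 := modEq (τ := τ) h1
  have h5 := K_lt hτ h2
  have h6 : finrank (ZMod 2) W = 4 ∧ finrank (ZMod 2) (K τ (s * (g * s * g⁻¹))) = 0 := by
    generalize finrank (ZMod 2) W = n, finrank (ZMod 2) (K τ (s * (g * s * g⁻¹))) = k at *
    interval_cases n <;> interval_cases k <;> simp_all [Nat.ModEq]
  have h7 := Submodule.finrank_add_finrank_le_of_disjoint (s := K τ s) (t := K τ (g * s * g⁻¹)) (disjoint_iff_inf_le.2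
    fun v hv => (Submodule.finrank_eq_zero.1 h6.2).le (mem_K.2 (by rw [mm, mem_K.1 hv.2, mem_K.1 hv.1])))
  have h8 := LinearMap.finrank_le_finrank_of_injective (f := (τ g).restrict (p := K τ s) (q := K τ (g * s * g⁻¹))
    fun v hv => mem_K.2 (by rw [← mm, inv_mul_cancel_right, mm, mem_K.1 hv])) fun a b e => Subtype.ext (by
      simpa [← mm] using congrArg (τ g⁻¹) (congrArg Subtype.val e))
  have h9 := LinearMap.finrank_range_add_finrank_ker (τ s - 1)
  have h10 := Submodule.finrank_mono (R_le (τ := τ) h0)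
  change finrank _ (R τ s) + finrank _ (K τ s) = _ at h9
  exact ⟨Submodule.eq_of_le_of_finrank_eq (R_le h0) (by omega), by omega, h6.1⟩

theorem tv {s r : S} (h0 : s * s = 1) (h1 : s ≠ 1) (h2 : r ^ 3 = 1) (h3 : r ≠ 1) (hc : r * s = s * r) {w : W}
    (hw : w ∈ K τ s) (hw' : τ r w - w ∈ R τ s) : w ∈ R τ s := by
  by_contra h
  have h5 := LinearMap.finrank_range_add_finrank_ker (τ s - 1)
  have h6 := LinearMap.finrank_range_add_finrank_ker (τ r - 1)
  change finrank _ (R τ s) + finrank _ (K τ s) = _ at h5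
  change finrank _ (R τ r) + finrank _ (K τ r) = _ at h6
  have h7 : ¬ 2 ≤ finrank (ZMod 2) (R τ s) := fun e =>
    h ((Submodule.eq_of_le_of_finrank_le (R_le h0) (by omega)).ge hw)
  have ex : ∀ t : S, t ≠ 1 → ∃ v, τ t v - v ≠ 0 := fun t ht => by
    by_contra! e
    exact ht (hτ (LinearMap.ext fun v => by rw [map_one]; exact sub_eq_zero.1 (e v)))
  have h3' : ∀ v, τ r (τ r (τ r v)) = v := fun v => by
    rw [← mm, ← mm, ← pow_three', h2, map_one]; rfl
  have inj : ∀ v, τ r v = 0 → v = 0 := fun v e => by rw [← h3' v, e, map_zero, map_zero]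
  have hcm : ∀ v, τ r (τ s v - v) = τ s (τ r v) - τ r v := fun v => by rw [map_sub, ← mm, hc, mm]
  have h8 : R τ s ≤ K τ r := by
    rintro _ ⟨v, rfl⟩
    by_cases e : τ s v - v = 0
    · exact (show (τ s - 1) v = 0 from e) ▸ zero_mem _
    · exact mem_K.2 (by_contra fun e' => h7 (two (hcm v ▸ mem_R s _) (mem_R s v) (mt (inj _) e) e e'))
  have h9 : ∀ v, τ r v - v ∈ K τ r → τ r v - v = 0 := fun v e => by
    have e := mem_K.1 e
    have : τ r v - v + τ r (τ r v - v) + τ r (τ r (τ r v - v)) = 0 := by simp only [map_sub, h3']; abel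
    rwa [e, e, ZModModule.add_self, zero_add] at this
  obtain ⟨u, hu⟩ := ex r h3
  have h10 := two (mem_R r (τ r u)) (mem_R r u) (by rw [← map_sub]; exact mt (inj _) hu) hu fun e =>
    hu (h9 u (mem_K.2 (by rwa [map_sub])))
  obtain ⟨v, hv⟩ := ex s h1
  have h11 := two (U := K τ r ⊓ K τ s) ⟨mem_K.2 (sub_eq_zero.1 (h9 w (h8 hw'))), hw⟩ ⟨h8 (mem_R s v), R_le h0 (mem_R s v)⟩
    (fun e => h (e ▸ zero_mem _)) hv fun e => h (e ▸ mem_R s v)
  have h12 := Submodule.finrank_lt_finrank_of_lt (lt_of_le_of_ne (inf_le_left : K τ r ⊓ K τ s ≤ _) fun e => by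
    have h12 := mem_K.1 (e.ge (mem_K.2 (by simp only [map_add, h3']; abel) : v + τ r v + τ r (τ r v) ∈ K τ r)).2
    have h13 := mem_K.1 (h8 (mem_R s v))
    have : τ s v - v + τ r (τ s v - v) + τ r (τ r (τ s v - v)) = 0 := by
      rw [hcm, hcm, ← sub_eq_zero.2 h12]; simp only [map_add]; abel
    rw [h13, h13, ZModModule.add_self, zero_add] at this
    exact hv this)
  omega

omit hτ h4 in
theorem two_dim (h : finrank (ZMod 2) W = 2) (M N : Module.End (ZMod 2) W) (h1 : M * M = 1) (h2 : N * N = 1)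
    (h3 : M * N * (M * N) = 1) : M = 1 ∨ N = 1 ∨ M * N = 1 := by
  let e := LinearMap.toMatrixAlgEquiv (finBasisOfFinrankEq (ZMod 2) W h)
  have key : ∀ M N : Matrix (Fin 2) (Fin 2) (ZMod 2), M * M = 1 → N * N = 1 → M * N * (M * N) = 1 →
      M = 1 ∨ N = 1 ∨ M * N = 1 := by decide +kernel
  have := key (e M) (e N) (by rw [← map_mul, h1, map_one]) (by rw [← map_mul, h2, map_one])
    (by rw [← map_mul, ← map_mul, h3, map_one])
  rwa [← map_mul, map_eq_one_iff _ e.injective, map_eq_one_iff _ e.injective, map_eq_one_iff _ e.injective] at this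

theorem kk {d g : S} (hd : R2 d) (hc : g * d = d * g) (h : K τ d ≤ K τ g) : R τ g ≤ K τ d := by
  rintro _ ⟨v, rfl⟩
  have := mem_K.1 (h ((r2 hτ h4 hd).1.le (mem_R d v)))
  rw [map_sub, ← mm, hc, mm] at this
  rw [mem_K, LinearMap.sub_apply, map_sub]
  linear_combination (norm := module) this

theorem dich {d e f : S} (hd : R2 d) (he : e * e = 1) (hf : f * f = 1) (h1 : e * d = d * e) (h2 : f * d = d * f)
    (h3 : e * f * (e * f) = d) : K τ d ≤ K τ e ∨ K τ d ≤ K τ f := by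
  have inv : ∀ g, g * d = d * g → ∀ v ∈ K τ d, τ g v ∈ K τ d := fun g hg v hv =>
    mem_K.2 (by rw [← mm, ← hg, mm, mem_K.1 hv])
  rcases two_dim (r2 hτ h4 hd).2.1 ((τ e).restrict (inv e h1)) ((τ f).restrict (inv f h2))
    (LinearMap.ext fun v => Subtype.ext (by simp [← mm, he])) (LinearMap.ext fun v => Subtype.ext (by simp [← mm, hf]))
    (LinearMap.ext fun v => Subtype.ext (by
      show τ e (τ f (τ e (τ f v))) = v
      rw [← mm, ← mm, ← mm, mul_assoc (e * f), h3]; exact mem_K.1 v.2)) with h | h | h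
  · exact .inl fun v hv => mem_K.2 (congrArg Subtype.val (LinearMap.congr_fun h ⟨v, hv⟩))
  · exact .inr fun v hv => mem_K.2 (congrArg Subtype.val (LinearMap.congr_fun h ⟨v, hv⟩))
  have h5 : K τ d ≤ K τ (e * f) := fun v hv => mem_K.2 (by
    rw [mm]; exact congrArg Subtype.val (LinearMap.congr_fun h ⟨v, hv⟩))
  have h6 := (kk hτ h4 hd (by rw [mul_assoc, h2, ← mul_assoc, h1, mul_assoc]) h5).trans h5
  have h7 : d = 1 := hτ (LinearMap.ext fun v => by
    have := mem_K.1 (h6 (mem_R _ v))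
    rw [map_sub, ← mm, h3] at this
    rw [map_one, Module.End.one_apply]
    linear_combination (norm := skip) this + ZModModule.add_self (τ (e * f) v) - ZModModule.add_self v
    abel)
  obtain ⟨-, g, -, h8⟩ := hd
  exact (h8 (by simp [h7])).elim

theorem third {d e c : S} (hd : R2 d) (he : R2 e) (hde : R2 (d * e)) (h1 : e * d = d * e) (h : K τ d ≤ K τ e)
    (hc : c * c = 1) (h2 : c * d = d * c) (h3 : c * e = e * c) : K τ d ≤ K τ c := by
  obtain ⟨a1, a2, -⟩ := r2 hτ h4 hd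
  obtain ⟨b1, b2, -⟩ := r2 hτ h4 he
  have h5 : K τ d = K τ e := Submodule.eq_of_le_of_finrank_eq h (a2.trans b2.symm)
  have h6 : K τ d = K τ (d * e) := Submodule.eq_of_le_of_finrank_eq (fun v hv => mem_K.2 (by
    rw [mm, mem_K.1 (h hv), mem_K.1 hv])) (a2.trans (r2 hτ h4 hde).2.1.symm)
  obtain ⟨a, ha, ha0, hca⟩ : ∃ a ∈ K τ d, a ≠ 0 ∧ τ c a = a := by
    obtain ⟨l, hl, hl0⟩ := Submodule.exists_mem_ne_zero_of_ne_bot (p := K τ d) fun e => by rw [e, finrank_bot] at a2; omega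
    by_cases e : τ c l - l = 0
    · exact ⟨l, hl, hl0, sub_eq_zero.1 e⟩
    · exact ⟨_, sub_mem (mem_K.2 (by rw [← mm, ← h2, mm, mem_K.1 hl])) hl, e, mem_K.1 (R_le hc (mem_R c l))⟩
  obtain ⟨v, rfl⟩ := a1.ge ha
  change τ d v - v ≠ 0 at ha0
  change τ c (τ d v - v) = τ d v - v at hca
  have h7 : τ c v - v ∈ K τ d := mem_K.2 (by
    rw [map_sub, ← mm, ← h2, mm]; rw [map_sub] at hca; linear_combination (norm := module) hca)
  have h8 : τ c (τ e v - v) = τ e v - v := by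
    have := mem_K.1 (h h7)
    rw [map_sub, ← mm, ← h3, mm] at this
    rw [map_sub]; linear_combination (norm := module) this
  have h9 : τ e v - v ∈ K τ d := h5.ge (b1.le (mem_R e v))
  have h10 := two (U := K τ d ⊓ K τ c) ⟨ha, mem_K.2 hca⟩ ⟨h9, mem_K.2 h8⟩ ha0
    (fun e => ha0 (sub_eq_zero.2 (mem_K.1 (h5.ge (mem_K.2 (sub_eq_zero.1 e)))))) fun e => ha0 (sub_eq_zero.2 (mem_K.1
      (h6.ge (mem_K.2 (by rw [mm, ← sub_left_inj.1 e, ← mm, hd.1, map_one]; rfl)))))
  exact (Submodule.eq_of_le_of_finrank_le inf_le_left (a2.le.trans h10)).ge.trans inf_le_right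

end

/-- an elementary abelian group of order eight with enough elements of order three and five around -/
def Sys {S : Type*} [Group S] (d e : S) : Prop := R2 e ∧ R2 (d * e) ∧ ∃ (c : S) (u : Fin 8 → S),
  u = ![1, d, e, d * e, c, c * d, c * e, c * d * e] ∧ Function.Injective u ∧ (∀ i j, ∃ k, u i * u j = u k) ∧
    (∀ i, u i * u i = 1) ∧ ∀ i, u i = 1 ∨ R2 (u i) ∨ ∃ r : S, r ^ 3 = 1 ∧ r ≠ 1 ∧ r * u i = u i * r

theorem core {X S W : Type*} [Group X] [Finite X] [Group S] [AddCommGroup W] [Module (ZMod 2) W] {Q Φ : Subgroup X}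
    {π : X → W} (hπ : Add Q Φ π) (hΦ : Φ ≤ Q) {ψ : X →* S} (hψ : Function.Surjective ψ) (hk : ψ.ker = Q)
    {τ : S →* Module.End (ZMod 2) W} (hτ : Function.Injective τ) (hρ : ∀ g, ∀ x ∈ Q, τ (ψ g) (π x) = π (g * x * g⁻¹))
    (h : SR 4 X) {d e f : S} (hd : R2 d) (he : Sys d e) (hf : Sys d f) (h3 : e * f * (e * f) = d) : False := by
  have := hπ.finite
  have hN : Q.Normal := hk ▸ inferInstance
  have hsq : ∀ x ∈ Q, π (x ^ 2) = 0 := fun x hx => by rw [pow_two, hπ.mul x hx x hx, ZModModule.add_self]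
  have h4 : finrank (ZMod 2) W ≤ 4 := by
    have := h Q Φ hΦ fun x hx => (hπ.zero _ (pow_mem hx 2)).1 (hsq x hx)
    rwa [hπ.relIndex, card_eq, Nat.pow_le_pow_iff_right one_lt_two] at this
  have cm : ∀ {e : S}, Sys d e → e * d = d * e := fun he => by
    rw [← inv_eq_of_mul_eq_one_right he.2.1.1, mul_inv_rev, inv_eq_of_mul_eq_one_right he.1.1,
      inv_eq_of_mul_eq_one_right hd.1]
  suffices key : ∀ e, Sys d e → ¬ K τ d ≤ K τ e from
    (dich hτ h4 hd he.1.1 hf.1.1 (cm he) (cm hf) h3).elim (key e he) (key f hf)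
  intro e he hde
  have h1 := cm he
  obtain ⟨he, he', c, u, hu, h5, h6, h7, h8⟩ := he
  let U : Subgroup S :=
    { carrier := Set.range u
      one_mem' := ⟨0, by simp [hu]⟩
      mul_mem' := by rintro _ _ ⟨i, rfl⟩ ⟨j, rfl⟩; exact (h6 i j).imp fun _ => Eq.symm
      inv_mem' := by rintro _ ⟨i, rfl⟩; exact ⟨i, eq_inv_of_mul_eq_one_left (h7 i)⟩ }
  have hcm : ∀ i j, u i * u j = u j * u i := fun i j => by
    obtain ⟨k, hk⟩ := h6 i j
    exact comm_of_sq (by rw [pow_two, h7]) (by rw [pow_two, h7]) (by rw [hk, pow_two, h7])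
  have hc := third hτ h4 hd he he' h1 hde (c := c) (by simpa [hu] using h7 4) (by simpa [hu] using hcm 4 1)
    (by simpa [hu] using hcm 4 2)
  have h9 : ∀ i, K τ d ≤ K τ (u i) := fun i v hv => mem_K.2 (by
    have a1 := mem_K.1 hv
    have a2 := mem_K.1 (hde hv)
    have a3 := mem_K.1 (hc hv)
    fin_cases i <;> simp [hu, a1, a2, a3])
  have h10 : ∀ i, R τ (u i) ≤ K τ d := fun i => kk hτ h4 hd (by simpa [hu] using hcm i 1) (h9 i)
  have hQ : Q ≤ U.comap ψ := fun x hx => by rw [mem_comap, show ψ x = 1 from hk.ge hx]; exact one_mem _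
  have hNQ : hπ.pre (K τ d).toAddSubgroup ≤ Q := fun x hx => (hπ.mem_pre.1 hx).1
  have h11 := h (U.comap ψ) _ (hNQ.trans hQ) fun x ⟨i, hi⟩ => by
    have a1 : x ^ 2 ∈ Q := hk.le (by rw [MonoidHom.mem_ker, map_pow, ← hi, pow_two, h7])
    have a2 : π (x ^ 2) ∈ K τ (u i) := mem_K.2 (by rw [hi, hρ x _ a1]; congr 1; group)
    refine hπ.mem_pre.2 ⟨a1, ?_⟩
    by_cases a3 : u i = 1
    · rw [hsq x (hk.le (hi.symm.trans a3))]; exact zero_mem _
    rcases h8 i with a4 | a4 | ⟨r, a4, a5, a6⟩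
    · exact (a3 a4).elim
    · exact h10 i ((r2 hτ h4 a4).1.ge a2)
    refine h10 i (tv hτ h4 (h7 i) a3 a4 a5 a6 a2 ?_)
    obtain ⟨r, rfl⟩ := hψ r
    obtain ⟨q, hq, a7⟩ : ∃ q ∈ Q, r * x * r⁻¹ = q * x := ⟨r * x * r⁻¹ * x⁻¹, hk.le (by
      simp [MonoidHom.mem_ker, ← hi, a6]), by group⟩
    rw [hρ r _ a1, ← conj_pow, a7, show (q * x) ^ 2 = q * (x * q * x⁻¹) * x ^ 2 by simp [pow_two, mul_assoc],
      hπ.mul _ (mul_mem hq (hN.conj_mem q hq x)) _ a1, add_sub_cancel_right, hπ.mul _ hq _ (hN.conj_mem q hq x),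
      ← hρ x q hq, ← hi, add_comm, ← ZModModule.sub_eq_add]
    exact mem_R _ _
  have h12 : Add Q (hπ.pre (K τ d).toAddSubgroup) fun x => (K τ d).mkQ (π x) :=
    ⟨fun x hx y hy => by rw [hπ.mul x hx y hy, map_add], fun x hx => by
      rw [hπ.mem_pre, Submodule.mkQ_apply, Submodule.Quotient.mk_eq_zero]; simp [hx], fun v => by
      obtain ⟨v, rfl⟩ := (K τ d).mkQ_surjective v
      obtain ⟨x, hx, rfl⟩ := hπ.surj v
      exact ⟨x, hx, rfl⟩⟩
  have h13 := (K τ d).finrank_quotient_add_finrank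
  have : Finite (W ⧸ K τ d) := Finite.of_surjective _ (K τ d).mkQ_surjective
  obtain ⟨-, a1, a2⟩ := r2 hτ h4 hd
  rw [← relIndex_mul_relIndex _ Q _ hNQ hQ, h12.relIndex, card_eq, show finrank (ZMod 2) (W ⧸ K τ d) = 2 by omega,
    ← hk, relIndex_ker, map_comap_eq_self_of_surjective hψ,
    show Nat.card U = 8 from (Nat.card_range_of_injective h5).trans (by simp)] at h11
  omega

end CA.H5Sr
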