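import Cfsg.Agent.Lib.Loc.H5Sr9

/-! 2-constrained groups of sectional 2-rank at most four involving `GL₃(2)`: the radical. -/

set_option autoImplicit false
set_option linter.unusedSectionVars false

namespace CA.H5Sr
open Subgroup Cfsg CA.HigLin CA.H7SR Module Matrix

universe u

theorem quad' {Y W U : Type*} [Group Y] [AddCommGroup W] [AddCommGroup U] {Q Φ : Subgroup Y} {π : Y → W} {π' : Y → U}
    (hπ : Add Q Φ π) (hπ' : Add Φ ⊥ π') (hsq : ∀ x ∈ Q, x ^ 2 ∈ Φ) (hc : ∀ c ∈ Φ, ∀ g ∈ Q, g * c = c * g)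
    (h2 : ∀ c ∈ Φ, c ^ 2 = 1) : ∃ (q : W → U) (B : W →+ W →+ U), (∀ x ∈ Q, q (π x) = π' (x ^ 2)) ∧
      (∀ x ∈ Q, ∀ y ∈ Q, B (π x) (π y) = π' (x * y * x⁻¹ * y⁻¹)) ∧ (∀ u v, q (u + v) = q u + q v - B u v) ∧
      ∀ u, B u u = 0 := by
  have hcm : ∀ x ∈ Q, ∀ y ∈ Q, x * y * x⁻¹ * y⁻¹ ∈ Φ := fun x hx y hy => (hπ.zero _ (mul_mem (mul_mem
    (mul_mem hx hy) (inv_mem hx)) (inv_mem hy))).1 (by
      rw [hπ.mul _ (mul_mem (mul_mem hx hy) (inv_mem hx)) _ (inv_mem hy), hπ.conj hx hy, hπ.inv hy, add_neg_cancel])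
  obtain ⟨B, hB⟩ := hπ.lift₂ hπ (fun x y => π' (x * y * x⁻¹ * y⁻¹)) (fun x hx y hy z hz => by
      rw [add_comm, ← hπ'.mul _ (hcm y hy z hz) _ (hcm x hx z hz)]; congr 1
      calc _ = x * (y * z * y⁻¹ * z⁻¹) * (z * x⁻¹ * z⁻¹) := by group
        _ = _ := by rw [hc _ (hcm y hy z hz) x hx]; group)
    (fun x hx y hy z hz => by
      rw [← hπ'.mul _ (hcm x hx y hy) _ (hcm x hx z hz)]; congr 1
      calc _ = x * y * x⁻¹ * (x * z * x⁻¹ * z⁻¹) * y⁻¹ := by group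
        _ = _ := by rw [mul_assoc _ _ y⁻¹, ← hc _ (hcm x hx z hz) _ (inv_mem hy)]; group)
    (fun x _ hx y hy => by rw [← hc x hx y hy]; simpa using hπ'.one) fun x hx y _ hy => by
      rw [hc y hy x hx]; simpa using hπ'.one
  choose σ h3 h4 using hπ.surj
  have hq : ∀ x ∈ Q, π' (σ (π x) ^ 2) = π' (x ^ 2) := fun x hx => by
    have h5 := (hπ.eq_iff hx (h3 _)).1 (h4 (π x)).symm
    rw [← mul_inv_cancel_left x (σ (π x)), Commute.mul_pow (hc _ h5 x hx), h2 _ h5, mul_one]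
  refine ⟨fun v => π' (σ v ^ 2), B, hq, hB, fun u v => ?_, fun u => ?_⟩
  · have := hB _ (inv_mem (h3 u)) _ (h3 v)
    rw [hπ.inv (h3 u), h4, h4, map_neg, AddMonoidHom.neg_apply] at this
    have h5 := hq _ (mul_mem (h3 u) (h3 v))
    rw [hπ.mul _ (h3 u) _ (h3 v), h4, h4] at h5
    show π' _ = π' _ + π' _ - _
    rw [h5, sub_eq_add_neg, this, add_right_comm, ← hπ'.mul _ (hsq _ (h3 u)) _ (hcm _ (inv_mem (h3 u)) _ (h3 v)),
      ← hπ'.mul _ (mul_mem (hsq _ (h3 u)) (hcm _ (inv_mem (h3 u)) _ (h3 v))) _ (hsq _ (h3 v))]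
    congr 1; simp only [sq]; group
  · rw [← h4 u, hB _ (h3 u) _ (h3 u)]; simpa using hπ'.one

theorem card_rel {Y : Type*} [Group Y] {A B : Subgroup Y} (h : A ≤ B) : Nat.card B = Nat.card A * A.relIndex B := by
  rw [← relIndex_bot_left, ← relIndex_bot_left A, relIndex_mul_relIndex _ _ _ bot_le h]

section
variable {Y : Type u} [Group Y] [Finite Y] {ψ : Y →* L}

theorem caseA2 (h : Hyp ψ) (hc : ∀ c ∈ Sq ψ.ker, ∀ q ∈ ψ.ker, q * c = c * q) (he : ∀ c ∈ Sq ψ.ker, c ^ 2 = 1)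
    {π' : Y → V3} (hπ' : Add (Sq ψ.ker) ⊥ π') (hF : ∀ g, ∀ x ∈ Sq ψ.ker, (ψ g).1 *ᵥ π' x = π' (g * x * g⁻¹))
    (h7 : ∀ k ∈ ψ.ker, k ^ 2 = 1 → (∀ q ∈ ψ.ker, q * k = k * q) → k ∈ Sq ψ.ker) : False := by
  obtain ⟨W, _, _, _, π, τ, hπ, hρ, h5, hτ⟩ := h.lin
  obtain ⟨q, B, a1, a2, a3, a4⟩ := quad' hπ hπ' sq_mem hc he
  have hN : ψ.ker.Normal := inferInstance
  have a5 : ∀ x ∈ ψ.ker, ∀ y ∈ ψ.ker, B (π x) (π y) = 0 → x * y = y * x := fun x hx y hy e =>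
    mul_inv_eq_iff_eq_mul.1 (mul_inv_eq_one.1 ((hπ'.zero _ (comm_mem hx hy)).1 ((a2 x hx y hy).symm.trans e)))
  have le := hπ.le_pre (Sq_le_self _) (R τ s7).toAddSubgroup
  obtain ⟨b1, b2, b3, b4, b5, b6⟩ := fibA hτ h5 a3 a4 (fun t v => by
      obtain ⟨t, rfl⟩ := h.surj t
      obtain ⟨x, hx, rfl⟩ := hπ.surj v
      rw [hρ t x hx, a1 _ (hN.conj_mem x hx t), a1 x hx, conj_pow, hF t _ (sq_mem x hx)])
    (fun t u v => by
      obtain ⟨t, rfl⟩ := h.surj t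
      obtain ⟨x, hx, rfl⟩ := hπ.surj u
      obtain ⟨y, hy, rfl⟩ := hπ.surj v
      rw [hρ t x hx, hρ t y hy, a2 _ (hN.conj_mem x hx t) _ (hN.conj_mem y hy t), a2 x hx y hy, hF t _ (comm_mem hx hy)]
      congr 1; group)
    (by
      by_contra! e
      have c1 := h.sr.card_le (A := hπ.pre (R τ s7).toAddSubgroup) fun x hx =>
        (hπ'.zero _ (sq_mem x hx.1)).1 ((a1 x hx.1).symm.trans (e _ hx.2))
      have c2 := relIndex_mul_relIndex _ _ _ le fun x hx => hx.1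
      have c3 := seven hτ h5
      rw [hπ.relIndex, card_eq, relIndex_pre, c3.1] at c2
      rw [card_rel le, ← relIndex_bot_left, hπ'.relIndex, show Nat.card V3 = 8 by simp] at c1
      rcases (by omega : finrank (ZMod 2) W = 3 ∨ finrank (ZMod 2) W = 4) with e | e <;> rw [e] at c2 <;> omega)
    fun k e1 e2 => by
      obtain ⟨x, hx, rfl⟩ := hπ.surj k
      exact (hπ.zero x hx).2 (h7 x hx ((hπ'.zero _ (sq_mem x hx)).1 ((a1 x hx).symm.trans e1))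
        fun y hy => (a5 x hx y hy (e2 _)).symm)
  have : (hπ.pre (R τ s7).toAddSubgroup).Normal := ⟨fun x hx g => ⟨hN.conj_mem x hx.1 g, hρ g x hx.1 ▸ b1 _ _ hx.2⟩⟩
  refine LL h le (fun x hx => hx.1) (fun x hx y hy => a5 x hx.1 y hy.1 (b2 _ hx.2 _ hy.2)) hπ' hF sq_mem
    ⟨fun x hx y hy => ?_, fun x hx => ⟨fun e => (hπ.zero x hx.1).1 (b3 _ hx.2 ((a1 x hx.1).trans e)), fun e => ?_⟩, fun w => ?_⟩
    (fun k hk hk' x hx => ?_) fun k hk hk' l hl hl' =>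
      ⟨mul_mem hk hl, hπ.mul k hk l hl ▸ b6 _ (fun e => hk' ⟨hk, e⟩) _ fun e => hl' ⟨hl, e⟩⟩
  · rw [← a1 _ (mul_mem hx.1 hy.1), hπ.mul x hx.1 y hy.1, a3, b2 _ hx.2 _ hy.2, sub_zero, a1 x hx.1, a1 y hy.1]
  · rw [he x e, hπ'.one]
  · obtain ⟨u, hu, rfl⟩ := b4 w
    obtain ⟨x, hx, rfl⟩ := hπ.surj u
    exact ⟨x, ⟨hx, hu⟩, (a1 x hx).symm⟩
  · have := b5 _ (fun e => hk' ⟨hk, e⟩) _ hx.2
    rw [a2 k hk x hx.1, a1 x hx.1, hπ'.eq_iff (comm_mem hk hx.1) (sq_mem x hx.1), mem_bot, inv_mul_eq_one] at this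
    calc _ = x ^ 2 * x := by rw [← this]; group
      _ = (x ^ 2) ^ 2 * x⁻¹ := by simp only [sq]; group
      _ = _ := by rw [he _ (sq_mem x hx.1), one_mul]

theorem quot' (h : Hyp ψ) (Z : Subgroup Y) [Z.Normal] (hZ : Z ≤ ψ.ker)
    (hnt : ¬ ∀ g, ∀ x ∈ ψ.ker, g * x * g⁻¹ * x⁻¹ ∈ Sq ψ.ker ⊔ Z) : ∃ ψ' : Y ⧸ Z →* L, Hyp ψ' ∧
      ψ'.ker = ψ.ker.map (QuotientGroup.mk' Z) ∧ Nat.card (Sq ψ'.ker) = Z.relIndex (Sq ψ.ker) := by
  have h1 := QuotientGroup.ker_lift Z ψ hZ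
  have h2 : Sq (ψ.ker.map (QuotientGroup.mk' Z)) = (Sq ψ.ker).map (QuotientGroup.mk' Z) :=
    le_antisymm (Sq_le.2 (by rintro _ ⟨q, hq, rfl⟩; exact ⟨_, sq_mem q hq, map_pow _ _ _⟩))
      (map_le_iff_le_comap.2 (Sq_le.2 fun q hq => by rw [mem_comap, map_pow]; exact sq_mem _ ⟨q, hq, rfl⟩))
  refine ⟨QuotientGroup.lift Z ψ hZ, ⟨fun s => ?_, h.sr.map (QuotientGroup.mk'_surjective Z),
    h1 ▸ h.pg.map _, fun e => hnt fun g x hx => ?_⟩, h1, ?_⟩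
  · obtain ⟨g, rfl⟩ := h.surj s
    exact ⟨g, rfl⟩
  · have := e g x hx
    rw [h1, h2] at this
    exact ((comap_map_eq (QuotientGroup.mk' Z) _).trans (by rw [QuotientGroup.ker_mk'])).le this
  · rw [h1, h2, ← relIndex_ker, QuotientGroup.ker_mk']

theorem cj2 {Z Φ : Subgroup Y} [hZ : Z.Normal] [hΦ : Φ.Normal] (h : Z.relIndex Φ = 2) {c : Y} (hc : c ∈ Φ) (a : Y) :
    a * c * a⁻¹ * c⁻¹ ∈ Z :=
  (mul_mem_iff_of_index_two h (a := ⟨_, hΦ.conj_mem c hc a⟩) (b := ⟨c, hc⟩⁻¹)).2 (by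
    rw [inv_mem_iff]
    exact ⟨fun e => by simpa [mul_assoc, mem_subgroupOf] using hZ.conj_mem' _ e a, fun e => hZ.conj_mem _ e a⟩)

end

theorem mainL (n : ℕ) : ∀ (Y : Type u) [Group Y] [Finite Y] (ψ : Y →* L), Nat.card Y < n → Hyp ψ →
    (∀ x ∈ ψ.ker, ∀ y ∈ ψ.ker, x * y = y * x) ∧ Nat.card (Sq ψ.ker) ≤ 2 := by
  induction n with
  | zero => intro _ _ _ _ h; omega
  | succ n ih =>
  intro Y _ _ ψ hn h
  have step : ∀ (Z : Subgroup Y) [Z.Normal], Z ≤ ψ.ker → Z ≠ ⊥ → (¬ ∀ g, ∀ x ∈ ψ.ker, g * x * g⁻¹ * x⁻¹ ∈ Sq ψ.ker ⊔ Z) →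
      (∀ x ∈ ψ.ker, ∀ y ∈ ψ.ker, x * y * x⁻¹ * y⁻¹ ∈ Z) ∧ (Sq ψ.ker ≤ Z ∨ Z.relIndex (Sq ψ.ker) = 2) := fun Z _ a1 a2 a0 => by
    obtain ⟨ψ', a3, a3', a4⟩ := quot' h Z a1 a0
    have a5 := Z.card_mul_index
    have a6 := (one_lt_card_iff_ne_bot Z).2 a2
    have a7 : Z.index ≠ 0 := index_ne_zero_of_finite
    obtain ⟨a8', a8⟩ := ih _ ψ' (by rw [← index_eq_card]; nlinarith [Nat.pos_of_ne_zero a7]) a3
    have a9 : Z.relIndex (Sq ψ.ker) ≠ 0 := index_ne_zero_of_finite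
    rw [← relIndex_eq_one]
    refine ⟨fun x hx y hy => (QuotientGroup.eq_one_iff _).1 ?_, by omega⟩
    have := a8' _ (a3'.ge ⟨x, hx, rfl⟩) _ (a3'.ge ⟨y, hy, rfl⟩)
    change QuotientGroup.mk' Z _ = 1
    rw [map_mul, map_mul, map_mul, this]; simp
  by_cases hz : ∃ z ∈ ψ.ker, z ^ 2 = 1 ∧ (∀ g, g * z = z * g) ∧ z ≠ 1
  · obtain ⟨z, hz, z2, zc, z1⟩ := hz
    have a1 : z ∈ center Y := mem_center_iff.2 zc
    have := normal_zpowers a1
    have a2 : Nat.card (zpowers z) = 2 := by rw [Nat.card_zpowers, orderOf_eq_prime z2 z1]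
    have a5 : ∀ x ∈ zpowers z, x ^ 2 = 1 ∧ ∀ a, a * x = x * a := fun x hx => by
      rcases mem_zpowers_two z2 hx with rfl | rfl
      exacts [by simp, ⟨z2, zc⟩]
    obtain ⟨a3, a4⟩ := step (zpowers z) (zpowers_le.2 hz) (by simpa using z1) fun e => by
      obtain ⟨P, -, b1, -, b2, -⟩ := big h le_sup_left e
      have b3 := relIndex_le_of_le_right (H := Sq ψ.ker) b1 index_ne_zero_of_finite
      have b4 := Nat.le_of_dvd Nat.card_pos (relIndex_dvd_card (Sq ψ.ker) (zpowers z))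
      rw [relIndex_sup_left] at b3
      omega
    have hab := ab h a5 a3
    refine ⟨hab, ?_⟩
    rcases a4 with a4 | a4
    · exact (card_le_of_le a4).trans a2.le
    have a6 : ∀ c ∈ Sq ψ.ker, ∀ g, g * c = c * g := fun c hc =>
      cenPhi h a5 (fun q hq => hab q hq c (Sq_le_self _ hc)) (cj2 a4 hc)
    by_cases hd : ∃ d ∈ ψ.ker, (d ^ 2) ^ 2 ≠ 1
    · obtain ⟨d, hd, hd4⟩ := hd
      by_contra e
      refine caseB8 h rfl hab a6 ?_ hd hd4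
      have b1 := card_rel (inf_le_right : zpowers z ⊓ Sq ψ.ker ≤ _)
      have b2 := card_le_of_le (inf_le_left : zpowers z ⊓ Sq ψ.ker ≤ _)
      rw [inf_relIndex_right, a4] at b1
      omega
    push Not at hd
    obtain ⟨P, -, b1, -, -, b2⟩ := big h (H := Om hab 2) (Sq_le.2 fun q hq => ⟨pow_mem hq 2, hd q hq⟩) (cmOm hab a6)
    obtain ⟨x, hx, b3⟩ : ∃ x ∈ ψ.ker, ∀ y ∈ ψ.ker, y ^ 2 ∈ zpowers (x ^ 2) := by
      by_cases e : ψ.ker ≤ P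
      · exact ⟨1, one_mem _, fun y hy => by rw [(b1 (e hy)).2]; exact one_mem _⟩
      obtain ⟨x, hx, hx'⟩ := SetLike.not_le_iff_exists.1 e
      refine ⟨x, hx, fun y hy => ?_⟩
      by_cases e' : y ∈ P
      · rw [(b1 e').2]; exact one_mem _
      have := b1 (b2 x hx hx' y hy e')
      rw [← mul_inv_cancel_left x y, Commute.mul_pow (hab x hx _ this.1), this.2, mul_one]
      exact mem_zpowers _
    exact (card_le_of_le (Sq_le.2 b3)).trans ((Nat.card_zpowers _).trans_le (orderOf_le_of_pow_eq_one two_pos (hd x hx)))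
  push Not at hz
  by_cases hb : Sq ψ.ker = ⊥
  · exact ⟨fun x hx y hy => mul_inv_eq_iff_eq_mul.1 (mul_inv_eq_one.1 (hb.le (comm_mem hx hy))), by rw [hb, card_bot]; omega⟩
  exfalso
  have hab : ∀ x ∈ ψ.ker ⊓ centralizer (ψ.ker : Set Y), ∀ y ∈ ψ.ker ⊓ centralizer (ψ.ker : Set Y), x * y = y * x :=
    fun x hx y hy => hy.2 x hx.1
  have hZ := Om_normal hab 2
  obtain ⟨z, hz', hz1⟩ : ∃ z ∈ Om hab 2 ⊓ Sq ψ.ker, z ≠ 1 := by
    have := h.pg.isNilpotent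
    obtain ⟨x, a1, a2, a3⟩ := PGBasic.exists_mem_center_of_nilpotent (M := (Sq ψ.ker).subgroupOf ψ.ker)
      (by rwa [Ne, subgroupOf_eq_bot, disjoint_iff, inf_eq_left.2 (Sq_le_self _)])
    obtain ⟨k, hk⟩ := h.pg x
    induction k generalizing x with
    | zero => exact (a2 (by simpa using hk)).elim
    | succ k ih' =>
      by_cases e : x ^ 2 = 1
      · exact ⟨x, ⟨⟨⟨x.2, fun q hq => congrArg Subtype.val (mem_center_iff.1 a3 ⟨q, hq⟩)⟩, congrArg Subtype.val e⟩, a1⟩,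
          fun e => a2 (Subtype.ext e)⟩
      · exact ih' (x ^ 2) (pow_mem a1 2) e (pow_mem a3 2) (by rwa [← pow_mul, ← pow_succ'])
  obtain ⟨a3, a4⟩ := step (Om hab 2 ⊓ Sq ψ.ker) (fun x hx => hx.1.1.1) (fun e => hz1 (e.le hz'))
    (by rw [sup_eq_left.2 inf_le_right]; exact h.nt)
  have a5 : Sq ψ.ker ≤ centralizer (ψ.ker : Set Y) := Sq_le.2 fun x hx y hy =>
    sqc ((a3 x hx y hy).1.1.2 x hx) (a3 x hx y hy).1.2
  have a6 : Sq ψ.ker ≤ Om hab 2 := fun c hc => by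
    rcases a4 with a4 | a4
    · exact (a4 hc).1
    refine ⟨⟨Sq_le_self _ hc, a5 hc⟩, hz _ (pow_mem (Sq_le_self _ hc) 2) (sq_mem_of_index_two a4 ⟨c, hc⟩).1.2 fun g => ?_⟩
    have b1 := (cj2 a4 hc g).1
    rw [← mul_inv_eq_iff_eq_mul, ← conj_pow, ← inv_mul_cancel_right (g * c * g⁻¹) c,
      Commute.mul_pow (b1.1.2 c (Sq_le_self _ hc)).symm, b1.2, one_mul]
  have a7 : ∀ q ∈ ψ.ker, ∀ x ∈ Sq ψ.ker, q * x * q⁻¹ * x⁻¹ ∈ (⊥ : Subgroup Y) := fun q hq x hx => by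
    rw [a5 hx q hq]; simp
  have a8 : ¬ ∀ g, ∀ x ∈ Sq ψ.ker, g * x * g⁻¹ * x⁻¹ ∈ (⊥ : Subgroup Y) := fun e => hz1 (hz z hz'.1.1.1 hz'.1.2
    fun g => mul_inv_eq_iff_eq_mul.1 (mul_inv_eq_one.1 (e g z hz'.2)))
  obtain ⟨W, _, _, _, π, τ, hπ, -, h5, hτ⟩ := lin h.surj h.sr bot_le (fun x hx => (a6 hx).2) a7 a8
  have b1 := hπ.relIndex
  have b2 := (seven hτ h5).2
  have b3 := h.sr.card_le (A := Om hab 2) fun x hx => hx.2
  have b4 := card_rel a6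
  have b5 : (Sq ψ.ker).relIndex (Om hab 2) ≠ 0 := index_ne_zero_of_finite
  rw [card_eq] at b1
  by_cases h16 : Nat.card (Om hab 2) = 16
  · refine caseJ h (Z := Om hab 2) (fun x hx => hx.1.1) (fun x hx => a6 (sq_mem x hx)) (fun c hc => hc.1.2) (fun c hc => hc.2) h16
      (fun c hc => hz c hc.1.1 hc.2) fun e => ?_
    obtain ⟨P, c1, c2, -, c3, -⟩ := big h a6 e
    have c4 := card_le_of_le c2
    have := Nat.pow_le_pow_right two_pos b2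
    rw [card_rel c1, c3, ← relIndex_bot_left, b1] at c4
    omega
  rw [← relIndex_bot_left (Sq _), b1] at b4
  have b6 : finrank (ZMod 2) W = 3 ∧ (Sq ψ.ker).relIndex (Om hab 2) = 1 := by
    rcases (by omega : finrank (ZMod 2) W = 3 ∨ finrank (ZMod 2) W = 4) with e | e <;> rw [e] at b4 <;> omega
  obtain ⟨ψ', κ, h', e, hκ, hF⟩ := std h bot_le (fun x hx => (a6 hx).2) a7 a8 (by rw [b1, b6.1]; rfl)
  refine caseA2 h' (e ▸ fun c hc => a5 hc) (e ▸ fun c hc => (a6 hc).2) (e ▸ hκ) (e ▸ hF) (e ▸ fun k hk k2 kc => ?_)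
  exact relIndex_eq_one.1 b6.2 ⟨⟨hk, kc⟩, k2⟩

theorem Hyp.fin {Y : Type u} {E : Type*} [Group Y] [Finite Y] [Group E] {ψ : Y →* L} (h : Hyp ψ) {j : E →* Y}
    (hj : Function.Injective j) (hr : j.range = ψ.ker) : ((∀ x : E, x ^ 2 = 1) ∧ (Nat.card E = 8 ∨ Nat.card E = 16)) ∨
      Nonempty (E ≃* Multiplicative (ZMod 4) × (Fin 3 → Multiplicative (ZMod 2))) := by
  obtain ⟨hab, a1⟩ := mainL _ Y ψ (Nat.lt_succ_self _) h
  have hm : ∀ x, j x ∈ ψ.ker := fun x => hr.le ⟨x, rfl⟩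
  have a2 : Nat.card ψ.ker = Nat.card (Sq ψ.ker) * 8 ∨ Nat.card ψ.ker = Nat.card (Sq ψ.ker) * 16 := by
    obtain ⟨W, _, _, _, π, τ, hπ, -, h5, hτ⟩ := h.lin
    have := (seven hτ h5).2
    rw [hπ.card (Sq_le_self _), card_eq W]
    rcases (by omega : finrank (ZMod 2) W = 3 ∨ finrank (ZMod 2) W = 4) with e | e <;> simp [e]
  by_cases hb : Sq ψ.ker = ⊥
  · refine .inl ⟨fun x => hj (by rw [map_pow, map_one]; exact hb.le (sq_mem _ (hm x))), ?_⟩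
    rwa [Nat.card_congr (MonoidHom.ofInjective hj).toEquiv, hr, ← one_mul 8, ← one_mul 16, ← card_bot (G := Y), ← hb]
  have a3 : Nat.card (Sq ψ.ker) = 2 := a1.antisymm ((one_lt_card_iff_ne_bot _).2 hb)
  obtain ⟨d, hd, hd2⟩ : ∃ d ∈ ψ.ker, d ^ 2 ≠ 1 := by
    by_contra! e
    exact hb (le_bot_iff.1 (Sq_le.2 e))
  have he : ∀ c ∈ Sq ψ.ker, c ^ 2 = 1 := fun c hc =>
    congrArg Subtype.val (a3 ▸ pow_card_eq_one' (x := (⟨c, hc⟩ : Sq ψ.ker)))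
  have a4 : zpowers (d ^ 2) = Sq ψ.ker := eq_of_le_of_card_ge (zpowers_le.2 (sq_mem d hd))
    (by rw [Nat.card_zpowers, orderOf_eq_prime (he _ (sq_mem d hd)) hd2, a3])
  have hc : ∀ c ∈ Sq ψ.ker, ∀ a, a * c = c * a := fun c hc a => by
    by_cases e : c = 1
    · simp [e]
    have f : ∀ c ∈ Sq ψ.ker, c ≠ 1 → c = d ^ 2 := fun c hc e => (mem_zpowers_two (he _ (sq_mem d hd)) (a4.ge hc)).resolve_left e
    exact mul_inv_eq_iff_eq_mul.1 ((f _ (Normal.conj_mem inferInstance c hc a) (by simpa using e)).trans (f c hc e).symm)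
  obtain ⟨P, b1, b2, b3, b4, -⟩ := big h (H := Om hab 2) (fun c hc => ⟨Sq_le_self _ hc, he c hc⟩) (cmOm hab hc)
  have b5 := card_rel b1
  have b6 := card_rel b3
  have b7 : P.relIndex ψ.ker ≠ 1 := fun e => hd2 (b2 (relIndex_eq_one.1 e hd)).2
  rw [a3, b4] at b5
  rw [b5] at b6
  rw [a3] at a2
  obtain ⟨W, _, π, hπ⟩ := exists_add (bot_le : ⊥ ≤ P) fun x hx y hy => by rw [hab x (b3 hx) y (b3 hy)]; simp
  obtain ⟨_⟩ : Nonempty (Module (ZMod 2) W) := ⟨AddCommGroup.zmodModule fun w => by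
    obtain ⟨x, hx, rfl⟩ := hπ.surj w
    rw [two_nsmul, ← hπ.mul x hx x hx, ← pow_two, (b2 hx).2, hπ.one]⟩
  have := hπ.finite
  have c0 := b1 (sq_mem d hd)
  have c1 : π (d ^ 2) ≠ 0 := fun e => hd2 ((hπ.zero _ c0).1 e)
  obtain ⟨U, hU⟩ := Submodule.exists_isCompl (Submodule.span (ZMod 2) {π (d ^ 2)})
  have c2 := Submodule.finrank_add_eq_of_isCompl hU
  have c3 := hπ.relIndex
  rw [relIndex_bot_left, b5, card_eq] at c3
  rw [finrank_span_singleton c1, ← Nat.pow_right_injective le_rfl (show 2 ^ 4 = _ from c3)] at c2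
  let e : U ≃ₗ[ZMod 2] V3 := LinearEquiv.ofFinrankEq _ _ (by rw [finrank_fin_fun]; omega)
  choose σ h3 h4 using hπ.surj
  have c4 : ∀ x ∈ P, ∀ y ∈ P, π x = π y → x = y := fun x hx y hy e => inv_mul_eq_one.1 ((hπ.eq_iff hx hy).1 e)
  let β : (Fin 3 → Multiplicative (ZMod 2)) →* Y := MonoidHom.mk' (fun v => σ (e.symm fun i => (v i).toAdd)) fun u v =>
    c4 _ (h3 _) _ (mul_mem (h3 _) (h3 _)) (by rw [hπ.mul _ (h3 _) _ (h3 _), h4, h4, h4, ← Submodule.coe_add, ← map_add]; rfl)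
  have c5 : orderOf d = 4 := orderOf_eq_prime_pow (p := 2) (n := 1) hd2 (by rw [pow_succ, pow_mul]; exact he _ (sq_mem d hd))
  let α : Multiplicative (ZMod 4) ≃* zpowers d := mulEquivOfCyclicCardEq (by rw [Nat.card_zpowers, c5]; simp)
  let φ := ((zpowers d).subtype.comp α.toMonoidHom).noncommCoprod β fun a b => hab _ (zpowers_le.2 hd (α a).2) _ (b3 (h3 _))
  have c6 : Function.Injective φ := (injective_iff_map_eq_one φ).2 fun ⟨a, v⟩ hv => by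
    have d1 : (α a).1 = (β v)⁻¹ := eq_inv_of_mul_eq_one_left hv
    have d2 : (α a).1 ∈ P := d1 ▸ inv_mem (h3 _)
    have d3 : (α a).1 ∈ zpowers (d ^ 2) := by
      obtain ⟨n, hn⟩ := mem_zpowers_iff.1 (α a).2
      have := (b2 d2).2
      rw [← hn, ← _root_.zpow_natCast, ← _root_.zpow_mul, ← orderOf_dvd_iff_zpow_eq_one, c5] at this
      obtain ⟨m, rfl⟩ : 2 ∣ n := by omega
      exact ⟨m, by rw [← hn, _root_.zpow_mul]; norm_cast⟩
    have d4 : π (α a) = -(e.symm fun i => (v i).toAdd).1 := d1 ▸ (hπ.inv (h3 _)).trans (congrArg _ (h4 _))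
    have d5 : (α a).1 = 1 := (mem_zpowers_two (he _ (sq_mem d hd)) d3).resolve_right fun f => c1
      (Submodule.disjoint_def.1 hU.disjoint _ (Submodule.mem_span_singleton_self _) (by
        rw [← f, d4]; exact neg_mem (Subtype.prop _)))
    rw [d5, hπ.one, zero_eq_neg, Submodule.coe_eq_zero, map_eq_zero_iff _ e.symm.injective] at d4
    exact Prod.ext (α.injective (Subtype.ext (d5.trans (by simp)))) (funext fun i => congrFun d4 i)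
  have c7 : φ.range = j.range := hr ▸ eq_of_le_of_card_ge (by
      rintro _ ⟨⟨a, v⟩, rfl⟩; exact mul_mem (zpowers_le.2 hd (α a).2) (b3 (h3 _))) (by
      rw [← Nat.card_congr (MonoidHom.ofInjective c6).toEquiv,
        show Nat.card (Multiplicative (ZMod 4) × (Fin 3 → Multiplicative (ZMod 2))) = 32 by simp]
      omega)
  exact .inr ⟨(MonoidHom.ofInjective hj).trans ((MulEquiv.subgroupCongr c7.symm).trans (MonoidHom.ofInjective c6).symm)⟩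

end CA.H5Sr
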