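import Cfsg.Agent.Lib.Loc.H5Sr1
import Cfsg.Agent.Lib.Perm.SubA8
import Cfsg.Agent.Lib.Odd.BG2
import Cfsg.Agent.Lib.Solv.FpfRed

/-! Nonsolvable subgroups of `A₈` with a solvable normal subgroup of odd order. -/

set_option autoImplicit false

namespace CA.H5Sr
open Subgroup Cfsg CA.SubA8 Equiv

theorem s60 {H : Type*} [Group H] [Finite H] (h : Nat.card H < 60) : Group.IsSolvable H := by
  by_cases e : Squarefree (Nat.card H)
  · have := IsZGroup.of_squarefree e
    infer_instance
  apply CChar.CharBurn.isSolvable_of_card_primeFactors_le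
  have := Nat.card_pos (α := H)
  generalize Nat.card H = n at *
  interval_cases n <;> revert e <;> decide +kernel

theorem solv_of {H : Type*} [Group H] (N : Subgroup H) [N.Normal] (h1 : Group.IsSolvable N)
    (h2 : Group.IsSolvable (H ⧸ N)) : Group.IsSolvable H :=
  Group.isSolvable_of_ker_le_range N.subtype (QuotientGroup.mk' N) (by simp)

theorem cyc3 {g : Perm (Fin 8)} (hp : (orderOf g).Prime) (h2 : orderOf g ≠ 2)
    (h : 60 ≤ Nat.card (centralizer ({g} : Set (Perm (Fin 8))))) : g.IsThreeCycle := by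
  obtain ⟨n, hn⟩ := Perm.cycleType_prime_order hp
  have h1 := g.sum_cycleType_le
  rw [Perm.nat_card_centralizer, hn] at h
  rw [hn, Multiset.sum_replicate, Fintype.card_fin, smul_eq_mul] at h1
  rw [Perm.IsThreeCycle, hn]
  generalize orderOf g = p at *
  have h3 := hp.two_le
  have h4 : p ≤ 8 := by nlinarith
  have h5 : n ≤ 3 := by nlinarith
  clear hn
  interval_cases p <;> interval_cases n <;> revert h h1 hp h2 <;> decide

theorem caseB {H : Type*} [Group H] [Finite H] (f : H →* A8) (hf : Function.Injective f) (hns : ¬ Group.IsSolvable H)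
    (h2 : pCore 2 H = ⊥) {N : Subgroup H} [N.Normal] (hs : Group.IsSolvable N) (hN : N ≠ ⊥) :
    Nat.card (pCore 3 H) = 3 ∧ (Nonempty (H ⧸ pCore 3 H ≃* alternatingGroup (Fin 5)) ∨
      Nonempty (H ⧸ pCore 3 H ≃* Perm (Fin 5))) := by
  classical
  obtain ⟨V, p, _, -, h1, h3, hp, h4, -⟩ := FpfRed.exists_minimal_normal hs hN
  have := Fact.mk hp
  have hV : IsPGroup p V := fun v => ⟨1, Subtype.ext (by simpa using h4 v v.2)⟩
  have hp2 : p ≠ 2 := by rintro rfl; exact h1 (le_bot_iff.1 (h2 ▸ Core.le_pCore hV))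
  obtain ⟨k, hk⟩ := hV.exists_card_eq
  have h5 : p ^ k ∣ 20160 := hk ▸ (card_subgroup_dvd_card V).trans (idx f hf).1
  have hk0 : k ≠ 0 := by rintro rfl; exact h1 (card_eq_one.1 hk)
  have h6 : (centralizer (V : Set H)).index < 60 := by
    have := BG.relIndex_cent_abelem_dvd (A := ⊤) hp ⟨⟨h3, h4⟩, hk⟩ le_normalizer_of_normal
    rw [relIndex_top_right] at this
    have h7 : p ∈ Nat.primeFactors 20160 := Nat.mem_primeFactors.2 ⟨hp, (dvd_pow_self p hk0).trans h5, by norm_num⟩
    have h8 : ¬ 3 ≤ k := fun e => by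
      have := (pow_dvd_pow p e).trans h5
      rw [show Nat.primeFactors 20160 = {2, 3, 5, 7} by decide +kernel] at h7
      fin_cases h7 <;> simp_all
    rw [show Nat.primeFactors 20160 = {2, 3, 5, 7} by decide +kernel] at h7
    refine (Nat.le_of_dvd ?_ this).trans_lt ?_ <;> clear this hk h4 hV <;>
      interval_cases k <;> fin_cases h7 <;> revert h5 hp2 hk0 <;> decide
  have h7 : 60 ≤ Nat.card (centralizer (V : Set H)) := not_lt.1 fun e => hns (solv_of _ (s60 e) (s60 h6))
  let φ : H →* Perm (Fin 8) := A8.subtype.comp f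
  have hφ : Function.Injective φ := A8.subtype_injective.comp hf
  have h8 : ∀ v ∈ V, v ≠ 1 → (φ v).IsThreeCycle := fun v hv h => by
    have e : orderOf (φ v) = p := by rw [orderOf_injective φ hφ, orderOf_eq_prime (h4 v hv) h]
    refine cyc3 (e ▸ hp) (e ▸ hp2) (h7.trans ?_)
    rw [← card_map_of_injective hφ]
    refine card_le_of_le ?_
    rintro _ ⟨c, hc, rfl⟩ _ rfl
    rw [← map_mul, hc v hv, map_mul]
  have h9 : Nat.card V ∣ 3 := by
    letI : MulAction V (Fin 8) := MulAction.compHom _ (φ.comp V.subtype)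
    have := Fintype.ofFinite V
    have e := MulAction.sum_card_fixedBy_eq_card_orbits_mul_card_group V (Fin 8)
    rw [Finset.sum_congr rfl (g := fun v => 5 + if v = 1 then 3 else 0) fun v _ => ?_] at e
    · rw [Finset.sum_add_distrib, Finset.sum_const, Finset.sum_ite_eq', if_pos (Finset.mem_univ _), Finset.card_univ] at e
      rw [Nat.card_eq_fintype_card]
      exact (Nat.dvd_add_right (dvd_mul_right _ 5)).1 (e ▸ dvd_mul_left _ _)
    · split_ifs with h
      · simp [h]
      · have := (φ v).card_fixedPoints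
        rw [h8 v v.2 fun e => h (Subtype.ext e)] at this
        exact (Fintype.card_congr (Equiv.refl _)).trans this
  have h10 : Nat.card V = 3 := ((Nat.dvd_prime Nat.prime_three).1 h9).resolve_left fun e => h1 (card_eq_one.1 e)
  obtain ⟨⟨v, hv⟩, hv1⟩ := ne_bot_iff_exists_ne_one.1 h1
  have hv2 := h8 v hv fun e => hv1 (Subtype.ext e)
  have h11 : zpowers v = V := eq_of_le_of_card_ge (zpowers_le.2 hv) (by
    rw [h10, Nat.card_zpowers, ← orderOf_injective φ hφ, hv2.orderOf])
  have h12 : ∀ w ∈ V, ∀ x, φ v x = x → φ w x = x := fun w hw x hx => by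
    obtain ⟨n, rfl⟩ := h11.ge hw
    rw [map_zpow]
    exact Perm.zpow_apply_eq_self_of_apply_eq_self hx n
  have h13 : ∀ g x, φ v x = x → φ v (φ g x) = φ g x := fun g x hx => by
    have := h12 _ (Normal.conj_mem' inferInstance v hv g) x hx
    rw [map_mul, map_mul, map_inv, Perm.mul_apply, Perm.mul_apply, Perm.inv_eq_iff_eq] at this
    exact this
  have h14 : ∀ g x, φ v (φ g x) = φ g x ↔ φ v x = x := fun g x =>
    ⟨fun h => by simpa using h13 g⁻¹ _ h, h13 g x⟩
  have h15 : Fintype.card {x // φ v x = x} = 5 := by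
    have := (φ v).card_fixedPoints
    rw [hv2] at this
    exact (Fintype.card_congr (Equiv.refl _)).trans this
  let ψ := res φ (fun x => φ v x = x) h14
  have h16 : Nat.card H ∣ 720 := by
    have := card_dvd_of_injective (ψ.prod (res φ (fun x => ¬ φ v x = x) fun g x => (h14 g x).not))
      ((injective_iff_map_eq_one _).2 fun g hg => hφ (by
        rw [map_one]
        ext x
        by_cases hx : φ v x = x
        · exact congrArg (fun σ => (σ.1 ⟨x, hx⟩).1.1) hg
        · exact congrArg (fun σ => (σ.2 ⟨x, hx⟩).1.1) hg))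
    rwa [Nat.card_prod, Nat.card_perm, Nat.card_perm, Nat.card_eq_fintype_card (α := {x // _}),
      Nat.card_eq_fintype_card (α := {x // _}), Fintype.card_subtype_compl, h15] at this
  have h17 : V ≤ ψ.ker := fun w hw => Equiv.ext fun x => Subtype.ext (h12 w hw x x.2)
  have h18 : ψ.ker ≤ pCore 3 H := Core.le_pCore fun w => ⟨1, Subtype.ext (hφ (by
    have e1 : (φ w).support ⊆ (φ v).support := fun x => by
      rw [Perm.mem_support, Perm.mem_support]
      exact mt fun hx => congrArg Subtype.val (Equiv.congr_fun (show ψ w = 1 from w.2) ⟨x, hx⟩)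
    have e2 := Finset.card_le_card e1
    rw [hv2.card_support] at e2
    have e3 : (φ w).support.card ≠ 2 := fun e => by
      have := (Perm.card_support_eq_two.1 e).sign_eq
      rw [show Perm.sign (φ w) = 1 from (f w).2] at this
      exact absurd this (by decide)
    rw [pow_one, coe_pow, map_pow, coe_one, map_one]
    by_cases e4 : (φ w).support.card ≤ 1
    · rw [Perm.card_support_le_one.1 e4, one_pow]
    · rw [← (card_support_eq_three_iff.1 (by omega : (φ w).support.card = 3)).orderOf, pow_orderOf_eq_one]))⟩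
  have hT : IsPGroup 3 (pCore 3 H) := Core.isPGroup_pCore
  have := Fact.mk Nat.prime_three
  have hq : ¬ Group.IsSolvable (H ⧸ pCore 3 H) := fun e => hns (solv_of _ (by have := hT.isNilpotent; infer_instance) e)
  have h19 : Nat.card (pCore 3 H) = 3 := by
    obtain ⟨j, hj⟩ := hT.exists_card_eq
    have e1 := card_le_of_le (h17.trans h18)
    by_contra e
    have e2 : 2 ≤ j := by
      by_contra! e2
      interval_cases j <;> omega
    refine hq (CChar.CharBurn.isSolvable_of_primes (p := 2) (q := 5) fun r hr h => ?_)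
    rw [← (pCore 3 H).card_mul_index, hj] at h16
    have e3 : (pCore 3 H).index ∣ 80 := Nat.dvd_of_mul_dvd_mul_left (by norm_num : 0 < 3 ^ 2)
      ((Nat.mul_dvd_mul_right (pow_dvd_pow 3 e2) _).trans h16)
    have e4 : r ∈ Nat.primeFactors 80 := Nat.mem_primeFactors.2 ⟨hr, h.trans e3, by norm_num⟩
    rwa [show Nat.primeFactors 80 = {2, 5} by decide +kernel, Finset.mem_insert, Finset.mem_singleton] at e4
  have h20 : ψ.ker = pCore 3 H := eq_of_le_of_card_ge h18 (by rw [h19, ← h10]; exact card_le_of_le h17)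
  refine ⟨h19, of_inj_sym h15 (QuotientGroup.lift _ ψ h20.ge) ((QuotientGroup.injective_lift_iff _ _ _).2 h20.symm) ?_⟩
  have := not_lt.1 (mt s60 hq)
  have e : Nat.factorial 5 = 120 := rfl
  omega

section
variable {S : Type*} [Group S]

/-- `R2` with witnesses from a list -/
def R2' (L : List S) (s : S) : Prop := s * s = 1 ∧ ∃ g ∈ L, (s * (g * s * g⁻¹)) ^ 5 = 1 ∧ s * (g * s * g⁻¹) ≠ 1

instance decR2' [DecidableEq S] (L : List S) (s : S) : Decidable (R2' L s) := by unfold R2'; infer_instance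

/-- `Sys` with witnesses from a list -/
def Sys' (L : List S) (d e : S) (u : Fin 8 → S) : Prop := R2' L e ∧ R2' L (d * e) ∧
  (∀ i j, u i = u j → i = j) ∧ (∀ i j, ∃ k, u i * u j = u k) ∧
    (∀ i, u i * u i = 1) ∧ ∀ i, u i = 1 ∨ R2' L (u i) ∨ ∃ r ∈ L, r ^ 3 = 1 ∧ r ≠ 1 ∧ r * u i = u i * r

set_option synthInstance.maxSize 1000 in
instance decSys' [DecidableEq S] (L : List S) (d e : S) (u : Fin 8 → S) : Decidable (Sys' L d e u) := by
  unfold Sys'; infer_instance

theorem R2'.r2 {L : List S} {s : S} (h : R2' L s) : R2 s := ⟨h.1, h.2.imp fun _ => And.right⟩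

theorem Sys'.sys {L : List S} {d e c : S} (h : Sys' L d e ![1, d, e, d * e, c, c * d, c * e, c * d * e]) : Sys d e :=
  ⟨h.1.r2, h.2.1.r2, c, _, rfl, h.2.2.1, h.2.2.2.1, h.2.2.2.2.1, fun i =>
    (h.2.2.2.2.2 i).imp_right (Or.imp R2'.r2 (Exists.imp fun _ => And.right))⟩

theorem noS {X : Type*} [Group X] [Finite X] (hc : centralizer (pCore 2 X : Set X) ≤ pCore 2 X) (h : H7SR.SR 4 X)
    (ε : X ⧸ pCore 2 X ≃* S) (L : List S) (d e f c c' : S) (hS : R2' L d ∧ e * f * (e * f) = d ∧
      Sys' L d e ![1, d, e, d * e, c, c * d, c * e, c * d * e] ∧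
      Sys' L d f ![1, d, f, d * f, c', c' * d, c' * f, c' * d * f]) : False := by
  obtain ⟨W, _, _, π, ρ, hπ, hρ, hk⟩ := setup hc
  refine core hπ (map_subtype_le _) (ψ := ε.toMonoidHom.comp (QuotientGroup.mk' _))
    (ε.surjective.comp (QuotientGroup.mk'_surjective _)) (by ext; simp)
    (τ := (QuotientGroup.lift _ ρ fun g hg => (hk g).2 hg).comp ε.symm.toMonoidHom)
    ((injective_iff_map_eq_one _).2 fun g hg => ?_)
    (fun g x hx => by simp; exact hρ g x hx) h hS.1.r2 hS.2.2.1.sys hS.2.2.2.sys hS.2.1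
  obtain ⟨g, rfl⟩ := ε.surjective g
  obtain ⟨g, rfl⟩ := QuotientGroup.mk_surjective g
  rw [(QuotientGroup.eq_one_iff g).2 ((hk g).1 (by simp at hg; exact hg)), map_one]

end

/-- product of two transpositions -/
def t6 (a b c d : Fin 6) : Perm (Fin 6) := swap a b * swap c d

/-- product of two transpositions in `A₈` -/
def t8 (a b c d : Fin 8) (h : a ≠ b ∧ c ≠ d := by decide) : A8 := ⟨swap a b * swap c d, by simp [h.1, h.2]⟩

theorem noS6 {X : Type*} [Group X] [Finite X] (hc : centralizer (pCore 2 X : Set X) ≤ pCore 2 X) (h : H7SR.SR 4 X)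
    (ε : X ⧸ pCore 2 X ≃* Perm (Fin 6)) : False :=
  noS hc h ε [t6 1 4 1 2, t6 2 4 2 3, t6 0 4 0 2 * t6 1 5 1 3, t6 1 3 1 2, t6 1 5 1 4, t6 3 5 3 4,
    t6 0 4 0 1 * t6 2 5 2 3, t6 0 4 0 1 * t6 3 5 3 2] (t6 0 1 2 3) (t6 0 1 4 5) (t6 0 2 1 3) (t6 0 1 2 3 * swap 4 5)
    (swap 4 5) (by decide +kernel)

theorem noA8 {X : Type*} [Group X] [Finite X] (hc : centralizer (pCore 2 X : Set X) ≤ pCore 2 X) (h : H7SR.SR 4 X)
    (ε : X ⧸ pCore 2 X ≃* A8) : False :=
  noS hc h ε [t8 1 4 1 2, t8 2 4 2 3, t8 0 4 0 2 * t8 1 5 1 3, t8 1 3 1 2, t8 1 5 1 4, t8 3 5 3 4,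
    t8 0 4 0 1 * t8 2 5 2 3, t8 0 4 0 1 * t8 3 5 3 2] (t8 0 1 2 3) (t8 0 1 4 5) (t8 0 2 1 3) (t8 0 1 2 3 * t8 4 5 6 7)
    (t8 4 5 6 7) (by decide +kernel)

end CA.H5Sr
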