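import Cfsg.Agent.Lib.Loc.H5Sr1
import Cfsg.Agent.Lib.Grp.PGDihedral

/-! 2-constrained groups of sectional 2-rank at most four involving `A₅`: tools. -/

set_option autoImplicit false
set_option linter.unusedSectionVars false

namespace CA.H5Sr
open Subgroup Cfsg CA.HigLin CA.H7SR Module

universe u

theorem fix {α : Type*} [Finite α] {p : ℕ} [Fact p.Prime] (f : α → α) (hf : ∀ a, f^[p] a = a) (P : α → Prop)
    (hP : ∀ a, P a → P (f a)) : Nat.card {a // P a} ≡ Nat.card {a // P a ∧ f a = a} [MOD p] := by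
  classical
  have := Fintype.ofFinite α
  let F : Function.End {a // P a} := fun a => ⟨f a, hP a a.2⟩
  have hp : ∀ (n : ℕ) v, ((F ^ n) v).1 = f^[n] v := fun n => by
    induction n with
    | zero => intro v; rfl
    | succ n ih => intro v; rw [pow_succ, Function.iterate_succ_apply]; exact ih _
  have h1 := Equiv.Perm.card_fixedPoints_modEq (f := F) (p := p) (n := 1) (funext fun v => Subtype.ext (by
    rw [hp, pow_one, hf]; rfl))
  have e : Function.fixedPoints F ≃ {a // P a ∧ f a = a} :=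
    (Equiv.subtypeEquivRight (q := fun a : {a // P a} => f a = a) fun v => Subtype.ext_iff).trans
      (Equiv.subtypeSubtypeEquivSubtypeInter P fun a => f a = a)
  rwa [← Nat.card_eq_fintype_card, ← Nat.card_eq_fintype_card, Nat.card_congr e] at h1

section
variable {S W : Type*} [Group S] [AddCommGroup W] [Module (ZMod 2) W] [Finite W] {τ : S →* Module.End (ZMod 2) W}

theorem iter {s : S} {p : ℕ} (h : s ^ p = 1) (v : W) : (τ s)^[p] v = v := by
  rw [← Module.End.pow_apply, ← map_pow, h, map_one]; rfl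

variable (hτ : Function.Injective τ) (h4 : finrank (ZMod 2) W ≤ 4)
include hτ h4

theorem five {s : S} (h1 : s ^ 5 = 1) (h2 : s ≠ 1) : finrank (ZMod 2) W = 4 ∧ ∀ v, τ s v = v → v = 0 := by
  have := Fact.mk Nat.prime_five
  have h3 := modEq (τ := τ) h1
  have h5 := K_lt hτ h2
  have h6 : finrank (ZMod 2) W = 4 ∧ finrank (ZMod 2) (K τ s) = 0 := by
    generalize finrank (ZMod 2) W = n, finrank (ZMod 2) (K τ s) = k at *
    interval_cases n <;> interval_cases k <;> simp_all [Nat.ModEq]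
  exact ⟨h6.1, fun v hv => (Submodule.finrank_eq_zero.1 h6.2).le (mem_K.2 hv)⟩

theorem irr {s : S} (h1 : s ^ 5 = 1) (h2 : s ≠ 1) {U : Submodule (ZMod 2) W} (hU : ∀ v ∈ U, τ s v ∈ U) (h : U ≠ ⊥) :
    U = ⊤ := by
  have := Fact.mk Nat.prime_five
  obtain ⟨h3, h5⟩ := five hτ h4 h1 h2
  have h6 := fix (τ s) (iter h1) (· ∈ U) hU
  have h7 : Nat.card {a // a ∈ U ∧ τ s a = a} = 1 :=
    Nat.card_eq_one_iff_exists.2 ⟨⟨0, zero_mem _, map_zero _⟩, fun v => Subtype.ext (h5 _ v.2.2)⟩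
  have h8 := U.finrank_le
  have h9 := mt Submodule.finrank_eq_zero.1 h
  rw [h7, card_eq U] at h6
  refine Submodule.eq_top_of_finrank_eq ?_
  generalize finrank (ZMod 2) U = k at *
  rw [h3] at h8 ⊢
  interval_cases k <;> simp_all [Nat.ModEq]

theorem three (h5 : finrank (ZMod 2) W = 4) {r : S} (h1 : r ^ 3 = 1) (h2 : r ≠ 1) :
    Nat.card {a // τ r a = a} ≤ 4 := by
  have := Fact.mk Nat.prime_three
  have h3 := modEq (τ := τ) h1
  have h6 := K_lt hτ h2
  rw [Nat.card_congr (Equiv.subtypeEquivRight (q := (· ∈ K τ r)) fun v => mem_K.symm), card_eq (K τ r)]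
  rw [h5] at h3 h6
  generalize finrank (ZMod 2) (K τ r) = k at *
  interval_cases k <;> simp_all [Nat.ModEq]

end

theorem relIndex_pre {X W : Type*} [Group X] [AddCommGroup W] [Module (ZMod 2) W] [Finite W] {A B : Subgroup X}
    {π : X → W} (hπ : Add A B π) (U : Submodule (ZMod 2) W) :
    (hπ.pre U.toAddSubgroup).relIndex A = 2 ^ (finrank (ZMod 2) W - finrank (ZMod 2) U) := by
  have h12 : Add A (hπ.pre U.toAddSubgroup) fun x => U.mkQ (π x) :=
    ⟨fun x hx y hy => by rw [hπ.mul x hx y hy, map_add], fun x hx => by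
      rw [hπ.mem_pre, Submodule.mkQ_apply, Submodule.Quotient.mk_eq_zero]; simp [hx], fun v => by
      obtain ⟨v, rfl⟩ := U.mkQ_surjective v
      obtain ⟨x, hx, rfl⟩ := hπ.surj v
      exact ⟨x, hx, rfl⟩⟩
  have : Finite (W ⧸ U) := Finite.of_surjective _ U.mkQ_surjective
  rw [h12.relIndex, card_eq, ← U.finrank_quotient_add_finrank, Nat.add_sub_cancel]

theorem lin {Y : Type u} {S : Type*} [Group Y] [Finite Y] [Group S] [IsSimpleGroup S] {ψ : Y →* S}
    (hψ : Function.Surjective ψ) (h : SR 4 Y) {H N : Subgroup Y} [hH : H.Normal] [hN : N.Normal] (hle : N ≤ H)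
    (hsq : ∀ x ∈ H, x ^ 2 ∈ N) (hQ : ∀ q ∈ ψ.ker, ∀ x ∈ H, q * x * q⁻¹ * x⁻¹ ∈ N)
    (hnt : ¬ ∀ g, ∀ x ∈ H, g * x * g⁻¹ * x⁻¹ ∈ N) :
    ∃ (W : Type u) (_ : AddCommGroup W) (_ : Module (ZMod 2) W) (_ : Finite W) (π : Y → W)
      (τ : S →* Module.End (ZMod 2) W), Add H N π ∧ (∀ g, ∀ x ∈ H, τ (ψ g) (π x) = π (g * x * g⁻¹)) ∧
      finrank (ZMod 2) W ≤ 4 ∧ Function.Injective τ := by
  obtain ⟨W, _, π, hπ⟩ := exists_add hle fun x hx y hy => by
    have : x * y * x⁻¹ * y⁻¹ = x ^ 2 * (x⁻¹ * y) ^ 2 * (y⁻¹) ^ 2 := by simp only [sq]; group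
    exact this ▸ mul_mem (mul_mem (hsq x hx) (hsq _ (mul_mem (inv_mem hx) hy))) (hsq _ (inv_mem hy))
  obtain ⟨_⟩ : Nonempty (Module (ZMod 2) W) := ⟨AddCommGroup.zmodModule fun w => by
    obtain ⟨x, hx, rfl⟩ := hπ.surj w
    rw [two_nsmul, ← hπ.mul x hx x hx, ← pow_two]
    exact (hπ.zero _ (pow_mem hx 2)).2 (hsq x hx)⟩
  have := hπ.finite
  choose T hT using fun g : Y => hπ.lift (fun x => π (g * x * g⁻¹)) (fun x hx y hy => by
    rw [← hπ.mul _ (hH.conj_mem x hx g) _ (hH.conj_mem y hy g)]; congr 1; group) fun x hx' hx =>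
      (hπ.zero _ (hH.conj_mem x hx' g)).2 (hN.conj_mem x hx g)
  have e1 : ∀ w, T 1 w = w := fun w => by
    obtain ⟨x, hx, rfl⟩ := hπ.surj w
    exact (hT 1 x hx).trans (by simp)
  have e2 : ∀ a b w, T (a * b) w = T a (T b w) := fun a b w => by
    obtain ⟨x, hx, rfl⟩ := hπ.surj w
    rw [hT _ x hx, hT _ x hx, hT _ _ (hH.conj_mem x hx b)]; congr 1; group
  obtain ⟨ρ, hρ⟩ : ∃ ρ : Y →* Module.End (ZMod 2) W, ∀ g, ∀ x ∈ H, ρ g (π x) = π (g * x * g⁻¹) :=
    ⟨⟨⟨fun g => (T g).toZModLinearMap 2, LinearMap.ext e1⟩, fun a b => LinearMap.ext (e2 a b)⟩, hT⟩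
  have e3 : ∀ g, ∀ x ∈ H, π (g * x * g⁻¹) = π x ↔ g * x * g⁻¹ * x⁻¹ ∈ N := fun g x hx => by
    rw [← hπ.zero _ (mul_mem (hH.conj_mem x hx g) (inv_mem hx)), hπ.mul _ (hH.conj_mem x hx g) _ (inv_mem hx),
      hπ.inv hx, add_neg_eq_zero]
  obtain ⟨τ, hτ⟩ : ∃ τ : S →* Module.End (ZMod 2) W, ∀ g, τ (ψ g) = ρ g :=
    ⟨(QuotientGroup.lift ψ.ker ρ fun g hg => LinearMap.ext fun w => by
      obtain ⟨x, hx, rfl⟩ := hπ.surj w
      exact (hρ g x hx).trans ((e3 g x hx).2 (hQ g hg x hx))).comp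
        (QuotientGroup.quotientKerEquivOfSurjective ψ hψ).symm.toMonoidHom, fun g => by
      rw [show ψ g = QuotientGroup.quotientKerEquivOfSurjective ψ hψ g from rfl]
      simp; rfl⟩
  refine ⟨W, inferInstance, inferInstance, inferInstance, π, τ, hπ, fun g x hx => hτ g ▸ hρ g x hx, ?_, ?_⟩
  · have := h H N hle hsq
    rwa [hπ.relIndex, card_eq, Nat.pow_le_pow_iff_right one_lt_two] at this
  · refine (MonoidHom.ker_eq_bot_iff τ).1 ((IsSimpleGroup.eq_bot_or_eq_top_of_normal τ.ker inferInstance).resolve_right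
      fun e => hnt fun g x hx => (e3 g x hx).1 ?_)
    rw [← hρ g x hx, ← hτ, show τ (ψ g) = 1 from e.ge (mem_top _)]; rfl

theorem quad {Y W U : Type*} [Group Y] [AddCommGroup W] [AddCommGroup U] {Q Φ : Subgroup Y} {π : Y → W} {π' : Y → U}
    (hπ : Add Q Φ π) (hπ' : Add Φ ⊥ π') (hsq : ∀ x ∈ Q, x ^ 2 ∈ Φ) (hc : ∀ c ∈ Φ, ∀ g, g * c = c * g)
    (h2 : ∀ c ∈ Φ, c ^ 2 = 1) : ∃ (q : W → U) (B : W →+ W →+ U), (∀ x ∈ Q, q (π x) = π' (x ^ 2)) ∧
      (∀ x ∈ Q, ∀ y ∈ Q, B (π x) (π y) = π' (x * y * x⁻¹ * y⁻¹)) ∧ (∀ u v, q (u + v) = q u + q v - B u v) ∧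
      ∀ u, B u u = 0 := by
  have hcm : ∀ x ∈ Q, ∀ y ∈ Q, x * y * x⁻¹ * y⁻¹ ∈ Φ := fun x hx y hy => (hπ.zero _ (mul_mem (mul_mem
    (mul_mem hx hy) (inv_mem hx)) (inv_mem hy))).1 (by
      rw [hπ.mul _ (mul_mem (mul_mem hx hy) (inv_mem hx)) _ (inv_mem hy), hπ.conj hx hy, hπ.inv hy, add_neg_cancel])
  obtain ⟨B, hB⟩ := hπ.lift₂ hπ (fun x y => π' (x * y * x⁻¹ * y⁻¹)) (fun x hx y hy z hz => by
      rw [add_comm, ← hπ'.mul _ (hcm y hy z hz) _ (hcm x hx z hz)]; congr 1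
      calc _ = x * (y * z * y⁻¹ * z⁻¹) * (z * x⁻¹ * z⁻¹) := by group
        _ = _ := by rw [hc _ (hcm y hy z hz)]; group)
    (fun x hx y hy z hz => by
      rw [← hπ'.mul _ (hcm x hx y hy) _ (hcm x hx z hz)]; congr 1
      calc _ = x * y * x⁻¹ * (x * z * x⁻¹ * z⁻¹) * y⁻¹ := by group
        _ = _ := by rw [mul_assoc _ _ y⁻¹, ← hc _ (hcm x hx z hz)]; group)
    (fun x _ hx y _ => by rw [← hc x hx]; simpa using hπ'.one) fun x _ y _ hy => by rw [hc y hy]; simpa using hπ'.one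
  choose σ h3 h4 using hπ.surj
  have hq : ∀ x ∈ Q, π' (σ (π x) ^ 2) = π' (x ^ 2) := fun x hx => by
    have h5 := (hπ.eq_iff hx (h3 _)).1 (h4 (π x)).symm
    rw [← mul_inv_cancel_left x (σ (π x)), Commute.mul_pow (hc _ h5 x), h2 _ h5, mul_one]
  refine ⟨fun v => π' (σ v ^ 2), B, hq, hB, fun u v => ?_, fun u => ?_⟩
  · have := hB _ (inv_mem (h3 u)) _ (h3 v)
    rw [hπ.inv (h3 u), h4, h4, map_neg, AddMonoidHom.neg_apply] at this
    have h5 := hq _ (mul_mem (h3 u) (h3 v))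
    rw [hπ.mul _ (h3 u) _ (h3 v), h4, h4] at h5
    show π' _ = π' _ + π' _ - _
    rw [h5, sub_eq_add_neg, this, add_right_comm, ← hπ'.mul _ (hsq _ (h3 u)) _ (hcm _ (inv_mem (h3 u)) _ (h3 v)),
      ← hπ'.mul _ (mul_mem (hsq _ (h3 u)) (hcm _ (inv_mem (h3 u)) _ (h3 v))) _ (hsq _ (h3 v))]
    congr 1; simp only [sq]; group
  · rw [← h4 u, hB _ (h3 u) _ (h3 u)]; simpa using hπ'.one

theorem rel {W U : Type*} [AddCommGroup W] [Module (ZMod 2) W] [AddCommGroup U] [Module (ZMod 2) U]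
    (T : Module.End (ZMod 2) W) (h5 : ∀ v, T^[5] v = v) (h0 : ∀ v, T v = v → v = 0) {q : W → U} {B : W →+ W →+ U}
    (h1 : ∀ u v, q (u + v) = q u + q v - B u v) (h2 : ∀ u, B u u = 0) (h3 : ∀ u, q (T u) = q u)
    (h4 : ∀ u v, B (T u) (T v) = B u v) (w : W) : T (T (T (T w))) = w + T w + T (T w) + T (T (T w)) ∧
      B w (T (T (T w))) = B w (T (T w)) ∧ q w = B w (T w) + B w (T (T w)) := by
  have h5 : T (T (T (T (T w)))) = w := h5 w
  have h6 := h0 (w + T w + T (T w) + T (T (T w)) + T (T (T (T w)))) (by simp only [map_add, h5]; abel)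
  rw [add_eq_zero_iff_neg_eq, ZModModule.neg_eq_self] at h6
  have h7 : B w (T (T (T w))) = B w (T (T w)) := by
    have := h2 (w + T (T w))
    simp only [map_add, AddMonoidHom.add_apply, h2, zero_add, add_zero] at this
    rw [← h4, ← h4, h5, eq_neg_of_add_eq_zero_left this, ZModModule.neg_eq_self]
  refine ⟨h6.symm, h7, ?_⟩
  have := congrArg q h6
  simp only [h1, h3, map_add, AddMonoidHom.add_apply, h4, h7] at this
  linear_combination (norm := skip) this - ZModModule.add_self (q w) + ZModModule.add_self (B w (T w)) +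
    ZModModule.add_self (B w (T (T w)))
  abel

theorem es32 {E : Type*} [Group E] {z a b c d : E} (hz : z ≠ 1) (hz2 : z * z = 1) (hc : ∀ g, g * z = z * g)
    (ha : a * a = 1) (hb : b * b = 1) (hc2 : c * c = 1) (hd : d * d = 1) (hab : b * a = z * (a * b))
    (hac : c * a = z * (a * c)) (had : d * a = z * (a * d)) (hbc : c * b = z * (b * c)) (hbd : d * b = z * (b * d))
    (hcd : d * c = z * (c * d)) (hg : closure {a, b, c, d} = ⊤) (hZ : ∀ g ∈ center E, g = 1 ∨ g = z) :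
    ∃ A B : Subgroup E, Nonempty (A ≃* QuaternionGroup 2) ∧ Nonempty (B ≃* DihedralGroup 4) ∧
      (∀ x ∈ A, ∀ y ∈ B, x * y = y * x) ∧ A ⊔ B = ⊤ ∧ A ⊓ B = center E := by
  have m : ∀ {x y : E}, x * y = 1 → ∀ g, x * (y * g) = g := fun h g => by rw [← mul_assoc, h, one_mul]
  have m' : ∀ {x y w : E}, x * y = w → ∀ g, x * (y * g) = w * g := fun h g => by rw [← mul_assoc, h]
  have hc' : ∀ g h, g * (z * h) = z * (g * h) := fun g h => by rw [← mul_assoc, hc, mul_assoc]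
  have ne : ∀ {x y : E}, y * x = z * (x * y) → ¬ Commute x y := fun h e => hz (by simpa [e.eq] using h.symm)
  have o4 : ∀ {x : E}, x * x = z → orderOf x = 2 ^ 2 := fun {x} h => orderOf_eq_prime_pow
    (by rwa [pow_one, sq, h]) (by rw [show 2 ^ (1 + 1) = 2 * 2 from rfl, pow_mul, sq x, h, sq, hz2])
  have nm : ∀ {x y : E}, y * x = z * (x * y) → y ∉ zpowers x := by
    rintro x _ h ⟨k, rfl⟩
    exact ne h ((Commute.refl x).zpow_right k)
  have inv : ∀ {x y : E}, y * x = z * (x * y) → x * x = z → y * x * y⁻¹ = x⁻¹ := fun {x y} h h' => by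
    rw [h, eq_inv_iff_mul_eq_one]; simp [mul_assoc, h', hz2]
  have e1 : a * b * c * (a * b * c) = z := by
    simp only [mul_assoc, m' hab, m' hac, m' had, m' hbc, m' hbd, m' hcd, hab, hac, had, hbc, hbd, hcd, hc' a, hc' b,
      hc' c, hc' d, hc a, hc b, hc c, hc d, m ha, m hb, m hc2, m hd, m hz2, ha, hb, hc2, hd, hz2, mul_one, one_mul]
  have e2 : a * b * d * (a * b * d) = z := by
    simp only [mul_assoc, m' hab, m' hac, m' had, m' hbc, m' hbd, m' hcd, hab, hac, had, hbc, hbd, hcd, hc' a, hc' b,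
      hc' c, hc' d, hc a, hc b, hc c, hc d, m ha, m hb, m hc2, m hd, m hz2, ha, hb, hc2, hd, hz2, mul_one, one_mul]
  have e3 : a * b * d * (a * b * c) = z * (a * b * c * (a * b * d)) := by
    simp only [mul_assoc, m' hab, m' hac, m' had, m' hbc, m' hbd, m' hcd, hab, hac, had, hbc, hbd, hcd, hc' a, hc' b,
      hc' c, hc' d, hc a, hc b, hc c, hc d, m ha, m hb, m hc2, m hd, m hz2, ha, hb, hc2, hd, hz2, mul_one, one_mul]
  have e4 : a * b * (a * b) = z := by
    simp only [mul_assoc, m' hab, m' hac, m' had, m' hbc, m' hbd, m' hcd, hab, hac, had, hbc, hbd, hcd, hc' a, hc' b,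
      hc' c, hc' d, hc a, hc b, hc c, hc d, m ha, m hb, m hc2, m hd, m hz2, ha, hb, hc2, hd, hz2, mul_one, one_mul]
  have e5 : a * (a * b) = z * (a * b * a) := by
    simp only [mul_assoc, m' hab, m' hac, m' had, m' hbc, m' hbd, m' hcd, hab, hac, had, hbc, hbd, hcd, hc' a, hc' b,
      hc' c, hc' d, hc a, hc b, hc c, hc d, m ha, m hb, m hc2, m hd, m hz2, ha, hb, hc2, hd, hz2, mul_one, one_mul]
  have hcomm : zpowers (a * b * c) ⊔ zpowers (a * b * d) ≤ centralizer (zpowers (a * b) ⊔ zpowers a : Subgroup E) := by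
    rw [sup_le_iff, zpowers_le, zpowers_le]
    constructor <;> refine mem_centralizer_iff.2 fun g hg => mem_centralizer_singleton_iff.1
      ((sup_le (zpowers_le.2 ?_) (zpowers_le.2 ?_) : _ ≤ centralizer {_}) hg) <;>
      rw [mem_centralizer_singleton_iff] <;>
      simp only [mul_assoc, m' hab, m' hac, m' had, m' hbc, m' hbd, m' hcd, hab, hac, had, hbc, hbd, hcd, hc' a, hc' b,
      hc' c, hc' d, hc a, hc b, hc c, hc d, m ha, m hb, m hc2, m hd, m hz2, ha, hb, hc2, hd, hz2, mul_one, one_mul]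
  have hsup : zpowers (a * b * c) ⊔ zpowers (a * b * d) ⊔ (zpowers (a * b) ⊔ zpowers a) = ⊤ := by
    rw [eq_top_iff, ← hg, closure_le]
    have f1 : a * b ∈ zpowers (a * b * c) ⊔ zpowers (a * b * d) ⊔ (zpowers (a * b) ⊔ zpowers a) :=
      mem_sup_right (mem_sup_left (mem_zpowers _))
    have f2 : a ∈ zpowers (a * b * c) ⊔ zpowers (a * b * d) ⊔ (zpowers (a * b) ⊔ zpowers a) :=
      mem_sup_right (mem_sup_right (mem_zpowers _))
    rintro _ (rfl | rfl | rfl | rfl)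
    · exact f2
    · exact (mul_mem_cancel_left f2).1 f1
    · exact (mul_mem_cancel_left f1).1 (mem_sup_left (mem_sup_left (mem_zpowers _)))
    · exact (mul_mem_cancel_left f1).1 (mem_sup_left (mem_sup_right (mem_zpowers _)))
  refine ⟨_, _, PGDihedral.nonempty_subgroup_mulEquiv_quaternion (n := 2) (o4 e1) (nm e3) (by rw [sq, sq, e1, e2])
    (inv e3 e1), PGDihedral.nonempty_subgroup_mulEquiv_dihedral (o4 e4) (nm e5) (by rw [sq, ha]) (inv e5 e4),
    fun x hx y hy => (hcomm hx y hy).symm, hsup, le_antisymm (fun g hg' => mem_center_iff.2 fun h => ?_) fun g hg' => ?_⟩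
  · exact mem_centralizer_singleton_iff.1 ((sup_le (fun x hx => mem_centralizer_singleton_iff.2 (hcomm hx g hg'.2).symm)
      fun x hx => mem_centralizer_singleton_iff.2 (hcomm hg'.1 x hx) : _ ≤ centralizer {g}) (hsup.ge (mem_top h)))
  · rcases hZ g hg' with rfl | rfl
    · exact one_mem _
    · exact ⟨mem_sup_left (e1 ▸ mul_mem (mem_zpowers _) (mem_zpowers _)),
        mem_sup_left (e4 ▸ mul_mem (mem_zpowers _) (mem_zpowers _))⟩

end CA.H5Sr
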