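import Cfsg.Agent.Lib.Loc.H5Sr3

/-! 2-constrained groups of sectional 2-rank at most four involving `A₅`. -/

set_option autoImplicit false
set_option linter.unusedSectionVars false

namespace CA.H5Sr
open Subgroup Cfsg CA.HigLin CA.H7SR Module

universe u

/-- subgroup generated by the squares -/
def Sq {Y : Type*} [Group Y] (Q : Subgroup Y) : Subgroup Y := closure {x | ∃ q ∈ Q, q ^ 2 = x}

section
variable {Y : Type u} {S : Type*} [Group Y] [Finite Y] [Group S] [IsSimpleGroup S] {ψ : Y →* S}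

theorem Sq_le {Q H : Subgroup Y} : Sq Q ≤ H ↔ ∀ q ∈ Q, q ^ 2 ∈ H :=
  (closure_le H).trans ⟨fun h q hq => h ⟨q, hq, rfl⟩, by rintro h _ ⟨q, hq, rfl⟩; exact h q hq⟩

theorem sq_mem {Q : Subgroup Y} : ∀ q ∈ Q, q ^ 2 ∈ Sq Q := Sq_le.1 le_rfl

theorem Sq_le_self (Q : Subgroup Y) : Sq Q ≤ Q := Sq_le.2 fun _ h => pow_mem h 2

instance Sq_normal (Q : Subgroup Y) [h : Q.Normal] : (Sq Q).Normal := ⟨fun x hx g =>
  (Sq_le (H := (Sq Q).comap (MulAut.conj g).toMonoidHom)).2 (fun q hq => by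
    simpa [mem_comap, ← conj_pow] using sq_mem _ (h.conj_mem q hq g)) hx⟩

theorem comm_mem {Q : Subgroup Y} {x y : Y} (hx : x ∈ Q) (hy : y ∈ Q) : x * y * x⁻¹ * y⁻¹ ∈ Sq Q := by
  have : x * y * x⁻¹ * y⁻¹ = x ^ 2 * (x⁻¹ * y) ^ 2 * (y⁻¹) ^ 2 := by simp only [sq]; group
  exact this ▸ mul_mem (mul_mem (sq_mem x hx) (sq_mem _ (mul_mem (inv_mem hx) hy))) (sq_mem _ (inv_mem hy))

/-- standing hypothesis -/
structure Hyp (ψ : Y →* S) : Prop where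
  surj : Function.Surjective ψ
  sr : SR 4 Y
  pg : IsPGroup 2 ψ.ker
  nt : ¬ ∀ g, ∀ x ∈ ψ.ker, g * x * g⁻¹ * x⁻¹ ∈ Sq ψ.ker

theorem Hyp.lin (h : Hyp ψ) : ∃ (W : Type u) (_ : AddCommGroup W) (_ : Module (ZMod 2) W) (_ : Finite W) (π : Y → W)
    (τ : S →* Module.End (ZMod 2) W), Add ψ.ker (Sq ψ.ker) π ∧ (∀ g, ∀ x ∈ ψ.ker, τ (ψ g) (π x) = π (g * x * g⁻¹)) ∧
      finrank (ZMod 2) W ≤ 4 ∧ Function.Injective τ :=
  H5Sr.lin h.surj h.sr (Sq_le_self _) sq_mem (fun _ hq _ hx => comm_mem hq hx) h.nt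

theorem Hyp.quot (h : Hyp ψ) (Z : Subgroup Y) [Z.Normal] (hZ : Z ≤ Sq ψ.ker) :
    ∃ ψ' : Y ⧸ Z →* S, Hyp ψ' ∧ Nat.card (Sq ψ'.ker) = Z.relIndex (Sq ψ.ker) := by
  have h1 := QuotientGroup.ker_lift Z ψ (hZ.trans (Sq_le_self _))
  have h2 : Sq (ψ.ker.map (QuotientGroup.mk' Z)) = (Sq ψ.ker).map (QuotientGroup.mk' Z) :=
    le_antisymm (Sq_le.2 (by rintro _ ⟨q, hq, rfl⟩; exact ⟨_, sq_mem q hq, map_pow _ _ _⟩))
      (map_le_iff_le_comap.2 (Sq_le.2 fun q hq => by rw [mem_comap, map_pow]; exact sq_mem _ ⟨q, hq, rfl⟩))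
  refine ⟨QuotientGroup.lift Z ψ (hZ.trans (Sq_le_self _)), ⟨fun s => ?_, h.sr.map (QuotientGroup.mk'_surjective Z),
    h1 ▸ h.pg.map _, fun e => h.nt fun g x hx => ?_⟩, ?_⟩
  · obtain ⟨g, rfl⟩ := h.surj s
    exact ⟨g, rfl⟩
  · have := e g x hx
    rw [h1, h2] at this
    exact (comap_map_eq_self (f := QuotientGroup.mk' Z) (by rwa [QuotientGroup.ker_mk'])).le this
  · rw [h1, h2, ← relIndex_ker, QuotientGroup.ker_mk']

variable (h : Hyp ψ) {g : Y} (h1 : ψ g ^ 5 = 1) (h2 : ψ g ≠ 1)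
include h h1 h2

theorem Hyp.gen {H : Subgroup Y} (h3 : Sq ψ.ker ≤ H) (h4 : ∀ x ∈ H, g * x * g⁻¹ ∈ H) {x : Y} (hx : x ∈ H)
    (hx' : x ∈ ψ.ker) (hx'' : x ∉ Sq ψ.ker) : ψ.ker ≤ H := by
  obtain ⟨W, _, _, _, π, τ, hπ, hρ, h5, hτ⟩ := h.lin
  let U : AddSubgroup W :=
    { carrier := {v | ∃ x ∈ H, x ∈ ψ.ker ∧ π x = v}
      zero_mem' := ⟨1, one_mem _, one_mem _, hπ.one⟩
      add_mem' := by
        rintro _ _ ⟨a, a1, a2, rfl⟩ ⟨b, b1, b2, rfl⟩; exact ⟨_, mul_mem a1 b1, mul_mem a2 b2, hπ.mul _ a2 _ b2⟩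
      neg_mem' := by rintro _ ⟨a, a1, a2, rfl⟩; exact ⟨_, inv_mem a1, inv_mem a2, hπ.inv a2⟩ }
  have := irr hτ h5 h1 h2 (U := U.toZModSubmodule 2) (by
    rintro _ ⟨a, a1, a2, rfl⟩; exact ⟨_, h4 a a1, Normal.conj_mem inferInstance a a2 g, (hρ g a a2).symm⟩)
    fun e => hx'' ((hπ.zero x hx').1 (e.le ⟨x, hx, hx', rfl⟩))
  intro q hq
  obtain ⟨a, a1, a2, a3⟩ := this.ge (Submodule.mem_top (x := π q))
  exact (mul_mem_cancel_left (inv_mem a1)).1 (h3 ((hπ.eq_iff a2 hq).1 a3))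

theorem Hyp.gen2 {H : Subgroup Y} (h3 : Sq ψ.ker ≤ H) (h4 : ∀ x ∈ H, g * x * g⁻¹ ∈ H)
    (h6 : ∀ x ∈ ψ.ker, g * x * g⁻¹ * x⁻¹ ∈ H) : ψ.ker ≤ H := by
  obtain ⟨W, _, _, _, π, τ, hπ, hρ, h5, hτ⟩ := h.lin
  obtain ⟨h7, h8⟩ := five hτ h5 h1 h2
  obtain ⟨v, hv⟩ := finrank_pos_iff_exists_ne_zero.1 (h7 ▸ by norm_num : 0 < finrank (ZMod 2) W)
  obtain ⟨x, hx, rfl⟩ := hπ.surj v
  have h9 := Normal.conj_mem inferInstance x hx g
  refine h.gen h1 h2 h3 h4 (h6 x hx) (mul_mem h9 (inv_mem hx)) fun e => hv (h8 _ ?_)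
  have := (hπ.zero _ (mul_mem h9 (inv_mem hx))).2 e
  rwa [hπ.mul _ h9 _ (inv_mem hx), hπ.inv hx, add_neg_eq_zero, ← hρ g x hx] at this

omit h1 h2 in
theorem Hyp.caseI {t : S} (ht : R2 t) (hc : ∀ c ∈ Sq ψ.ker, ∀ q ∈ ψ.ker, q * c = c * q)
    (he : ∀ c ∈ Sq ψ.ker, c ^ 2 = 1) : ∀ g, ∀ x ∈ Sq ψ.ker, g * x * g⁻¹ * x⁻¹ ∈ (⊥ : Subgroup Y) := by
  by_contra hnt
  obtain ⟨W, _, _, _, π, τ, hπ, hρ, h5, hτ⟩ := h.lin
  obtain ⟨W', _, _, _, π', τ', hπ', hρ', h5', hτ'⟩ := H5Sr.lin h.surj h.sr bot_le he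
    (fun q hq x hx => by rw [hc x hx q hq]; simp) hnt
  obtain ⟨a1, a2, a3⟩ := r2 hτ h5 ht
  obtain ⟨-, b2, b3⟩ := r2 hτ' h5' ht
  have ht1 : t ≠ 1 := by rintro rfl; obtain ⟨-, g, -, e⟩ := ht; simp at e
  have hN : ψ.ker.Normal := inferInstance
  obtain ⟨y, rfl, hy⟩ : ∃ y, ψ y = t ∧ y ^ 2 ∈ Sq ψ.ker := by
    obtain ⟨y, rfl⟩ := h.surj t
    have c1 : y ^ 2 ∈ ψ.ker := by rw [MonoidHom.mem_ker, map_pow, sq, ht.1]
    obtain ⟨v, hv⟩ := a1.ge (mem_K.2 (by rw [hρ y _ c1]; congr 1; group) : π (y ^ 2) ∈ K τ (ψ y))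
    obtain ⟨x, hx, rfl⟩ := hπ.surj v
    have c2 := mul_mem hx (hN.conj_mem x hx y)
    refine ⟨x * y, by rw [map_mul, show ψ x = 1 from hx, one_mul], ?_⟩
    rw [show (x * y) ^ 2 = x * (y * x * y⁻¹) * y ^ 2 by simp [sq, mul_assoc], ← hπ.zero _ (mul_mem c2 c1),
      hπ.mul _ c2 _ c1, hπ.mul _ hx _ (hN.conj_mem x hx y), ← hρ y x hx, ← hv, LinearMap.sub_apply,
      ZModModule.sub_eq_add, add_comm (π x)]
    exact ZModModule.add_self _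
  let H := (zpowers (ψ y)).comap ψ ⊓ (centralizer {QuotientGroup.mk' (Sq ψ.ker) y}).comap (QuotientGroup.mk' _)
  have hH : ∀ x, x ∈ (centralizer {QuotientGroup.mk' (Sq ψ.ker) y}).comap (QuotientGroup.mk' _) ↔
      (y * x * y⁻¹)⁻¹ * x ∈ Sq ψ.ker := fun x => by
    rw [mem_comap, mem_centralizer_singleton_iff, ← QuotientGroup.eq, eq_comm, ← mul_inv_eq_iff_eq_mul]; rfl
  have c1 : hπ'.pre (K τ' (ψ y)).toAddSubgroup ≤ Sq ψ.ker := fun x hx => hx.1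
  have c2 := hπ.le_pre (Sq_le_self _) (K τ (ψ y)).toAddSubgroup
  have c3 : hπ.pre (K τ (ψ y)).toAddSubgroup ≤ H := fun x hx =>
    ⟨mem_comap.2 (by rw [show ψ x = 1 from hx.1]; exact one_mem _), (hH x).2 ((hπ.eq_iff (hN.conj_mem x hx.1 y) hx.1).1
      (by rw [← hρ y x hx.1]; exact mem_K.1 hx.2))⟩
  have c4 := h.sr H _ (c1.trans (c2.trans c3)) fun x hx => by
    have d1 := (hH x).1 hx.2
    suffices x ^ 2 ∈ Sq ψ.ker ∧ y * x ^ 2 * y⁻¹ = x ^ 2 from ⟨this.1, mem_K.2 (by rw [hρ' y _ this.1, this.2])⟩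
    rcases mem_zpowers_two (by rw [sq, ht.1]) hx.1 with e | e
    · refine ⟨sq_mem x e, ?_⟩
      conv_rhs => rw [← mul_inv_cancel_left (y * x * y⁻¹) x, Commute.mul_pow (hc _ d1 _ (hN.conj_mem x e y)), he _ d1,
        mul_one, conj_pow]
    · have d2 : x * y⁻¹ ∈ ψ.ker := by simp [MonoidHom.mem_ker, e]
      have d3 : x ^ 2 ∈ Sq ψ.ker := by
        have : x ^ 2 = (x * y⁻¹) ^ 2 * (y * ((y * x * y⁻¹)⁻¹ * x)⁻¹ * y⁻¹) * y ^ 2 := by
          simp only [sq]; group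
        rw [this]
        exact mul_mem (mul_mem (sq_mem _ d2) (Normal.conj_mem inferInstance _ (inv_mem d1) _)) hy
      refine ⟨d3, ?_⟩
      calc _ = (x * y⁻¹)⁻¹ * x ^ 2 * (x * y⁻¹) := by group
        _ = _ := by rw [mul_assoc, ← hc _ d3 _ d2, inv_mul_cancel_left]
  have c5 := relIndex_mul_relIndex _ _ _ c2 (fun x hx => (hπ.mem_pre.1 hx).1 : _ ≤ ψ.ker)
  rw [hπ.relIndex, card_eq, relIndex_pre, a2, a3] at c5
  rw [← relIndex_mul_relIndex _ _ _ c1 (c2.trans c3), ← relIndex_mul_relIndex _ _ _ c2 c3, relIndex_pre, b2, b3,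
    show (Sq ψ.ker).relIndex _ = 4 by omega] at c4
  have c6 : (hπ.pre (K τ (ψ y)).toAddSubgroup).relIndex H ≠ 0 := index_ne_zero_of_finite
  exact ht1 (relIndex_eq_one.1 (by omega : (hπ.pre (K τ (ψ y)).toAddSubgroup).relIndex H = 1)
    (x := y) ⟨mem_zpowers _, (hH y).2 (by simp [one_mem])⟩).1

theorem Hyp.central {Z : Subgroup Y} (hZ : ∀ z ∈ Z, z ^ 2 = 1 ∧ ∀ a, a * z = z * a)
    (hc : ∀ c ∈ Sq ψ.ker, ∀ a, a * c * a⁻¹ * c⁻¹ ∈ Z) : ∀ c ∈ Sq ψ.ker, ∀ a, a * c = c * a := fun c hc' => by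
  let χ : Y →* Y := MonoidHom.mk' (fun a => a * c * a⁻¹ * c⁻¹) fun a b => by
    calc _ = a * (b * c * b⁻¹ * c⁻¹) * (c * a⁻¹ * c⁻¹) := by group
      _ = (b * c * b⁻¹ * c⁻¹) * (a * c * a⁻¹ * c⁻¹) := by rw [(hZ _ (hc c hc' b)).2 a]; group
      _ = _ := ((hZ _ (hc c hc' b)).2 _).symm
  have e1 : ∀ a, a ^ 2 ∈ χ.ker := fun a => by rw [MonoidHom.mem_ker, map_pow]; exact (hZ _ (hc c hc' a)).1
  have e2 : ψ.ker ≤ χ.ker := h.gen2 h1 h2 (Sq_le.2 fun q _ => e1 q) (fun x hx => Normal.conj_mem inferInstance x hx g)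
    fun x _ => by
      rw [MonoidHom.mem_ker, map_mul, map_mul, map_mul, map_inv, map_inv, show χ g * χ x = χ x * χ g from
        (hZ _ (hc c hc' x)).2 _]; simp
  have e3 := (IsSimpleGroup.eq_bot_or_eq_top_of_normal _ (Normal.map inferInstance ψ h.surj : (χ.ker.map ψ).Normal)).resolve_left
    fun e => h2 (by
      have : ψ g ^ 2 = 1 := map_pow ψ g 2 ▸ e.le ⟨_, e1 g, rfl⟩
      rw [← h1, show 5 = 2 * 2 + 1 from rfl, pow_succ, pow_mul, this, one_pow, one_mul])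
  intro a
  have : χ a = 1 := (comap_map_eq_self e2).le (e3.ge (mem_top (ψ a)))
  exact mul_inv_eq_iff_eq_mul.1 (mul_inv_eq_one.1 this)

theorem Hyp.elem {Z : Subgroup Y} [Z.Normal] (hZ : ∀ z ∈ Z, z ^ 2 = 1) (hi : Z.relIndex (Sq ψ.ker) = 2)
    (hc : ∀ c ∈ Sq ψ.ker, ∀ a, a * c = c * a) : ∀ c ∈ Sq ψ.ker, c ^ 2 = 1 := fun c hc' => by
  by_contra e
  have e1 : ∀ a ∈ ψ.ker, ∀ b ∈ ψ.ker, ∃ k ∈ Z, (a * b) ^ 2 = a ^ 2 * b ^ 2 * k := fun a ha b hb => by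
    have f1 := comm_mem (inv_mem ha) hb
    have f2 : (a⁻¹ * b * a⁻¹⁻¹ * b⁻¹) ^ 2 = 1 := by
      calc _ = a⁻¹ * (a⁻¹ * b * a⁻¹⁻¹ * b⁻¹) * (b * a⁻¹⁻¹ * b⁻¹) := by rw [hc _ f1, sq]; group
        _ = (a ^ 2)⁻¹ * (b * a ^ 2) * b⁻¹ := by simp only [sq]; group
        _ = 1 := by rw [hc _ (sq_mem a ha)]; group
    refine ⟨_, by_contra fun f3 => e ?_, by rw [mul_assoc, hc _ f1]; simp only [sq]; group⟩
    have := hZ _ ((mul_mem_iff_of_index_two hi (a := ⟨_, f1⟩) (b := ⟨c, hc'⟩)).2 (iff_of_false f3 fun f => e (hZ c f)))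
    change (_ * c) ^ 2 = 1 at this
    rwa [Commute.mul_pow (hc c hc' _), f2, one_mul] at this
  let H : Subgroup Y :=
    { carrier := {x | x ∈ ψ.ker ∧ x ^ 2 ∈ Z}
      one_mem' := ⟨one_mem _, by simp [one_mem]⟩
      mul_mem' := fun {a b} ha hb => ⟨mul_mem ha.1 hb.1, by
        obtain ⟨k, hk, e⟩ := e1 a ha.1 b hb.1
        exact e ▸ mul_mem (mul_mem ha.2 hb.2) hk⟩
      inv_mem' := fun ha => ⟨inv_mem ha.1, by rw [inv_pow]; exact inv_mem ha.2⟩ }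
  have e2 : ψ.ker ≤ H := h.gen2 h1 h2 (fun x hx => ⟨Sq_le_self _ hx, sq_mem_of_index_two hi ⟨x, hx⟩⟩)
    (fun x hx => ⟨Normal.conj_mem inferInstance x hx.1 g, by rw [conj_pow]; exact Normal.conj_mem inferInstance _ hx.2 g⟩)
    fun x hx => by
      have f1 := Normal.conj_mem inferInstance x hx g
      obtain ⟨k, hk, e⟩ := e1 _ f1 _ (inv_mem hx)
      refine ⟨mul_mem f1 (inv_mem hx), ?_⟩
      rwa [e, conj_pow, hc _ (sq_mem x hx), mul_inv_cancel_right, inv_pow, mul_inv_cancel, one_mul]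
  rw [relIndex_eq_one.2 (Sq_le.2 fun q hq => (e2 hq).2)] at hi
  omega

theorem Hyp.pack (hc : ∀ c ∈ Sq ψ.ker, ∀ a, a * c = c * a) (he : ∀ c ∈ Sq ψ.ker, c ^ 2 = 1) (U : Type) [AddCommGroup U]
    [Module (ZMod 2) U] [Finite U] (hU : Nat.card (Sq ψ.ker) = Nat.card U) :
    ∃ (W : Type u) (_ : AddCommGroup W) (_ : Module (ZMod 2) W) (_ : Finite W) (π : Y → W)
    (τ : S →* Module.End (ZMod 2) W) (π' : Y → U) (q : W → U) (B : W →+ W →+ U), Add ψ.ker (Sq ψ.ker) π ∧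
      (∀ g, ∀ x ∈ ψ.ker, τ (ψ g) (π x) = π (g * x * g⁻¹)) ∧ finrank (ZMod 2) W = 4 ∧ Function.Injective τ ∧
      Add (Sq ψ.ker) ⊥ π' ∧ (∀ x ∈ ψ.ker, q (π x) = π' (x ^ 2)) ∧
      (∀ x ∈ ψ.ker, ∀ y ∈ ψ.ker, B (π x) (π y) = π' (x * y * x⁻¹ * y⁻¹)) ∧ q 0 = 0 ∧ (∀ t v, q (τ t v) = q v) ∧
      (∀ t u v, B (τ t u) (τ t v) = B u v) ∧ (∀ v, τ (ψ g) v = v → v = 0) ∧
      (∀ w, τ (ψ g) (τ (ψ g) (τ (ψ g) (τ (ψ g) w))) = w + τ (ψ g) w + τ (ψ g) (τ (ψ g) w) + τ (ψ g) (τ (ψ g) (τ (ψ g) w)) ∧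
        B w (τ (ψ g) (τ (ψ g) (τ (ψ g) w))) = B w (τ (ψ g) (τ (ψ g) w)) ∧
        q w = B w (τ (ψ g) w) + B w (τ (ψ g) (τ (ψ g) w))) ∧
      ∀ P : U → Prop, (∀ v, v ≠ 0 → P (q v)) → ∃ a b, P (a + b) ∧ P a ∧ P b := by
  obtain ⟨W, _, _, _, π, τ, hπ, hρ, h5, hτ⟩ := h.lin
  obtain ⟨h7, h8⟩ := five hτ h5 h1 h2
  obtain ⟨U', _, π₀, hπ₀⟩ := exists_add (bot_le : ⊥ ≤ Sq ψ.ker) fun x _ y hy => by rw [hc y hy x]; simp
  obtain ⟨_⟩ : Nonempty (Module (ZMod 2) U') := ⟨AddCommGroup.zmodModule fun w => by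
    obtain ⟨x, hx, rfl⟩ := hπ₀.surj w
    rw [two_nsmul, ← hπ₀.mul x hx x hx, ← pow_two, he x hx, hπ₀.one]⟩
  have := hπ₀.finite
  rw [← relIndex_bot_left, hπ₀.relIndex, card_eq, card_eq] at hU
  have hπ' := hπ₀.comp (LinearEquiv.ofFinrankEq U' U (Nat.pow_right_injective le_rfl hU)).toAddEquiv
  obtain ⟨q, B, a1, a2, a3, a4⟩ := quad hπ hπ' sq_mem hc he
  have hN : ψ.ker.Normal := inferInstance
  have a5 : ∀ t v, q (τ t v) = q v := fun t v => by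
    obtain ⟨t, rfl⟩ := h.surj t
    obtain ⟨x, hx, rfl⟩ := hπ.surj v
    rw [hρ t x hx, a1 _ (hN.conj_mem x hx t), a1 x hx, conj_pow, hc _ (sq_mem x hx), mul_inv_cancel_right]
  have a6 : ∀ t u v, B (τ t u) (τ t v) = B u v := fun t u v => by
    obtain ⟨t, rfl⟩ := h.surj t
    obtain ⟨x, hx, rfl⟩ := hπ.surj u
    obtain ⟨y, hy, rfl⟩ := hπ.surj v
    rw [hρ t x hx, hρ t y hy, a2 _ (hN.conj_mem x hx t) _ (hN.conj_mem y hy t), a2 x hx y hy,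
      ← mul_inv_cancel_right (x * y * x⁻¹ * y⁻¹) t, ← hc _ (comm_mem hx hy)]
    congr 2; group
  have a7 := rel (τ (ψ g)) (iter h1) h8 a3 a4 (a5 _) (a6 _)
  refine ⟨W, inferInstance, inferInstance, inferInstance, π, τ, _, q, B, hπ, hρ, h7, hτ, hπ', a1, a2,
    by simpa [a4] using a3 0 0, a5, a6, h8, a7, fun P hP => ?_⟩
  obtain ⟨w, hw⟩ := finrank_pos_iff_exists_ne_zero.1 (h7 ▸ by norm_num : 0 < finrank (ZMod 2) W)
  have a8 : ∀ v, w + v = 0 → v = w := fun v e => by rw [← neg_eq_of_add_eq_zero_right e, ZModModule.neg_eq_self]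
  refine ⟨_, _, (a7 w).2.2 ▸ hP w hw, ?_, ?_⟩
  · have := hP _ fun e => hw (h8 _ (a8 _ e))
    rwa [a3, a5, ZModModule.add_self, zero_sub, ZModModule.neg_eq_self] at this
  · have := hP (w + τ (ψ g) (τ (ψ g) w)) fun e => hw (h8 _ (by
      have e1 := a8 _ e
      have e2 : τ (ψ g) (τ (ψ g) (τ (ψ g) (τ (ψ g) (τ (ψ g) w)))) = w := iter h1 w
      rwa [e1, e1] at e2))
    rwa [a3, a5, a5, ZModModule.add_self, zero_sub, ZModModule.neg_eq_self] at this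

omit h h1 h2 in
theorem fib {α β : Type*} [Finite α] [Fintype β] (q : α → β) (P : α → Prop) :
    Nat.card {a // P a} = ∑ u, Nat.card {a // q a = u ∧ P a} := by
  rw [← Nat.card_congr (Equiv.sigmaFiberEquiv fun a : {a // P a} => q a), Nat.card_sigma]
  exact Finset.sum_congr rfl fun u _ => Nat.card_congr ((Equiv.subtypeSubtypeEquivSubtypeInter P (q · = u)).trans
    (Equiv.subtypeEquivRight fun _ => and_comm))

set_option synthInstance.maxSize 1000 in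
theorem Hyp.four {r : S} (h3 : r ^ 3 = 1) (h4 : r ≠ 1) (hc : ∀ c ∈ Sq ψ.ker, ∀ a, a * c = c * a)
    (he : ∀ c ∈ Sq ψ.ker, c ^ 2 = 1) : Nat.card (Sq ψ.ker) ≠ 4 := fun hU => by
  obtain ⟨W, _, _, _, π, τ, π', q, B, hπ, hρ, h5, hτ, hπ', a1, -, a3, a4, -, a6, -, a8⟩ :=
    h.pack h1 h2 hc he (ZMod 2 × ZMod 2) (by simpa using hU)
  have := Fact.mk Nat.prime_five
  have := Fact.mk Nat.prime_three
  have s : ∀ n : ZMod 2 × ZMod 2 → ℕ, ∑ u, n u = n 0 + n (0, 1) + n (1, 0) + n (1, 1) := fun n => by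
    rw [Fintype.sum_prod_type]; exact (add_assoc (n 0 + n (0, 1)) (n (1, 0)) (n (1, 1))).symm
  have b1 := fib q fun _ => True
  have b2 := three hτ h5.le h5 h3 h4
  simp only [and_true] at b1
  rw [Nat.card_congr (Equiv.subtypeUnivEquiv fun _ => trivial), card_eq, h5, s] at b1
  rw [fib q, s] at b2
  have b3 := fun u => fix (τ (ψ g)) (iter h1) (q · = u) fun v hv => (a4 _ v).trans hv
  have b4 := fun u => fix (τ r) (iter h3) (q · = u) fun v hv => (a4 _ v).trans hv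
  have b5 : Nat.card {v // q v = 0 ∧ τ (ψ g) v = v} = 1 :=
    Nat.card_eq_one_iff_exists.2 ⟨⟨0, a3, map_zero _⟩, fun v => Subtype.ext (a6 _ v.2.2)⟩
  have b6 : ∀ u, u ≠ 0 → Nat.card {v // q v = u ∧ τ (ψ g) v = v} = 0 := fun u hu =>
    Nat.card_eq_zero.2 (.inl ⟨fun v => hu (by rw [← v.2.1, a6 _ v.2.2, a3])⟩)
  have b7 : 0 < Nat.card {v // q v = 0 ∧ τ r v = v} := Nat.card_pos_iff.2 ⟨⟨⟨0, a3, map_zero _⟩⟩, inferInstance⟩
  have b8 : ∀ u, Nat.card {v // q v = u} = 0 → ∀ v, q v ≠ u := fun u e v hv =>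
    (Nat.card_pos_iff.2 ⟨⟨⟨v, hv⟩⟩, inferInstance⟩).ne' e
  have b9 : ∀ d e, d ≠ 0 → e ≠ 0 → d ≠ e → Nat.card {v // q v = d} = 0 → Nat.card {v // q v = e} ≠ 0 := fun d e c1 c2 c3 c4 c5 => by
    let D : AddSubgroup (ZMod 2 × ZMod 2) :=
      { carrier := {u | u ≠ d ∧ u ≠ e}
        zero_mem' := ⟨c1.symm, c2.symm⟩
        add_mem' := by simp only [Set.mem_ofPred_eq]; revert c1 c2 c3; generalize d = d, e = e; revert d e; decide
        neg_mem' := by simp only [Set.mem_ofPred_eq]; generalize d = d, e = e; revert d e; decide }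
    obtain ⟨x, hx, rfl⟩ := hπ'.surj d
    exact ((Sq_le (H := hπ'.pre D)).2 (fun y hy => ⟨sq_mem y hy, a1 y hy ▸ ⟨b8 _ c4 _, b8 _ c5 _⟩⟩) hx).2.1 rfl
  have b10 : ∀ d, d ≠ 0 → Nat.card {v // q v = 0} = 1 → Nat.card {v // q v = d} ≠ 0 := fun d c1 c2 c3 => by
    obtain ⟨a, b, c4⟩ := a8 (fun u => u ≠ 0 ∧ u ≠ d) fun v hv => ⟨fun e => hv (congrArg Subtype.val
      ((Nat.card_eq_one_iff_unique.1 c2).1.elim ⟨v, e⟩ ⟨0, a3⟩)), b8 d c3 v⟩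
    revert c1 c4; generalize d = d; revert a b d; decide
  have c0 := b3 0
  have c1 := b3 (0, 1)
  have c2 := b3 (1, 0)
  have c3 := b3 (1, 1)
  rw [b5] at c0
  rw [b6 _ (by decide)] at c1 c2 c3
  have d0 := b4 0
  have d1 := b4 (0, 1)
  have d2 := b4 (1, 0)
  have d3 := b4 (1, 1)
  have e1 := b9 (0, 1) (1, 0) (by decide) (by decide) (by decide)
  have e2 := b9 (0, 1) (1, 1) (by decide) (by decide) (by decide)
  have e3 := b9 (1, 0) (1, 1) (by decide) (by decide) (by decide)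
  have f1 := b10 (0, 1) (by decide)
  have f2 := b10 (1, 0) (by decide)
  have f3 := b10 (1, 1) (by decide)
  unfold Nat.ModEq at c0 c1 c2 c3 d0 d1 d2 d3
  generalize Nat.card {v // q v = (0, 1)} = n1, Nat.card {v // q v = (1, 0)} = n2, Nat.card {v // q v = (1, 1)} = n3 at *
  rcases (by omega : n1 = 0 ∨ n1 = 5 ∨ n1 = 10 ∨ n1 = 15) with rfl | rfl | rfl | rfl <;>
    rcases (by omega : n2 = 0 ∨ n2 = 5 ∨ n2 = 10 ∨ n2 = 15) with rfl | rfl | rfl | rfl <;>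
      rcases (by omega : n3 = 0 ∨ n3 = 5 ∨ n3 = 10 ∨ n3 = 15) with rfl | rfl | rfl | rfl <;> omega

end

theorem card_Sq {S : Type*} [Group S] [IsSimpleGroup S] {s t r : S} (h1 : s ^ 5 = 1) (h2 : s ≠ 1) (ht : R2 t)
    (h3 : r ^ 3 = 1) (h4 : r ≠ 1) (n : ℕ) : ∀ (Y : Type u) [Group Y] [Finite Y] (ψ : Y →* S), Nat.card Y < n → Hyp ψ →
      Nat.card (Sq ψ.ker) ≤ 2 := by
  induction n with
  | zero => intro _ _ _ _ h; omega
  | succ n ih =>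
  intro Y _ _ ψ hn h
  obtain ⟨g, rfl⟩ := h.surj s
  have step : ∀ (Z : Subgroup Y) [Z.Normal], Z ≤ Sq ψ.ker → Z ≠ ⊥ →
      (Sq ψ.ker ≤ Z ∨ Z.relIndex (Sq ψ.ker) = 2) ∧ Nat.card (Sq ψ.ker) = Nat.card Z * Z.relIndex (Sq ψ.ker) := fun Z _ a1 a2 => by
    obtain ⟨ψ', a3, a4⟩ := h.quot Z a1
    have a5 := Z.card_mul_index
    have a6 := (one_lt_card_iff_ne_bot Z).2 a2
    have a7 : Z.index ≠ 0 := index_ne_zero_of_finite
    have a8 := ih _ ψ' (by rw [← index_eq_card]; nlinarith [Nat.pos_of_ne_zero a7]) a3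
    have a9 : Z.relIndex (Sq ψ.ker) ≠ 0 := index_ne_zero_of_finite
    rw [← relIndex_eq_one, ← relIndex_bot_left, ← relIndex_bot_left Z, relIndex_mul_relIndex _ _ _ bot_le a1]
    exact ⟨by omega, rfl⟩
  by_cases hb : Sq ψ.ker = ⊥
  · rw [hb, card_bot]; omega
  let Z : Subgroup Y :=
    { carrier := {x | x ∈ Sq ψ.ker ∧ x ∈ centralizer (ψ.ker : Set Y) ∧ x ^ 2 = 1}
      one_mem' := ⟨one_mem _, one_mem _, one_pow _⟩
      mul_mem' := fun {a b} ha hb => ⟨mul_mem ha.1 hb.1, mul_mem ha.2.1 hb.2.1, by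
        rw [Commute.mul_pow (hb.2.1 a (Sq_le_self _ ha.1)), ha.2.2, hb.2.2, one_mul]⟩
      inv_mem' := fun ha => ⟨inv_mem ha.1, inv_mem ha.2.1, by rw [inv_pow, ha.2.2, inv_one]⟩ }
  have hZ : Z.Normal := ⟨fun x hx a => ⟨Normal.conj_mem inferInstance x hx.1 a, Normal.conj_mem inferInstance x hx.2.1 a,
    by rw [conj_pow, hx.2.2, mul_one, mul_inv_cancel]⟩⟩
  obtain ⟨z, hz, hz1⟩ : ∃ z ∈ Z, z ≠ 1 := by
    have := h.pg.isNilpotent
    obtain ⟨x, a1, a2, a3⟩ := PGBasic.exists_mem_center_of_nilpotent (M := (Sq ψ.ker).subgroupOf ψ.ker)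
      (by rwa [Ne, subgroupOf_eq_bot, disjoint_iff, inf_eq_left.2 (Sq_le_self _)])
    obtain ⟨k, hk⟩ := h.pg x
    induction k generalizing x with
    | zero => exact (a2 (by simpa using hk)).elim
    | succ k ih' =>
      by_cases e : x ^ 2 = 1
      · exact ⟨x, ⟨a1, fun q hq => congrArg Subtype.val (mem_center_iff.1 a3 ⟨q, hq⟩), congrArg Subtype.val e⟩,
          fun e => a2 (Subtype.ext e)⟩
      · exact ih' (x ^ 2) (pow_mem a1 2) e (pow_mem a3 2) (by rwa [← pow_mul, ← pow_succ'])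
  by_cases hnt : ∀ g, ∀ x ∈ Z, g * x * g⁻¹ * x⁻¹ ∈ (⊥ : Subgroup Y)
  · have a1 : z ∈ center Y := mem_center_iff.2 fun a => mul_inv_eq_iff_eq_mul.1 (mul_inv_eq_one.1 (hnt a z hz))
    have := normal_zpowers a1
    have a2 : Nat.card (zpowers z) = 2 := by rw [Nat.card_zpowers, orderOf_eq_prime hz.2.2 hz1]
    obtain ⟨a3 | a3, a4⟩ := step (zpowers z) (zpowers_le.2 hz.1) (by simpa using hz1)
    · exact a2 ▸ card_le_of_le a3
    have a5 : ∀ x ∈ zpowers z, x ^ 2 = 1 ∧ ∀ a, a * x = x * a := fun x hx =>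
      ⟨(zpowers_le.2 hz hx).2.2, mem_center_iff.1 (zpowers_le.2 a1 hx)⟩
    have a6 := h.central h1 h2 a5 fun c hc a => (mul_mem_iff_of_index_two a3
      (a := ⟨_, Normal.conj_mem inferInstance c hc a⟩) (b := ⟨c, hc⟩⁻¹)).2 (by
        rw [inv_mem_iff]
        exact ⟨fun e => by simpa [mul_assoc, mem_subgroupOf] using this.conj_mem' _ e a, fun e => this.conj_mem _ e a⟩)
    exact (h.four h1 h2 h3 h4 a6 (h.elem h1 h2 (fun x hx => (a5 x hx).1) a3 a6) (by rw [a4, a2, a3])).elim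
  obtain ⟨a3 | a3, a4⟩ := step Z (fun x hx => hx.1) fun e => hz1 (e.le hz)
  · exact (hnt fun a x hx => h.caseI ht (fun c hc => (a3 hc).2.1) (fun c hc => (a3 hc).2.2) a x hx.1).elim
  obtain ⟨W, _, _, _, π, τ, hπ, hρ, h5, hτ⟩ := lin (H := Z) h.surj h.sr bot_le (fun x hx => hx.2.2)
    (fun q hq x hx => by rw [hx.2.1 q hq]; simp) hnt
  obtain ⟨h6, h7⟩ := five hτ h5 h1 h2
  have a5 := h.sr.card_le (A := Sq ψ.ker) fun x hx => by
    have b1 : x ^ 2 ∈ Z := sq_mem_of_index_two a3 ⟨x, hx⟩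
    have b2 : g * x * g⁻¹ * x⁻¹ ∈ Z := (mul_mem_iff_of_index_two a3
      (a := ⟨_, Normal.conj_mem inferInstance x hx g⟩) (b := ⟨x, hx⟩⁻¹)).2 (by
        rw [inv_mem_iff]
        exact ⟨fun e => by simpa [mul_assoc, mem_subgroupOf] using hZ.conj_mem' _ e g, fun e => hZ.conj_mem _ e g⟩)
    refine (hπ.zero _ b1).1 (h7 _ ?_)
    rw [hρ g _ b1, ← conj_pow, ← inv_mul_cancel_right (g * x * g⁻¹) x,
      Commute.mul_pow (b2.2.1 x (Sq_le_self _ hx)).symm, b2.2.2, one_mul]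
  rw [a4, a3, ← relIndex_bot_left, hπ.relIndex, card_eq, h6] at a5
  omega

theorem Hyp.main {Y : Type u} {S E : Type*} [Group Y] [Finite Y] [Group S] [IsSimpleGroup S] [Group E] {ψ : Y →* S}
    (h : Hyp ψ) {s t r : S} (h1 : s ^ 5 = 1) (h2 : s ≠ 1) (ht : R2 t) (h3 : r ^ 3 = 1) (h4 : r ≠ 1) {j : E →* Y}
    (hj : Function.Injective j) (hr : j.range = ψ.ker) : ((∀ x : E, x ^ 2 = 1) ∧ Nat.card E = 16) ∨
      (Nat.card E = 32 ∧ ∃ A B : Subgroup E, Nonempty (A ≃* QuaternionGroup 2) ∧ Nonempty (B ≃* DihedralGroup 4) ∧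
      (∀ x ∈ A, ∀ y ∈ B, x * y = y * x) ∧ A ⊔ B = ⊤ ∧ A ⊓ B = center E) := by
  have a1 := card_Sq h1 h2 ht h3 h4 _ Y ψ (Nat.lt_succ_self _) h
  obtain ⟨g, rfl⟩ := h.surj s
  have hN : ψ.ker.Normal := inferInstance
  have hm : ∀ x, j x ∈ ψ.ker := fun x => hr.le ⟨x, rfl⟩
  have a2 : Nat.card E = Nat.card (Sq ψ.ker) * 16 := by
    obtain ⟨W, _, _, _, π, τ, hπ, -, h5, hτ⟩ := h.lin
    rw [Nat.card_congr (MonoidHom.ofInjective hj).toEquiv, hr, hπ.card (Sq_le_self _), card_eq W, (five hτ h5 h1 h2).1]; rfl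
  by_cases hb : Sq ψ.ker = ⊥
  · exact .inl ⟨fun x => hj (by rw [map_pow, map_one]; exact hb.le (sq_mem _ (hm x))), by rw [a2, hb, card_bot]⟩
  have a3 : Nat.card (Sq ψ.ker) = 2 := a1.antisymm ((one_lt_card_iff_ne_bot _).2 hb)
  obtain ⟨⟨z, hz⟩, hz1, hz2⟩ := (Nat.card_eq_two_iff' (1 : Sq ψ.ker)).1 a3
  have a4 : ∀ c ∈ Sq ψ.ker, c = 1 ∨ c = z := fun c hc => or_iff_not_imp_left.2 fun e =>
    congrArg Subtype.val (hz2 ⟨c, hc⟩ fun e' => e (congrArg Subtype.val e'))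
  replace hz1 : z ≠ 1 := fun e => hz1 (Subtype.ext e)
  have hc : ∀ c ∈ Sq ψ.ker, ∀ a, a * c = c * a := fun c hc a => by
    rcases a4 c hc with rfl | rfl
    · simp
    · exact mul_inv_eq_iff_eq_mul.1 ((a4 _ (Normal.conj_mem inferInstance c hc a)).resolve_left (by simpa using hz1))
  have he : ∀ c ∈ Sq ψ.ker, c ^ 2 = 1 := fun c hc =>
    congrArg Subtype.val (a3 ▸ pow_card_eq_one' (x := (⟨c, hc⟩ : Sq ψ.ker)))
  have a5 : ∀ x ∈ ψ.ker, x ∈ centralizer (ψ.ker : Set Y) → x ∈ Sq ψ.ker := fun x hx hx' => by_contra fun e => by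
    have b1 := h.gen h1 h2 (H := centralizer (ψ.ker : Set Y)) (fun c hc' a _ => hc c hc' a)
      (fun x hx => Normal.conj_mem inferInstance x hx g) hx' hx e
    let H : Subgroup Y :=
      { carrier := {x | x ∈ ψ.ker ∧ x ^ 2 = 1}
        one_mem' := ⟨one_mem _, one_pow _⟩
        mul_mem' := fun {a b} ha hb => ⟨mul_mem ha.1 hb.1, by rw [Commute.mul_pow (b1 hb.1 a ha.1), ha.2, hb.2, one_mul]⟩
        inv_mem' := fun ha => ⟨inv_mem ha.1, by rw [inv_pow, ha.2, inv_one]⟩ }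
    exact hb (le_bot_iff.1 (Sq_le.2 fun q hq => (h.gen2 h1 h2 (H := H) (fun c hc => ⟨Sq_le_self _ hc, he c hc⟩)
      (fun x hx => ⟨hN.conj_mem x hx.1 g, by rw [conj_pow, hx.2]; simp⟩) (fun x hx => ⟨mul_mem (hN.conj_mem x hx g)
        (inv_mem hx), by
          rw [Commute.mul_pow (b1 (inv_mem hx) _ (hN.conj_mem x hx g)), conj_pow, hc _ (sq_mem x hx)]; simp⟩) hq).2))
  obtain ⟨W, _, _, _, π, τ, π', q, B, hπ, hρ, h5, hτ, hπ', b1, b2, -, b4, b5, b6, b7, b8⟩ :=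
    h.pack h1 h2 hc he (ZMod 2) (by simpa using a3)
  obtain ⟨w, hw, hw'⟩ : ∃ w, w ≠ 0 ∧ q w = 0 := by
    by_contra! e
    obtain ⟨a, b, e⟩ := b8 (· ≠ 0) e
    revert a b; decide
  obtain ⟨b9, b10, b11⟩ := b7 w
  obtain ⟨x, hx, rfl⟩ := hπ.surj w
  obtain ⟨a, rfl⟩ := hr.ge hx
  obtain ⟨b, hb'⟩ := hr.ge (hN.conj_mem _ hx g)
  obtain ⟨c, hc'⟩ := hr.ge (hN.conj_mem _ (hm b) g)
  obtain ⟨d, hd'⟩ := hr.ge (hN.conj_mem _ (hm c) g)
  obtain ⟨z, rfl⟩ := hr.ge (Sq_le_self _ hz)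
  have pb : τ (ψ g) (π (j a)) = π (j b) := by rw [hρ g _ hx, hb']
  have pc : τ (ψ g) (π (j b)) = π (j c) := by rw [hρ g _ (hm b), hc']
  have pd : τ (ψ g) (π (j c)) = π (j d) := by rw [hρ g _ (hm c), hd']
  have qb := b4 (ψ g) (π (j a))
  have qc := b4 (ψ g) (π (j b))
  have qd := b4 (ψ g) (π (j c))
  have Bbc := b5 (ψ g) (π (j a)) (π (j b))
  have Bbd := b5 (ψ g) (π (j a)) (π (j c))
  have Bcd := b5 (ψ g) (π (j b)) (π (j c))
  rw [hw', eq_comm, add_eq_zero_iff_neg_eq, ZModModule.neg_eq_self] at b11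
  simp only [pb, pc, pd] at b9 b10 b11 qb qc qd Bbc Bbd Bcd
  have sq1 : ∀ {x}, q (π (j x)) = 0 → x * x = 1 := fun {x} e => hj (by
    rw [b1 _ (hm x)] at e
    rw [map_mul, map_one, ← sq]; exact (hπ'.zero _ (sq_mem _ (hm x))).1 e)
  have gen : ψ.ker ≤ (closure {a, b, c, d}).map j ⊔ Sq ψ.ker := by
    have m : ∀ x ∈ ({a, b, c, d} : Set E), j x ∈ (closure {a, b, c, d}).map j ⊔ Sq ψ.ker := fun x hx =>
      mem_sup_left ⟨x, subset_closure hx, rfl⟩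
    refine h.gen h1 h2 le_sup_right (fun x hx => (sup_le (map_le_iff_le_comap.2 ((closure_le _).2 ?_)) (fun y hy =>
      mem_sup_right (Normal.conj_mem inferInstance y hy g)) : _ ≤ ((closure {a, b, c, d}).map j ⊔ Sq ψ.ker).comap
        (MulAut.conj g).toMonoidHom) hx) (m a (by simp)) hx fun e => hw ((hπ.zero _ hx).2 e)
    suffices ∀ y ∈ ({a, b, c, d} : Set E), g * j y * g⁻¹ ∈ (closure {a, b, c, d}).map j ⊔ Sq ψ.ker from this
    rintro y (rfl | rfl | rfl | rfl)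
    · exact hb' ▸ m b (by simp)
    · exact hc' ▸ m c (by simp)
    · exact hd' ▸ m d (by simp)
    · have e := mul_mem (mul_mem (mul_mem (hm a) (hm b)) (hm c)) (hm y)
      refine (mul_mem_cancel_left (inv_mem (mul_mem (mul_mem (mul_mem (m a (by simp)) (m b (by simp))) (m c (by simp)))
        (m y (by simp))))).1 (mem_sup_right ((hπ.eq_iff e (hN.conj_mem _ (hm y) g)).1 ?_))
      rw [← hρ g _ (hm y), b9, hπ.mul _ (mul_mem (mul_mem (hm a) (hm b)) (hm c)) _ (hm y),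
        hπ.mul _ (mul_mem (hm a) (hm b)) _ (hm c), hπ.mul _ (hm a) _ (hm b)]
  have B0 : ∀ x y, B (π (j x)) (π (j y)) = 0 ↔ j x * j y * (j x)⁻¹ * (j y)⁻¹ = 1 := fun x y => by
    rw [b2 _ (hm x) _ (hm y), hπ'.zero _ (comm_mem (hm x) (hm y)), mem_bot]
  have Bab : B (π (j a)) (π (j b)) ≠ 0 := fun e => hw ((hπ.zero _ hx).2 (a5 _ hx fun y hy =>
    mem_centralizer_singleton_iff.1 ((sup_le (map_le_iff_le_comap.2 ((closure_le _).2 (by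
      have m : ∀ y, B (π (j a)) (π (j y)) = 0 → j y ∈ centralizer {j a} := fun y e => mem_centralizer_singleton_iff.2
        (mul_inv_eq_iff_eq_mul.1 (mul_inv_eq_one.1 ((B0 a y).1 e))).symm
      rintro y (rfl | rfl | rfl | rfl)
      exacts [mem_centralizer_singleton_iff.2 rfl, m _ e, m _ (b11 ▸ e), m _ (b10.trans (b11 ▸ e))])))
      fun y hy => mem_centralizer_singleton_iff.2 (hc y hy _).symm : _ ≤ centralizer {j a}) (gen hy))))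
  have hz3 : z * z = 1 := hj (by rw [map_mul, map_one, ← sq, he _ hz])
  have hz4 : ∀ x, x * z = z * x := fun x => hj (by rw [map_mul, map_mul, hc _ hz])
  have B1 : ∀ {x y}, B (π (j x)) (π (j y)) ≠ 0 → y * x = z * (x * y) := fun {x y} e => by
    have : x * y * x⁻¹ * y⁻¹ = z := hj (by
      simpa using (a4 _ (comm_mem (hm x) (hm y))).resolve_left (mt (B0 x y).2 e))
    rw [show x * y = z * (y * x) by rw [← this]; group, ← mul_assoc, hz3, one_mul]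
  refine .inr ⟨by rw [a2, a3], es32 (z := z) (a := a) (b := b) (c := c) (d := d) (by rintro rfl; simp at hz1) hz3 hz4
    (sq1 hw') (sq1 (qb.trans hw')) (sq1 (qc.trans (qb.trans hw'))) (sq1 (qd.trans (qc.trans (qb.trans hw')))) (B1 Bab)
    (B1 (b11 ▸ Bab)) (B1 (b10 ▸ b11 ▸ Bab)) (B1 (Bbc ▸ Bab)) (B1 (Bbd ▸ b11 ▸ Bab)) (B1 (Bcd ▸ Bbc ▸ Bab)) ?_ fun y hy => ?_⟩
  · have : Sq ψ.ker ≤ (closure {a, b, c, d}).map j := fun y hy => by
      rcases a4 y hy with rfl | rfl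
      · exact one_mem _
      · have m : ∀ x ∈ ({a, b, c, d} : Set E), x ∈ closure {a, b, c, d} := fun x hx => subset_closure hx
        have e := mul_mem (m b (by simp)) (m a (by simp))
        rw [B1 Bab] at e
        exact ⟨z, (mul_mem_cancel_right (mul_mem (m a (by simp)) (m b (by simp)))).1 e, rfl⟩
    rw [sup_eq_left.2 this] at gen
    exact eq_top_iff.2 fun y _ => (mem_map_iff_mem hj).1 (gen (hm y))
  · refine (a4 _ (a5 _ (hm y) fun x hx => ?_)).imp (fun e => hj (e.trans (map_one j).symm)) fun e => hj e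
    obtain ⟨x, rfl⟩ := hr.ge hx
    rw [← map_mul, mem_center_iff.1 hy, map_mul]

end CA.H5Sr
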