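import Cfsg.Agent.Lib.Loc.H5Sr4
import Cfsg.Agent.Lib.Lin.SLnGen
import Cfsg.Agent.Lib.Lin.A8GL4
import Cfsg.Agent.Lib.Spor.CGLin
import Cfsg.Agent.Lib.Grp.H10BF

/-! Small modules for `GL₃(2)` and finite computations. -/

set_option autoImplicit false
set_option linter.unusedSectionVars false

namespace CA.H5Sr
open Subgroup Cfsg CA.HigLin CA.H7SR Module Matrix

universe u

/-- natural module -/
abbrev V3 := Fin 3 → ZMod 2
/-- the group -/
abbrev L := GL (Fin 3) (ZMod 2)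

instance simpleL : IsSimpleGroup L :=
  have := CA.SLnGen.isSimpleGroup_PSL (ι := Fin 3) (F := ZMod 2) (.inl (by simp))
  ((CA.A8GL4.pslEquivSL (F := ZMod 2) (n := 3) (by norm_num) (by simp)).trans
    (CA.A8GL4.slEquivGL (by simp))).symm.isSimpleGroup

/-- unit from a pair of matrices -/
def mk (A B : Matrix (Fin 3) (Fin 3) (ZMod 2)) (h : A * B = 1 ∧ B * A = 1 := by decide) : L := ⟨A, B, h.1, h.2⟩
/-- transvection -/
def a1 : L := mk !![1,0,1;0,1,0;0,0,1] !![1,0,1;0,1,0;0,0,1]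
/-- transvection -/
def a2 : L := mk !![1,1,0;0,1,0;0,0,1] !![1,1,0;0,1,0;0,0,1]
/-- order three -/
def T : L := mk !![1,0,0;0,0,1;0,1,1] !![1,0,0;0,1,1;0,1,0]
/-- order seven -/
def s7 : L := mk !![1,1,0;1,0,1;0,1,0] (!![1,1,0;1,0,1;0,1,0] ^ 6)
/-- conjugating elements -/
def g1 : L := mk !![0,0,1;0,1,0;1,0,0] !![0,0,1;0,1,0;1,0,0]
/-- conjugating elements -/
def g2 : L := mk !![0,1,0;1,0,0;1,1,1] !![0,1,0;1,0,0;1,1,1]

theorem s7_pow : s7 ^ 7 = 1 := by decide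
theorem s7_ne : s7 ≠ 1 := by decide

section
variable {W : Type*} [AddCommGroup W] [Module (ZMod 2) W] [Finite W] {τ : L →* Module.End (ZMod 2) W}

theorem rk (s : L) : finrank (ZMod 2) (R τ s) + finrank (ZMod 2) (K τ s) = finrank (ZMod 2) W :=
  LinearMap.finrank_range_add_finrank_ker _

theorem K_conj (g a : L) : finrank (ZMod 2) (K τ a) ≤ finrank (ZMod 2) (K τ (g * a * g⁻¹)) :=
  LinearMap.finrank_le_finrank_of_injective (f := (τ g).restrict (p := K τ a) (q := K τ (g * a * g⁻¹)) fun v hv => by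
      rw [mem_K, ← mm, inv_mul_cancel_right, mm, mem_K.1 hv])
    fun u v e => Subtype.ext (by
      have := congrArg (fun x => τ g⁻¹ x.1) e
      simpa [← mm] using this)

variable (hτ : Function.Injective τ) (h4 : finrank (ZMod 2) W ≤ 4)
include hτ h4

theorem seven : finrank (ZMod 2) (R τ s7) = 3 ∧ 3 ≤ finrank (ZMod 2) W := by
  have := Fact.mk (by norm_num : Nat.Prime 7)
  have h1 := modEq (τ := τ) s7_pow
  have h2 := K_lt hτ s7_ne
  have h3 := rk (τ := τ) s7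
  generalize finrank (ZMod 2) W = n, finrank (ZMod 2) (K τ s7) = k at *
  interval_cases n <;> interval_cases k <;> simp_all [Nat.ModEq] <;> omega

theorem F4 (h5 : finrank (ZMod 2) W = 4) (h0 : ∀ v, (∀ g, τ g v = v) → v = 0) : finrank (ZMod 2) (K τ a1) = 2 := by
  have b1 := K_lt hτ (s := a1) (by decide)
  have b2 := Submodule.finrank_mono (R_le (τ := τ) (s := a1) (by decide))
  have b3 := rk (τ := τ) a1
  by_contra hn
  have c1 := K_conj (τ := τ) g1 a1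
  have c2 := K_conj (τ := τ) g2 a1
  have d1 := Submodule.finrank_sup_add_finrank_inf_eq (K τ a1) (K τ (g1 * a1 * g1⁻¹))
  have d2 := Submodule.finrank_sup_add_finrank_inf_eq (K τ a1 ⊓ K τ (g1 * a1 * g1⁻¹)) (K τ (g2 * a1 * g2⁻¹))
  have d3 := Submodule.finrank_le (K τ a1 ⊔ K τ (g1 * a1 * g1⁻¹))
  have d4 := Submodule.finrank_le (K τ a1 ⊓ K τ (g1 * a1 * g1⁻¹) ⊔ K τ (g2 * a1 * g2⁻¹))
  obtain ⟨⟨v, ⟨v1, v2⟩, v3⟩, hv⟩ := finrank_pos_iff_exists_ne_zero.1
    (by omega : 0 < finrank (ZMod 2) ↥(K τ a1 ⊓ K τ (g1 * a1 * g1⁻¹) ⊓ K τ (g2 * a1 * g2⁻¹)))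
  let H : Subgroup L :=
    { carrier := {g | τ g v = v}
      one_mem' := by simp
      mul_mem' := fun {a b} ha hb => by rw [Set.mem_ofPred_eq, mm, hb, ha]
      inv_mem' := fun {a} ha => by rw [Set.mem_ofPred_eq, ← ha, ← mm, inv_mul_cancel, map_one, ha]; rfl }
  have e1 : a1 ∈ H := mem_K.1 v1
  have e2 := H.mul_mem e1 (mem_K.1 v2)
  have e3 := H.mul_mem e2 (mem_K.1 v3)
  have := Fact.mk (by norm_num : Nat.Prime 7)
  have := Fact.mk Nat.prime_three
  have f1 := H.orderOf_dvd_natCard e1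
  have f2 := H.orderOf_dvd_natCard e2
  have f3 := H.orderOf_dvd_natCard e3
  rw [orderOf_eq_prime (p := 2) (by decide) (by decide)] at f1
  rw [orderOf_eq_prime (p := 3) (by decide) (by decide)] at f2
  rw [orderOf_eq_prime (p := 7) (by decide) (by decide)] at f3
  have f4 := H.card_mul_index
  have f5 := CA.H10BF.index_normalCore_le H
  rw [CA.CGLin.card_GL32] at f4
  rcases IsSimpleGroup.eq_bot_or_eq_top_of_normal H.normalCore inferInstance with e | e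
  · rw [e, index_bot, CA.CGLin.card_GL32] at f5
    have f6 : 42 ≤ Nat.card H := by have := Nat.card_pos (α := H); omega
    have f7 : H.index ≤ 4 := by nlinarith
    have := Nat.factorial_le f7
    simp [Nat.factorial] at this; omega
  · exact hv (Subtype.ext (h0 v fun g => H.normalCore_le (e.ge (mem_top g))))

theorem coord (h3 : finrank (ZMod 2) W = 3) : ∃ (α : L ≃* L) (e : W ≃+ V3), ∀ g v, e (τ g v) = (α g).1 *ᵥ e v := by
  let e : W ≃ₗ[ZMod 2] V3 := LinearEquiv.ofFinrankEq _ _ (by simp [h3])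
  let φ : L →* Matrix (Fin 3) (Fin 3) (ZMod 2) :=
    (LinearMap.toMatrixAlgEquiv'.toMulEquiv.toMonoidHom.comp (e.conjAlgEquiv (ZMod 2)).toMulEquiv.toMonoidHom).comp τ
  have hi : Function.Injective φ.toHomUnits := fun a b h =>
    hτ ((e.conjAlgEquiv (ZMod 2)).injective (LinearMap.toMatrixAlgEquiv'.injective (congrArg Units.val h)))
  refine ⟨MulEquiv.ofBijective _ ⟨hi, Finite.injective_iff_surjective.1 hi⟩, e.toAddEquiv, fun g v => ?_⟩
  simp [φ, LinearEquiv.conjAlgEquiv_apply, LinearMap.toMatrixAlgEquiv']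

end

/-- basis vector -/
abbrev e0 : V3 := ![1,0,0]

theorem SQc : ∀ y : V3, a1.1 *ᵥ y = y → ∀ w, a2.1 *ᵥ y = a1.1 *ᵥ w + y + w →
    a1.1 *ᵥ (T.1 *ᵥ y) = w + a2.1 *ᵥ w + T.1 *ᵥ y → ∀ x,
    y + w + T.1 *ᵥ y = x + (T * a2 * T⁻¹).1 *ᵥ x + T.1 *ᵥ (T.1 *ᵥ y) → ∃ v, v + a1.1 *ᵥ v + y = 0 := by
  decide +kernel

/-- coordinates in `ℤ₄³` -/
abbrev V4 := ZMod 4 × ZMod 4 × ZMod 4
/-- linear map with given columns -/
def lm (a b c v : V4) : V4 := v.1 • a + v.2.1 • b + v.2.2 • c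
/-- membership in the line -/
def inP (v : V4) : Prop := v = 0 ∨ v = (2,0,0)
instance (v : V4) : Decidable (inP v) := inferInstanceAs (Decidable (_ ∨ _))

/-- involution -/
def ff (c : V4) : V4 → V4 := lm (3,0,0) c (1,0,1)
/-- order three -/
def tt (d : V4) : V4 → V4 := lm d (0,0,1) (0,3,3)
/-- involution -/
def gg (E : ZMod 4) : V4 → V4 := lm (3,0,0) (3+E,1,0) (E,0,3)

set_option synthInstance.maxSize 4000 in
theorem LL1 : ∀ c : V4, c + c = (0,2,0) → ∀ d : V4, d + d = (2,0,0) → ff c c = (0,1,0) → tt d (tt d d) = (1,0,0) →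
    (∀ v ∈ [((1,0,0) : V4), (0,1,0), (0,0,1)], ff c (tt d (ff c v)) = tt d (tt d (ff c (tt d (tt d v))))) →
      (∃ E ∈ [(0 : ZMod 4), 2], c = (E,3,0)) ∧ d = (1,0,2) := by
  decide +kernel

set_option synthInstance.maxSize 4000 in
theorem LL2 : ∀ E ∈ [(0 : ZMod 4), 2], (∀ v, tt (1,0,2) (ff (E,3,0) (tt (1,0,2) (tt (1,0,2) v))) = gg E v) ∧
    (∀ u, inP (u + u) → inP (ff (E,3,0) u - u) ∧ inP (gg E u - u)) ∧
    ∀ y, ff (E,3,0) y = y → ∀ w, gg E y = ff (E,3,0) w + y + w → ff (E,3,0) (tt (1,0,2) y) = w + gg E w + tt (1,0,2) y →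
      ∀ x, y + w + tt (1,0,2) y = x + ff (E,3,0) (gg E x) + tt (1,0,2) (tt (1,0,2) y) →
      ∃ u ∈ [((0,0,0) : V4), (0,1,0), (0,0,1), (0,1,1)], ∃ v ∈ [((0,0,0) : V4), (0,1,0)], inP (u + ff (E,3,0) u + y) ∧
        inP (v + gg E v + tt (1,0,2) y) ∧ inP (u + ff (E,3,0) v + x + ff (E,3,0) (gg E (u + ff (E,3,0) v + x)) +
          tt (1,0,2) (tt (1,0,2) y)) := by
  decide +kernel

end CA.H5Sr
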