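import Cfsg.Agent.Lib.Loc.H5Sr5

/-! Sections of 2-constrained groups involving `GL₃(2)`. -/

set_option autoImplicit false
set_option linter.unusedSectionVars false

namespace CA.H5Sr
open Subgroup Cfsg CA.HigLin CA.H7SR Module Matrix

universe u

section
variable {Y : Type u} [Group Y] [Finite Y] {ψ : Y →* L}

theorem act {W : Type*} [AddCommGroup W] {H N : Subgroup Y} [hH : H.Normal] [hN : N.Normal] {π : Y → W}
    (hπ : Add H N π) : ∃ ρ : Y →* AddMonoid.End W, ∀ g, ∀ x ∈ H, ρ g (π x) = π (g * x * g⁻¹) := by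
  choose T hT using fun g : Y => hπ.lift (fun x => π (g * x * g⁻¹)) (fun x hx y hy => by
    rw [← hπ.mul _ (hH.conj_mem x hx g) _ (hH.conj_mem y hy g)]; congr 1; group) fun x hx' hx =>
      (hπ.zero _ (hH.conj_mem x hx' g)).2 (hN.conj_mem x hx g)
  refine ⟨⟨⟨T, AddMonoidHom.ext fun w => ?_⟩, fun a b => AddMonoidHom.ext fun w => ?_⟩, hT⟩
  · obtain ⟨x, hx, rfl⟩ := hπ.surj w
    exact (hT 1 x hx).trans (by simp; rfl)
  · obtain ⟨x, hx, rfl⟩ := hπ.surj w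
    show T _ _ = T a (T b _)
    rw [hT _ x hx, hT _ x hx, hT _ _ (hH.conj_mem x hx b)]; congr 1; group

theorem rels {W : Type*} [AddCommGroup W] {A N : Subgroup Y} [hA : A.Normal] {π : Y → W} (hπ : Add A N π)
    {F : Y → W → W} (hF : ∀ g, ∀ x ∈ A, F g (π x) = π (g * x * g⁻¹)) {r t x : Y} (h1 : r ^ 2 ∈ A) (hx : x ∈ A)
    (h2 : r * (t * r * t⁻¹) = x * (t * (t * r * t⁻¹) * t⁻¹)) : F r (π (r ^ 2)) = π (r ^ 2) ∧ ∃ w,
      F (t * r * t⁻¹) (π (r ^ 2)) = F r w + π (r ^ 2) + w ∧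
      F r (F t (π (r ^ 2))) = w + F (t * r * t⁻¹) w + F t (π (r ^ 2)) ∧
      π (r ^ 2) + w + F t (π (r ^ 2)) = π x + F (t * (t * r * t⁻¹) * t⁻¹) (π x) + F t (F t (π (r ^ 2))) := by
  have a1 := hA.conj_mem _ h1 t
  have a2 := hA.conj_mem _ a1 t
  have a3 : r ^ 2 * (r⁻¹ * (t * r * t⁻¹) * r * (t * r * t⁻¹)⁻¹) * (t * r ^ 2 * t⁻¹) =
      x * (t * (t * r * t⁻¹) * t⁻¹ * x * (t * (t * r * t⁻¹) * t⁻¹)⁻¹) * (t * (t * r ^ 2 * t⁻¹) * t⁻¹) := by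
    calc _ = (r * (t * r * t⁻¹)) ^ 2 := by simp only [sq]; group
      _ = _ := by rw [h2]; simp [sq, mul_assoc]
  have a4 := hA.conj_mem x hx (t * (t * r * t⁻¹) * t⁻¹)
  have a5 : r⁻¹ * (t * r * t⁻¹) * r * (t * r * t⁻¹)⁻¹ ∈ A :=
    (mul_mem_cancel_left h1).1 ((mul_mem_cancel_right a1).1 (a3 ▸ mul_mem (mul_mem hx a4) a2))
  refine ⟨(hF r _ h1).trans (by congr 1; group), π (r⁻¹ * (t * r * t⁻¹) * r * (t * r * t⁻¹)⁻¹), ?_, ?_, ?_⟩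
  · rw [hF _ _ h1, hF _ _ a5, ← hπ.mul _ (hA.conj_mem _ a5 r) _ h1, ← hπ.mul _ (mul_mem (hA.conj_mem _ a5 r) h1) _ a5]
    congr 1; simp only [sq]; group
  · rw [hF _ _ h1, hF _ _ a1, hF _ _ a5, ← hπ.mul _ a5 _ (hA.conj_mem _ a5 _),
      ← hπ.mul _ (mul_mem a5 (hA.conj_mem _ a5 _)) _ a1, ← hπ.conj (inv_mem h1) (hA.conj_mem _ a1 r)]
    congr 1; simp only [sq]; group
  · rw [hF _ _ h1, hF _ _ a1, hF _ _ hx, ← hπ.mul _ h1 _ a5, ← hπ.mul _ (mul_mem h1 a5) _ a1, a3,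
      hπ.mul _ (mul_mem hx a4) _ a2, hπ.mul _ hx _ a4]

theorem sec (h : SR 4 Y) {Q N : Subgroup Y} (h1 : N ≤ Q) (h2 : Q ≤ ψ.ker) (h3 : 8 ≤ N.relIndex Q) {r s : Y}
    (hr : ψ r = a1) (hs : ψ s = a2) (h4 : r ^ 2 ∈ N) (h5 : s ^ 2 ∈ N) (h6 : (r * s) ^ 2 ∈ N) (h7 : ∀ x ∈ Q, x ^ 2 ∈ N)
    (h8 : ∀ x ∈ Q, r * x * r⁻¹ * x⁻¹ ∈ N ∧ s * x * s⁻¹ * x⁻¹ ∈ N) : False := by
  let S : Set Y := {x | x ∈ Q ∨ x = r ∨ x = s}
  have b0 : ∀ x ∈ Q, ∀ y ∈ Q, x * y * x⁻¹ * y⁻¹ ∈ N := fun x hx y hy => by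
    have : x * y * x⁻¹ * y⁻¹ = x ^ 2 * (x⁻¹ * y) ^ 2 * (y⁻¹) ^ 2 := by simp only [sq]; group
    exact this ▸ mul_mem (mul_mem (h7 x hx) (h7 _ (mul_mem (inv_mem hx) hy))) (h7 _ (inv_mem hy))
  have b1 : ∀ x ∈ S, ∀ y ∈ Q, x * y * x⁻¹ * y⁻¹ ∈ N := by
    rintro x (hx | rfl | rfl) y hy
    exacts [b0 x hx y hy, (h8 y hy).1, (h8 y hy).2]
  have b2 : closure S ≤ normalizer (N : Set Y) := (closure_le _).2 fun x hx => mem_normalizer_fintype fun n hn => by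
    simpa using mul_mem (b1 x hx n (h1 hn)) hn
  have b3 : ∀ g ∈ closure S, ∀ n ∈ N, g * n * g⁻¹ ∈ N := fun g hg n hn => (mem_normalizer_iff.1 (b2 hg) n).1 hn
  have b4 : ∀ x y, x * y * x⁻¹ * y⁻¹ ∈ N → y * x * y⁻¹ * x⁻¹ ∈ N := fun x y e => by simpa [mul_assoc] using inv_mem e
  have b5 : r * s * r⁻¹ * s⁻¹ ∈ N := by
    have : r * s * r⁻¹ * s⁻¹ = (r * s) ^ 2 * (s⁻¹ * (r ^ 2)⁻¹ * s⁻¹⁻¹) * (s ^ 2)⁻¹ := by simp only [sq]; group
    exact this ▸ mul_mem (mul_mem h6 (b3 _ (inv_mem (subset_closure (.inr (.inr rfl)))) _ (inv_mem h4))) (inv_mem h5)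
  have b6 : ∀ x ∈ closure S, ∀ y ∈ closure S, x * y * x⁻¹ * y⁻¹ ∈ N := fun x hx y hy => by
    induction hx, hy using closure_induction₂ with
    | mem x y hx hy =>
      rcases hy with hy | rfl | rfl
      · exact b1 x hx y hy
      all_goals rcases hx with hx | rfl | rfl
      exacts [b4 _ _ (h8 x hx).1, by simp [one_mem], b4 _ _ b5, b4 _ _ (h8 x hx).2, b5, by simp [one_mem]]
    | one_left => simp [one_mem]
    | one_right => simp [one_mem]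
    | mul_left x y z hx _ _ e1 e2 => simpa [mul_assoc] using mul_mem (b3 x hx _ e2) e1
    | mul_right y z x hy _ _ e1 e2 => simpa [mul_assoc] using mul_mem e1 (b3 y hy _ e2)
    | inv_left x y hx _ e => simpa [mul_assoc] using b3 _ (inv_mem hx) _ (inv_mem e)
    | inv_right x y _ hy e => simpa [mul_assoc] using b3 _ (inv_mem hy) _ (inv_mem e)
  have b7 : Q ≤ closure S := fun x hx => subset_closure (.inl hx)
  have b8 := h (closure S) N (h1.trans b7) fun x hx => by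
    induction hx using closure_induction with
    | mem x hx => rcases hx with hx | rfl | rfl; exacts [h7 x hx, h4, h5]
    | one => simp [one_mem]
    | mul x y hx hy e1 e2 =>
      have : (x * y) ^ 2 = x * y * x⁻¹ * y⁻¹ * (y * x ^ 2 * y⁻¹) * y ^ 2 := by simp only [sq]; group
      exact this ▸ mul_mem (mul_mem (b6 x hx y hy) (b3 y hy _ e1)) e2
    | inv x _ e => exact inv_pow x 2 ▸ inv_mem e
  have b9 := Nat.le_of_dvd (Nat.pos_of_ne_zero index_ne_zero_of_finite) (relIndex_dvd_of_le_left (closure S) h2)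
  have c1 : Subgroup.closure {a1, a2} ≤ (closure S).map ψ := (closure_le _).2 (by
    rintro _ (rfl | rfl)
    exacts [⟨r, subset_closure (.inr (.inl rfl)), hr⟩, ⟨s, subset_closure (.inr (.inr rfl)), hs⟩])
  have c2 : 3 ≤ Nat.card ((closure S).map ψ) := by
    classical
    have := Fintype.ofFinite ((closure S).map ψ)
    rw [Nat.card_eq_fintype_card]
    exact Fintype.two_lt_card_iff.2 ⟨1, ⟨a1, c1 (subset_closure (.inl rfl))⟩, ⟨a2, c1 (subset_closure (.inr rfl))⟩,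
      fun e => (by decide : (1 : L) ≠ a1) (congrArg Subtype.val e),
      fun e => (by decide : (1 : L) ≠ a2) (congrArg Subtype.val e), fun e => (by decide : a1 ≠ a2) (congrArg Subtype.val e)⟩
  rw [relIndex_ker] at b9
  rw [← relIndex_mul_relIndex _ _ _ h1 b7] at b8
  exact absurd ((Nat.mul_le_mul h3 (c2.trans b9)).trans b8) (by norm_num)

theorem std (h : Hyp ψ) {H N : Subgroup Y} [H.Normal] [N.Normal] (hle : N ≤ H) (hsq : ∀ x ∈ H, x ^ 2 ∈ N)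
    (hQ : ∀ q ∈ ψ.ker, ∀ x ∈ H, q * x * q⁻¹ * x⁻¹ ∈ N) (hnt : ¬ ∀ g, ∀ x ∈ H, g * x * g⁻¹ * x⁻¹ ∈ N)
    (h8 : N.relIndex H ≤ 8) : ∃ (ψ' : Y →* L) (κ : Y → V3), Hyp ψ' ∧ ψ'.ker = ψ.ker ∧ Add H N κ ∧
      ∀ g, ∀ x ∈ H, (ψ' g).1 *ᵥ κ x = κ (g * x * g⁻¹) := by
  obtain ⟨W, _, _, _, π, τ, hπ, hρ, h5, hτ⟩ := lin h.surj h.sr hle hsq hQ hnt
  rw [hπ.relIndex, card_eq, show 8 = 2 ^ 3 from rfl, Nat.pow_le_pow_iff_right one_lt_two] at h8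
  obtain ⟨α, e, he⟩ := coord hτ h5 (h8.antisymm (seven hτ h5).2)
  have hk : (α.toMonoidHom.comp ψ).ker = ψ.ker := by ext; simp
  exact ⟨α.toMonoidHom.comp ψ, _, ⟨α.surjective.comp h.surj, h.sr, hk ▸ h.pg, hk ▸ h.nt⟩, hk, hπ.comp e,
    fun g x hx => (he _ _).symm.trans (congrArg e (hρ g x hx))⟩

theorem xker {r t : Y} (hr : ψ r = a1) (ht : ψ t = T) :
    r * (t * r * t⁻¹) * (t * (t * r * t⁻¹) * t⁻¹)⁻¹ ∈ ψ.ker := by
  simp only [MonoidHom.mem_ker, map_mul, map_inv, hr, ht]; decide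

theorem SQ (h : Hyp ψ) {N : Subgroup Y} {κ : Y → V3} (hκ : Add ψ.ker N κ)
    (hF : ∀ g, ∀ x ∈ ψ.ker, (ψ g).1 *ᵥ κ x = κ (g * x * g⁻¹)) : ∃ r, ψ r = a1 ∧ r ^ 2 ∈ N := by
  obtain ⟨r, hr⟩ := h.surj a1
  obtain ⟨t, ht⟩ := h.surj T
  have b1 : r ^ 2 ∈ ψ.ker := by rw [MonoidHom.mem_ker, map_pow, hr]; decide
  obtain ⟨c1, w, c2, c3, c4⟩ := rels hκ (F := fun g v => (ψ g).1 *ᵥ v) hF b1 (xker hr ht) (inv_mul_cancel_right _ _).symm
  simp only [map_mul, map_inv, hr, ht, show T * a1 * T⁻¹ = a2 by decide] at c1 c2 c3 c4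
  obtain ⟨v, hv⟩ := SQc _ c1 w c2 c3 _ c4
  obtain ⟨x, hx, rfl⟩ := hκ.surj v
  have c5 := Normal.conj_mem inferInstance x hx r
  refine ⟨x * r, by rw [map_mul, show ψ x = 1 from hx, one_mul, hr], ?_⟩
  rwa [show (x * r) ^ 2 = x * (r * x * r⁻¹) * r ^ 2 by simp [sq, mul_assoc], ← hκ.zero _ (mul_mem (mul_mem hx c5) b1),
    hκ.mul _ (mul_mem hx c5) _ b1, hκ.mul _ hx _ c5, ← hF r x hx, hr]

theorem cnt (h : Hyp ψ) {Z : Subgroup Y} [Z.Normal] (hZ : Z ≤ ψ.ker) (hsq : ∀ x ∈ ψ.ker, x ^ 2 ∈ Z)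
    (hc : ∀ c ∈ Z, ∀ q ∈ ψ.ker, q * c = c * q) (he : ∀ c ∈ Z, c ^ 2 = 1) {W W' : Type*} [AddCommGroup W]
    [Module (ZMod 2) W] [Finite W] [AddCommGroup W'] [Module (ZMod 2) W'] [Finite W'] {π : Y → W} {π' : Y → W'}
    {τ : L →* Module.End (ZMod 2) W} {τ' : L →* Module.End (ZMod 2) W'} (hπ : Add ψ.ker Z π) (hπ' : Add Z ⊥ π')
    (hρ : ∀ g, ∀ x ∈ ψ.ker, τ (ψ g) (π x) = π (g * x * g⁻¹)) (hρ' : ∀ g, ∀ x ∈ Z, τ' (ψ g) (π' x) = π' (g * x * g⁻¹))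
    {y : Y} (ht : ψ y = a1) (b : finrank (ZMod 2) W' - finrank (ZMod 2) (K τ' (ψ y)) = 2)
    (hy : 3 ≤ finrank (ZMod 2) (K τ (ψ y)) ∨ (2 ≤ finrank (ZMod 2) (K τ (ψ y)) ∧ y ^ 2 ∈ Z)) : False := by
  have hN : ψ.ker.Normal := inferInstance
  have c1 : hπ'.pre (K τ' (ψ y)).toAddSubgroup ≤ Z := fun x hx => hx.1
  have c2 := hπ.le_pre hZ (K τ (ψ y)).toAddSubgroup
  have c5 := relIndex_mul_relIndex _ _ _ c2 (fun x hx => (hπ.mem_pre.1 hx).1 : _ ≤ ψ.ker)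
  have c7 := Submodule.finrank_le (K τ (ψ y))
  rw [hπ.relIndex, card_eq, relIndex_pre, ← Nat.add_sub_cancel' c7, pow_add, Nat.add_sub_cancel_left,
    mul_left_inj' (by positivity)] at c5
  have c8 : ∀ x ∈ ψ.ker, (y * x * y⁻¹)⁻¹ * x ∈ Z → x ^ 2 ∈ hπ'.pre (K τ' (ψ y)).toAddSubgroup := fun x e d1 =>
    ⟨hsq x e, mem_K.2 (by
      rw [hρ' y _ (hsq x e)]
      conv_rhs => rw [← mul_inv_cancel_left (y * x * y⁻¹) x, Commute.mul_pow (hc _ d1 _ (hN.conj_mem x e y)), he _ d1,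
        mul_one, conj_pow])⟩
  have c9 : ∀ x ∈ hπ.pre (K τ (ψ y)).toAddSubgroup, (y * x * y⁻¹)⁻¹ * x ∈ Z := fun x hx =>
    (hπ.eq_iff (hN.conj_mem x hx.1 y) hx.1).1 (by rw [← hρ y x hx.1]; exact mem_K.1 hx.2)
  rcases hy with hy | ⟨hy', hy⟩
  · have c4 := h.sr _ _ (c1.trans c2) fun x hx => c8 x hx.1 (c9 x hx)
    rw [← relIndex_mul_relIndex _ _ _ c1 c2, relIndex_pre, b, c5] at c4
    have := Nat.pow_le_pow_right two_pos hy
    omega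
  let H := (zpowers (ψ y)).comap ψ ⊓ (centralizer {QuotientGroup.mk' Z y}).comap (QuotientGroup.mk' _)
  have hH : ∀ x, x ∈ (centralizer {QuotientGroup.mk' Z y}).comap (QuotientGroup.mk' _) ↔
      (y * x * y⁻¹)⁻¹ * x ∈ Z := fun x => by
    rw [mem_comap, mem_centralizer_singleton_iff, ← QuotientGroup.eq, eq_comm, ← mul_inv_eq_iff_eq_mul]; rfl
  have c3 : hπ.pre (K τ (ψ y)).toAddSubgroup ≤ H := fun x hx =>
    ⟨mem_comap.2 (by rw [show ψ x = 1 from hx.1]; exact one_mem _), (hH x).2 (c9 x hx)⟩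
  have c4 := h.sr H _ (c1.trans (c2.trans c3)) fun x hx => by
    have d1 := (hH x).1 hx.2
    rcases mem_zpowers_two (by rw [ht]; decide) hx.1 with e | e
    · exact c8 x e d1
    · have d2 : x * y⁻¹ ∈ ψ.ker := by simp [MonoidHom.mem_ker, e]
      have d3 : x ^ 2 ∈ Z := by
        have : x ^ 2 = (x * y⁻¹) ^ 2 * (y * ((y * x * y⁻¹)⁻¹ * x)⁻¹ * y⁻¹) * y ^ 2 := by
          simp only [sq]; group
        rw [this]
        exact mul_mem (mul_mem (hsq _ d2) (Normal.conj_mem inferInstance _ (inv_mem d1) _)) hy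
      refine ⟨d3, mem_K.2 (by
        rw [hρ' y _ d3]; congr 1
        calc _ = (x * y⁻¹)⁻¹ * x ^ 2 * (x * y⁻¹) := by group
          _ = _ := by rw [mul_assoc, ← hc _ d3 _ d2, inv_mul_cancel_left])⟩
  rw [← relIndex_mul_relIndex _ _ _ c1 (c2.trans c3), ← relIndex_mul_relIndex _ _ _ c2 c3, relIndex_pre, b, c5] at c4
  have c6 : (hπ.pre (K τ (ψ y)).toAddSubgroup).relIndex H ≠ 0 := index_ne_zero_of_finite
  have := Nat.pow_le_pow_right two_pos hy'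
  exact absurd (ht.symm.trans (relIndex_eq_one.1 (by
    by_contra e
    have := Nat.mul_le_mul this (by omega : 2 ≤ (hπ.pre (K τ (ψ y)).toAddSubgroup).relIndex H)
    omega : (hπ.pre (K τ (ψ y)).toAddSubgroup).relIndex H = 1)
    (x := y) ⟨mem_zpowers _, (hH y).2 (by simp [one_mem])⟩).1) (by decide)

theorem caseJ (h : Hyp ψ) {Z : Subgroup Y} [Z.Normal] (hZ : Z ≤ ψ.ker) (hsq : ∀ x ∈ ψ.ker, x ^ 2 ∈ Z)
    (hc : ∀ c ∈ Z, ∀ q ∈ ψ.ker, q * c = c * q) (he : ∀ c ∈ Z, c ^ 2 = 1) (h16 : Nat.card Z = 16)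
    (h0 : ∀ c ∈ Z, (∀ g, g * c = c * g) → c = 1) (hnt : ¬ ∀ g, ∀ x ∈ ψ.ker, g * x * g⁻¹ * x⁻¹ ∈ Z) : False := by
  have hQ : ∀ q ∈ ψ.ker, ∀ x ∈ ψ.ker, q * x * q⁻¹ * x⁻¹ ∈ Z := fun q hq x hx => Sq_le.2 hsq (comm_mem hq hx)
  have free : ∀ {ψ' : Y →* L}, Hyp ψ' → ψ'.ker = ψ.ker → ∃ (W : Type u) (_ : AddCommGroup W) (_ : Module (ZMod 2) W)
      (_ : Finite W) (π : Y → W) (τ : L →* Module.End (ZMod 2) W), Add Z ⊥ π ∧
      (∀ g, ∀ x ∈ Z, τ (ψ' g) (π x) = π (g * x * g⁻¹)) ∧ finrank (ZMod 2) W - finrank (ZMod 2) (K τ a1) = 2 := fun h' e => by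
    obtain ⟨W, _, _, _, π, τ, hπ, hρ, h5, hτ⟩ := lin h'.surj h.sr bot_le he
      (fun q hq x hx => by rw [hc x hx q (e ▸ hq)]; simp) fun hn => by
        have : Z = ⊥ := (eq_bot_iff_forall Z).2 fun c hc => h0 c hc fun g =>
          mul_inv_eq_iff_eq_mul.1 (mul_inv_eq_one.1 (hn g c hc))
        rw [this, card_bot] at h16; omega
    rw [← relIndex_bot_left, hπ.relIndex, card_eq] at h16
    have h6 : finrank (ZMod 2) W = 4 := Nat.pow_right_injective le_rfl h16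
    refine ⟨W, _, _, inferInstance, π, τ, hπ, hρ, ?_⟩
    rw [F4 hτ h5 h6 fun v hv => ?_, h6]
    obtain ⟨x, hx, rfl⟩ := hπ.surj v
    rw [h0 x hx fun g => ?_, hπ.one]
    have := (hπ.eq_iff hx (Normal.conj_mem inferInstance x hx g)).1 ((hv _).symm.trans (hρ g x hx))
    exact mul_inv_eq_iff_eq_mul.1 (inv_mul_eq_one.1 this).symm
  by_cases h8 : Z.relIndex ψ.ker ≤ 8
  · obtain ⟨ψ', κ, h', e, hκ, hF⟩ := std h hZ hsq hQ hnt h8
    obtain ⟨W', _, _, _, π', τ', hπ', hρ', b⟩ := free h' e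
    rw [← e] at hZ hsq hc hκ hF hQ hnt
    obtain ⟨r, hr, hr2⟩ := SQ h' hκ hF
    obtain ⟨W, _, _, _, π, τ, hπ, hρ, h5, hτ⟩ := lin h'.surj h.sr hZ hsq hQ hnt
    have b2 := Submodule.finrank_mono (R_le (τ := τ) (s := a1) (by decide))
    have b3 := rk (τ := τ) a1
    have b4 := (seven hτ h5).2
    exact cnt h' hZ hsq hc he hπ hπ' hρ hρ' hr (hr ▸ b) (.inr ⟨by rw [hr]; omega, hr2⟩)
  obtain ⟨W', _, _, _, π', τ', hπ', hρ', b⟩ := free h rfl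
  obtain ⟨W, _, _, _, π, τ, hπ, hρ, h5, hτ⟩ := lin h.surj h.sr hZ hsq hQ hnt
  have b1 := R_le (τ := τ) (s := a1) (by decide)
  have b2 := Submodule.finrank_mono b1
  have b3 := rk (τ := τ) a1
  rw [hπ.relIndex, card_eq, show 8 = 2 ^ 3 from rfl, Nat.pow_le_pow_iff_right one_lt_two] at h8
  obtain ⟨y, hy⟩ := h.surj a1
  by_cases b4 : 3 ≤ finrank (ZMod 2) (K τ a1)
  · exact cnt h hZ hsq hc he hπ hπ' hρ hρ' hy (hy ▸ b) (.inl (hy ▸ b4))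
  have c1 : y ^ 2 ∈ ψ.ker := by rw [MonoidHom.mem_ker, map_pow, hy]; decide
  obtain ⟨v, hv⟩ := (Submodule.eq_of_le_of_finrank_le b1 (by omega)).ge
    (mem_K.2 (by rw [← hy, hρ y _ c1]; congr 1; group) : π (y ^ 2) ∈ K τ a1)
  obtain ⟨x, hx, rfl⟩ := hπ.surj v
  have c2 := Normal.conj_mem inferInstance x hx y
  have c3 : ψ (x * y) = a1 := by rw [map_mul, show ψ x = 1 from hx, one_mul, hy]
  refine cnt h hZ hsq hc he hπ hπ' hρ hρ' c3 (c3 ▸ b) (.inr ⟨by rw [c3]; omega, ?_⟩)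
  rw [show (x * y) ^ 2 = x * (y * x * y⁻¹) * y ^ 2 by simp [sq, mul_assoc], ← hπ.zero _ (mul_mem (mul_mem hx c2) c1),
    hπ.mul _ (mul_mem hx c2) _ c1, hπ.mul _ hx _ c2, ← hρ y x hx, ← hv, LinearMap.sub_apply, hy,
    ZModModule.sub_eq_add, add_comm (π x)]
  exact ZModModule.add_self _

end

end CA.H5Sr
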