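import Cfsg.Agent.Lib.Loc.H5Sr6

/-! Linear lemmas for 2-constrained groups involving `GL₃(2)`. -/

set_option autoImplicit false
set_option linter.unusedSectionVars false

namespace CA.H5Sr
open Subgroup Cfsg CA.HigLin CA.H7SR Module Matrix

universe u

theorem tv1 : ∀ x y z : V3, z ≠ 0 → z ≠ x → z ≠ y → z ≠ x + y → ∃ v φ : V3,
    φ ⬝ᵥ v = 0 ∧ φ ⬝ᵥ x = 0 ∧ φ ⬝ᵥ y = 0 ∧ φ ⬝ᵥ z = 1 ∧ v ≠ 0 := by decide +kernel

theorem tv2 : ∀ v φ : V3, φ ⬝ᵥ v = 0 → (1 + vecMulVec v φ) * (1 + vecMulVec v φ) = 1 ∧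
    ∀ w, (1 + vecMulVec v φ) *ᵥ w = w + (φ ⬝ᵥ w) • v := by decide +kernel

theorem orb : ∀ v w : V3, v ≠ 0 → w ≠ 0 → ∃ i : Fin 7, (s7 ^ i.1).1 *ᵥ v = w := by decide +kernel

section
variable {W : Type*} [AddCommGroup W] [Module (ZMod 2) W] [Finite W] {τ : L →* Module.End (ZMod 2) W}

theorem oddKR {g : L} {m : ℕ} (h : g ^ (2 * m + 1) = 1) (v : W) : ∃ k ∈ K τ g, ∃ u ∈ R τ g, k + u = v := by
  refine Submodule.mem_sup.1 ((Submodule.eq_top_of_disjoint _ _ (by have := rk (τ := τ) g; omega)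
    (Submodule.disjoint_def.2 ?_)).ge Submodule.mem_top)
  rintro _ hk ⟨w, rfl⟩
  have : ∀ n : ℕ, τ (g ^ n) w = w + n • (τ g - 1) w := fun n => by
    induction n with
    | zero => simp
    | succ n ih => rw [pow_succ', mm, ih, map_add, map_nsmul, mem_K.1 hk, succ_nsmul, LinearMap.sub_apply]; simp; abel
  have e := this (2 * m + 1)
  rwa [h, map_one, add_nsmul, mul_nsmul, two_nsmul, ZModModule.add_self, nsmul_zero, zero_add, one_nsmul,
    Module.End.one_apply, left_eq_add] at e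

theorem le1 {U : Submodule (ZMod 2) W} (h : finrank (ZMod 2) U ≤ 1) {a b : W} (ha : a ∈ U) (hb : b ∈ U) (h1 : a ≠ 0) :
    b = 0 ∨ b = a := by
  by_contra! e
  have := two ha hb h1 e.1 e.2.symm
  omega

set_option synthInstance.maxSize 4000 in
theorem linB {κ : W →+ V3} (hs : Function.Surjective κ) {ζ : W} (hk : ∀ u, κ u = 0 ↔ u = 0 ∨ u = ζ)
    (hκ : ∀ g u, κ (τ g u) = g.1 *ᵥ κ u) (hζ : ∀ g, τ g ζ = ζ) {η μ ζ' : W} (h0 : ζ' = 0 ∨ ζ' = ζ) (h1 : τ a1 η = η)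
    (h2 : τ a2 η = τ a1 μ + η + μ + ζ') (h3 : τ a1 (τ T η) = μ + τ a2 μ + τ T η + ζ') : ζ' = 0 := by
  have b0 : ∀ u v : W, u + v = 0 → u = v := fun u v e => by rw [← ZModModule.neg_eq_self v]; exact eq_neg_of_add_eq_zero_left e
  have b1 : ∀ u, κ u = 0 ∨ κ u = e0 → τ T u = u := fun u hu => by
    rcases (hk (τ T u + u)).1 (by rw [map_add, hκ]; revert hu; generalize κ u = v; revert v; decide) with e | e
    · exact b0 _ _ e
    have e1 : τ T u = u + ζ := by rw [← e, add_comm (τ T u), ← add_assoc, ZModModule.add_self, zero_add]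
    have e2 : τ T (τ T (τ T u)) = u := by rw [← mm, ← mm, show T * T * T = 1 by decide, map_one]; rfl
    rwa [e1, map_add, e1, hζ, add_assoc, ZModModule.add_self, add_zero] at e2
  have b2 : ∀ u, κ u = 0 ∨ κ u = e0 → τ a1 u = u := fun u hu => by
    obtain ⟨h, hh⟩ := hs ![0, 0, 1]
    have e1 : τ a1 (τ a1 h + h) = τ a1 h + h := by
      rw [map_add, ← mm, show a1 * a1 = 1 by decide, map_one, add_comm]; rfl
    rcases hu with hu | hu
    · rcases (hk u).1 hu with rfl | rfl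
      exacts [map_zero _, hζ _]
    · rcases (hk (u + (τ a1 h + h))).1 (by rw [map_add, map_add, hκ, hh, hu]; decide) with e | e
      · rw [b0 _ _ e, e1]
      · rw [eq_sub_of_add_eq e, map_sub, e1, hζ]
  have b3 : ∀ u, κ u = 0 ∨ κ u = e0 → τ a2 u = u := fun u hu => by
    conv_lhs => rw [← b1 u hu, ← mm, show a2 * T = T * a1 by decide, mm, b2 u hu, b1 u hu]
  have c1 := congrArg κ h1
  have c2 := congrArg κ h2
  have c3 := congrArg κ h3
  simp only [map_add, hκ, (hk ζ').2 h0, add_zero] at c1 c2 c3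
  rcases (by decide +kernel : ∀ y w : V3, a1.1 *ᵥ y = y → a2.1 *ᵥ y = a1.1 *ᵥ w + y + w →
    a1.1 *ᵥ (T.1 *ᵥ y) = w + a2.1 *ᵥ w + T.1 *ᵥ y → ((y = 0 ∨ y = e0) ∧ (w = 0 ∨ w = e0)) ∨
      ((w + y + T.1 *ᵥ y = 0 ∨ w + y + T.1 *ᵥ y = e0) ∧ (a1.1 *ᵥ (T.1 *ᵥ y) + T.1 *ᵥ y = e0) ∧
      (T.1 *ᵥ (T.1 *ᵥ y) + y + T.1 *ᵥ y = 0 ∨ T.1 *ᵥ (T.1 *ᵥ y) + y + T.1 *ᵥ y = e0))) _ _ c1 c2 c3 with ⟨d1, d2⟩ | ⟨d1, d2, d3⟩
  · rw [b3 _ d1, b2 _ d2, add_right_comm μ, ZModModule.add_self, zero_add] at h2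
    exact left_eq_add.1 h2
  have e1 := b2 (μ + η + τ T η) (by simpa only [map_add, hκ] using d1)
  have e2 := b1 (τ a1 (τ T η) + τ T η) (.inr (by simpa only [map_add, hκ] using d2))
  have e3 := b3 (τ T (τ T η) + η + τ T η) (by simpa only [map_add, hκ] using d3)
  have e4 : ∀ v, τ a2 (τ T v) = τ T (τ a1 v) := fun v => by rw [← mm, show a2 * T = T * a1 by decide, mm]
  simp only [map_add, e4, h1] at e1 e2 e3
  linear_combination (norm := abel1) e3 - e2 - e1 - h2 + ZModModule.add_self (τ T (τ T η)) -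
    ZModModule.add_self (τ T η) - ZModModule.add_self μ

set_option maxHeartbeats 400000 in
theorem fibA (hτ : Function.Injective τ) (h4 : finrank (ZMod 2) W ≤ 4) {q : W → V3} {B : W →+ W →+ V3}
    (h1 : ∀ u v, q (u + v) = q u + q v - B u v) (h2 : ∀ u, B u u = 0) (h3 : ∀ g u, q (τ g u) = g.1 *ᵥ q u)
    (h5 : ∀ g u v, B (τ g u) (τ g v) = g.1 *ᵥ B u v) (h6 : ∃ u ∈ R τ s7, q u ≠ 0)
    (h7 : ∀ k, q k = 0 → (∀ v, B k v = 0) → k = 0) :
    (∀ g, ∀ u ∈ R τ s7, τ g u ∈ R τ s7) ∧ (∀ u ∈ R τ s7, ∀ v ∈ R τ s7, B u v = 0) ∧ (∀ u ∈ R τ s7, q u = 0 → u = 0) ∧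
      (∀ w, ∃ u ∈ R τ s7, q u = w) ∧ (∀ k ∉ R τ s7, ∀ u ∈ R τ s7, B k u = q u) ∧
      ∀ k ∉ R τ s7, ∀ l ∉ R τ s7, k + l ∈ R τ s7 := by
  have b0 : q 0 = 0 := by simpa using h1 0 0
  have b1 := seven hτ h4
  have b2 : finrank (ZMod 2) (K τ s7) ≤ 1 := by have := rk (τ := τ) s7; omega
  have b3 : ∀ k ∈ K τ s7, q k = 0 := fun k hk => (by decide : ∀ v : V3, v = s7.1 *ᵥ v → v = 0) _ (by
    rw [← h3, mem_K.1 hk])
  have b4 : ∀ n : ℕ, ∀ u ∈ R τ s7, τ (s7 ^ n) u ∈ R τ s7 := by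
    rintro n _ ⟨v, rfl⟩
    exact ⟨τ (s7 ^ n) v, by simp only [LinearMap.sub_apply, map_sub, Module.End.one_apply, ← mm, pow_mul_comm']⟩
  have b5 : ∀ n : ℕ, ∀ k ∈ K τ s7, τ (s7 ^ n) k = k := fun n k hk => by
    induction n with
    | zero => simp
    | succ n ih => rw [pow_succ, mm, mem_K.1 hk, ih]
  have b6 : ∀ k ∈ K τ s7, ∀ u ∈ R τ s7, q (k + u) ≠ 0 → Function.Bijective fun v : R τ s7 => q (k + v) := fun k hk u hu e =>
    Function.Surjective.bijective_of_nat_card_le (fun w => by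
      by_cases hw : w = 0
      · exact ⟨0, by simpa [hw] using b3 k hk⟩
      obtain ⟨i, hi⟩ := orb _ w e hw
      exact ⟨⟨_, b4 i u hu⟩, by rw [← hi, ← h3, map_add, b5 _ k hk]⟩) (by rw [card_eq, b1.1]; simp)
  obtain ⟨u0, hu0, e0'⟩ := h6
  have b7 := b6 0 (zero_mem _) u0 hu0 (by rwa [zero_add])
  simp only [zero_add] at b7
  have b8 : ∀ u ∈ R τ s7, ∀ v ∈ R τ s7, q u = q v → u = v := fun u hu v hv e =>
    congrArg Subtype.val (@b7.1 ⟨u, hu⟩ ⟨v, hv⟩ e)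
  have b9 : ∀ u ∈ R τ s7, q u = 0 → u = 0 := fun u hu e => b8 u hu 0 (zero_mem _) (e.trans b0.symm)
  have c0 : ∀ g v, τ g v = 0 → v = 0 := fun g v e => by
    have := congrArg (τ g⁻¹) e
    rwa [← mm, inv_mul_cancel, map_one, map_zero] at this
  have c1 : ∀ v ∉ R τ s7, q v = 0 := fun v hv => by_contra fun e => by
    obtain ⟨k, hk, u, hu, rfl⟩ := oddKR (τ := τ) (m := 3) s7_pow v
    have d1 : k ≠ 0 := by rintro rfl; exact hv (by rwa [zero_add])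
    have d2 : ∀ v, q v = 0 → v = 0 ∨ v = k := fun v e' => by
      obtain ⟨l, hl, w, hw, rfl⟩ := oddKR (τ := τ) (m := 3) s7_pow v
      rcases le1 b2 hk hl d1 with rfl | rfl
      · exact .inl (b9 _ (by rwa [zero_add]) e')
      · rw [show w = 0 from congrArg Subtype.val (@(b6 l hk u hu e).1 ⟨w, hw⟩ 0 (by simpa [b3 l hk] using e')), add_zero]
        exact .inr rfl
    have d3 : ∀ g, τ g k = k := fun g => (d2 _ (by rw [h3, b3 k hk, mulVec_zero])).resolve_left fun e => d1 (c0 g k e)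
    refine d1 (h7 k (b3 k hk) fun v => by_contra fun e' => ?_)
    obtain ⟨i, hi⟩ := orb _ e0 e' (by decide)
    obtain ⟨x, hx, _, ⟨y, rfl⟩, d4⟩ := oddKR (τ := τ) (g := T) (m := 1) (by decide) (τ (s7 ^ i.1) v)
    have d5 : ∀ g v, B k (τ g v) = g.1 *ᵥ B k v := fun g v => by rw [← h5, d3]
    have d6 := congrArg (B k) d4
    have d7 := d5 T x
    have d8 := h3 T x
    rw [mem_K.1 hx] at d7 d8
    rw [d5, hi, map_add, LinearMap.sub_apply, map_sub, d5, Module.End.one_apply] at d6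
    have d9 := h1 k x
    rw [b3 k hk] at d9
    have f1 : B k x ≠ 0 ∧ (q x = 0 ∨ q (k + x) = 0) := by
      rw [d9]; revert d6 d7 d8; generalize B k x = a, B k y = b, q x = c; revert a b c; decide +kernel
    refine f1.1 ?_
    rcases f1.2 with f | f <;> rcases d2 _ f with f | f
    · rw [f, map_zero]
    · rw [f, h2]
    · rw [eq_neg_of_add_eq_zero_right f, map_neg, h2, neg_zero]
    · rw [add_eq_left.1 f, map_zero]
  have c2 : ∀ g, ∀ u ∈ R τ s7, τ g u ∈ R τ s7 := fun g u hu => by_contra fun e => e (by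
    have := h3 g⁻¹ (τ g u)
    rw [c1 _ e, mulVec_zero, ← mm, inv_mul_cancel, map_one] at this
    rw [b9 u hu this, map_zero]; exact zero_mem _)
  refine ⟨c2, fun u hu v hv => ?_, b9, fun w => ?_, fun k hk u hu => ?_, fun k hk l hl => ?_⟩
  · suffices q (u + v) = q u + q v by rwa [h1, sub_eq_self] at this
    have d0 := add_mem hu hv
    by_contra e
    obtain ⟨a, φ, d1, d2, d3, d4, d5⟩ := tv1 (q u) (q v) (q (u + v)) (fun e' => e (by
      rw [e', eq_neg_of_add_eq_zero_left (b9 _ d0 e'), ZModModule.neg_eq_self, ZModModule.add_self]))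
      (fun e' => e (by rw [add_eq_left.1 (b8 _ d0 _ hu e'), b0, add_zero, add_zero]))
      (fun e' => e (by rw [add_eq_right.1 (b8 _ d0 _ hv e'), b0, zero_add, zero_add])) e
    obtain ⟨d6, d7⟩ := tv2 a φ d1
    let g : L := ⟨_, _, d6, d6⟩
    have f1 := b8 _ (c2 g u hu) _ hu (by rw [h3, d7, d2, zero_smul, add_zero])
    have f2 := b8 _ (c2 g v hv) _ hv (by rw [h3, d7, d3, zero_smul, add_zero])
    have f3 := h3 g (u + v)
    rw [map_add, f1, f2, d7, d4, one_smul] at f3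
    exact d5 (left_eq_add.1 f3)
  · obtain ⟨u, hu⟩ := b7.2 w
    exact ⟨u, u.2, hu⟩
  · have := h1 k u
    rw [c1 k hk, c1 _ (fun e => hk ((add_mem_cancel_right hu).1 e)), zero_add] at this
    exact (sub_eq_zero.1 this.symm).symm
  · obtain ⟨k, hk', u, hu, rfl⟩ := oddKR (τ := τ) (m := 3) s7_pow k
    obtain ⟨l, hl', v, hv, rfl⟩ := oddKR (τ := τ) (m := 3) s7_pow l
    rcases le1 b2 hk' hl' (by rintro rfl; exact hk (by rwa [zero_add])) with rfl | rfl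
    · exact (hl (by rwa [zero_add])).elim
    · rw [add_add_add_comm, ZModModule.add_self, zero_add]; exact add_mem hu hv

end

theorem lm_eq (f : V4 →+ V4) (v : V4) : f v = lm (f (1,0,0)) (f (0,1,0)) (f (0,0,1)) v := by
  conv_lhs => rw [show v = lm (1,0,0) (0,1,0) (0,0,1) v by simp [lm]]
  simp only [lm, map_add, ZMod.map_smul]

theorem card_pre {Y W : Type*} [Group Y] [AddCommGroup W] {A : Subgroup Y} {π : Y → W} (h : Add A ⊥ π)
    (U : AddSubgroup W) : Nat.card (h.pre U) = Nat.card U :=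
  Nat.card_congr (Equiv.ofBijective (fun x => ⟨π x, x.2.2⟩) ⟨fun x y e => Subtype.ext (inv_mul_eq_one.1
    ((h.eq_iff x.2.1 y.2.1).1 (congrArg Subtype.val e))), fun u => by
      obtain ⟨x, hx, e⟩ := h.surj u
      exact ⟨⟨x, hx, e ▸ u.2⟩, Subtype.ext e⟩⟩)

theorem coord4 {Y : Type u} [Group Y] [Finite Y] {A Z : Subgroup Y} (hZ : Z ≤ A) (hc : ∀ x ∈ A, ∀ y ∈ A, x * y = y * x)
    {π : Y → V3} (hπ : Add Z ⊥ π) (hsq : ∀ x ∈ A, x ^ 2 ∈ Z) (hκ : Add A Z fun x => π (x ^ 2)) {x y z : Y} (hx : x ∈ A)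
    (hy : y ∈ A) (hz : z ∈ A) (h1 : π (x ^ 2) = ![1,0,0]) (h2 : π (y ^ 2) = ![0,1,0]) (h3 : π (z ^ 2) = ![0,0,1]) :
    ∃ ι : Y → V4, Add A ⊥ ι ∧ ι x = (1,0,0) ∧ ι y = (0,1,0) ∧ ι z = (0,0,1) := by
  obtain ⟨W, _, ι, hι⟩ := exists_add (bot_le : ⊥ ≤ A) fun x hx y hy => by rw [hc x hx y hy]; simp
  obtain ⟨κ, hk⟩ := hι.lift (fun x => π (x ^ 2)) hκ.mul fun x _ hx => by rw [mem_bot.1 hx]; exact hκ.one
  have b1 : ∀ u, u + u = 0 ↔ κ u = 0 := fun u => by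
    obtain ⟨x, hx, rfl⟩ := hι.surj u
    rw [hk x hx, ← hι.mul x hx x hx, ← sq, hι.zero _ (pow_mem hx 2), hπ.zero _ (hsq x hx)]
  obtain ⟨_⟩ : Nonempty (Module (ZMod 4) W) := ⟨AddCommGroup.zmodModule fun w => by
    rw [show 4 = 2 + 2 from rfl, add_nsmul, b1, two_nsmul, map_add, ZModModule.add_self]⟩
  let e : V4 →+ W := AddMonoidHom.mk' (fun v => v.1 • ι x + v.2.1 • ι y + v.2.2 • ι z) fun a b => by
    simp only [Prod.fst_add, Prod.snd_add, add_smul]; abel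
  have b2 : ∀ v : V4, κ (e v) = 0 → v + v = 0 := fun v hv => by
    have : ∀ (c : ZMod 4) (w : W), c • w = c.val • w := fun c w => by
      rw [← Nat.cast_smul_eq_nsmul (ZMod 4), ZMod.natCast_zmod_val]
    simp only [e, AddMonoidHom.mk'_apply, this, map_add, map_nsmul, hk x hx, hk y hy, hk z hz, h1, h2, h3] at hv
    revert v; decide +kernel
  have := hι.finite
  have b3 : Function.Bijective e := Function.Injective.bijective_of_nat_card_le
    ((injective_iff_map_eq_zero e).2 fun v hv => by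
      obtain ⟨u, rfl⟩ := (by decide +kernel : ∀ v : V4, v + v = 0 → ∃ u, u + u = v) v (b2 v (by rw [hv, map_zero]))
      exact b2 u ((b1 _).1 (by rw [← map_add, hv]))) (by
      rw [← hι.relIndex, relIndex_bot_left, hκ.card hZ, ← relIndex_bot_left, hπ.relIndex]; simp)
  refine ⟨_, hι.comp (AddEquiv.ofBijective e b3).symm, ?_, ?_, ?_⟩ <;>
    exact (AddEquiv.symm_apply_eq _).2 (by simp [e])

end CA.H5Sr
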