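import Cfsg.Agent.Lib.Loc.H5Sr7

/-! 2-constrained groups of sectional 2-rank at most four involving `GL₃(2)`: the excluded configurations. -/

set_option autoImplicit false
set_option linter.unusedSectionVars false

namespace CA.H5Sr
open Subgroup Cfsg CA.HigLin CA.H7SR Module Matrix

universe u

variable {Y : Type u} [Group Y] [Finite Y] {ψ : Y →* L}

/-- the line -/
def UP : AddSubgroup V4 where
  carrier := {v | inP v}
  zero_mem' := .inl rfl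
  add_mem' := by simp only [Set.mem_ofPred_eq]; decide +kernel
  neg_mem' := by simp only [Set.mem_ofPred_eq]; decide +kernel

/-- elements with double in the line -/
def UQ : AddSubgroup V4 where
  carrier := {v | inP (v + v)}
  zero_mem' := .inl rfl
  add_mem' := by simp only [Set.mem_ofPred_eq]; decide +kernel
  neg_mem' := by simp only [Set.mem_ofPred_eq]; decide +kernel

theorem LL (h : Hyp ψ) {A Z : Subgroup Y} [hA : A.Normal] [hZn : Z.Normal] (hZ : Z ≤ A) (hAQ : A ≤ ψ.ker)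
    (hc : ∀ x ∈ A, ∀ y ∈ A, x * y = y * x) {π : Y → V3} (hπ : Add Z ⊥ π)
    (hF : ∀ g, ∀ x ∈ Z, (ψ g).1 *ᵥ π x = π (g * x * g⁻¹)) (hsq : ∀ x ∈ ψ.ker, x ^ 2 ∈ Z)
    (hκ : Add A Z fun x => π (x ^ 2)) (hi : ∀ k ∈ ψ.ker, k ∉ A → ∀ x ∈ A, k * x * k⁻¹ = x⁻¹)
    (h2 : ∀ k ∈ ψ.ker, k ∉ A → ∀ l ∈ ψ.ker, l ∉ A → k * l ∈ A) : False := by
  have hN : ψ.ker.Normal := inferInstance
  have hG : ∀ g, ∀ x ∈ A, π ((g * x * g⁻¹) ^ 2) = (ψ g).1 *ᵥ π (x ^ 2) := fun g x hx => by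
    rw [conj_pow, hF g _ (hsq x (hAQ hx))]
  obtain ⟨t, ht, ht3⟩ : ∃ t, ψ t = T ∧ t * t * t ∈ A := by
    obtain ⟨t, ht⟩ := h.surj T
    have : t ^ 3 ∈ ψ.ker := by rw [MonoidHom.mem_ker, map_pow, ht]; decide
    exact ⟨t ^ 4, by rw [map_pow, ht]; decide, by
      simpa only [← pow_mul, ← pow_add] using hZ (hsq _ (pow_mem this 2))⟩
  obtain ⟨x', hx', e1⟩ := hκ.surj ![0,1,0]
  obtain ⟨r, hr, hx⟩ : ∃ r, ψ r = a1 ∧ r * (t * r * t⁻¹) * (t * (t * r * t⁻¹) * t⁻¹)⁻¹ ∈ A := by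
    obtain ⟨r, hr⟩ := h.surj a1
    have b1 := xker hr ht
    by_contra! e
    have b2 := e r hr
    generalize hk : r * (t * r * t⁻¹) * (t * (t * r * t⁻¹) * t⁻¹)⁻¹ = k at b1 b2
    have b3 : ∀ g, g * k * g⁻¹ ∉ A := fun g e => b2 (by simpa [mul_assoc] using hA.conj_mem _ e g⁻¹)
    refine e (k * r) (by rw [map_mul, show ψ k = 1 from b1, one_mul, hr]) ?_
    have := mul_mem (h2 k b1 b2 _ (hN.conj_mem k b1 (r * t)) (b3 _)) (h2 k b1 b2 _ (inv_mem (hN.conj_mem k b1 (t * t)))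
      fun e => b3 _ (inv_mem_iff.1 e))
    convert this using 1
    nth_rw 6 [← hk]
    group
  have hr2 : r ^ 2 ∈ A := by_contra fun e => by
    have b1 := hi _ (by rw [MonoidHom.mem_ker, map_pow, hr]; decide) e x' hx'
    have b2 := hA.conj_mem x' hx' r
    have b3 : x'⁻¹ * (r * x' * r⁻¹) ∈ Z := (hκ.eq_iff hx' b2).1 (by rw [hG r x' hx', e1, hr]; decide)
    have b4 := hZn.conj_mem _ b3 r
    have b5 : x' ^ 2 * (x'⁻¹ * (r * x' * r⁻¹)) * (r * (x'⁻¹ * (r * x' * r⁻¹)) * r⁻¹) = 1 := by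
      calc _ = x' * (r ^ 2 * x' * (r ^ 2)⁻¹) := by simp only [sq]; group
        _ = 1 := by rw [b1, mul_inv_cancel]
    have b6 := hπ.one
    rw [← b5, hπ.mul _ (mul_mem (hsq _ (hAQ hx')) b3) _ b4, hπ.mul _ (hsq _ (hAQ hx')) _ b3, ← hF r _ b3, e1, hr] at b6
    revert b6; generalize π _ = v; revert v; decide
  have c0 := hA.conj_mem x' hx' t
  have c0' := hA.conj_mem _ c0 t
  have c1 := mul_mem c0 (inv_mem c0')
  have c2 := hA.conj_mem _ c1 t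
  have c3 := hA.conj_mem _ c2 r
  have d1 : π ((t * x' * t⁻¹ * (t * (t * x' * t⁻¹) * t⁻¹)⁻¹) ^ 2) = ![0,1,0] :=
    (hκ.mul _ c0 _ (inv_mem c0')).trans (by rw [hκ.inv c0', hG _ _ c0, hG _ _ hx', e1, ht]; decide)
  generalize hy : t * x' * t⁻¹ * (t * (t * x' * t⁻¹) * t⁻¹)⁻¹ = y at c1 c2 c3 d1
  have d2 : π ((t * y * t⁻¹) ^ 2) = ![0,0,1] := by rw [hG _ _ c1, d1, ht]; decide
  have d3 : π ((r * (t * y * t⁻¹) * r⁻¹ * (t * y * t⁻¹)⁻¹) ^ 2) = ![1,0,0] :=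
    (hκ.mul _ c3 _ (inv_mem c2)).trans (by rw [hκ.inv c2, hG _ _ c2, d2, hr]; decide)
  obtain ⟨ι, hι, i0, i1, i2⟩ := coord4 hZ hc hπ (fun x hx => hsq x (hAQ hx)) hκ (mul_mem c3 (inv_mem c2)) c1 c2 d3 d1 d2
  obtain ⟨ρ, hρ⟩ := act hι
  have m : ∀ a b v, ρ (a * b) v = ρ a (ρ b v) := fun a b v => by rw [map_mul]; rfl
  have tr : ∀ a ∈ A, ∀ v, ρ a v = v := fun a ha v => by
    obtain ⟨x, hx, rfl⟩ := hι.surj v
    rw [hρ a x hx, hι.conj ha hx]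
  have db : ∀ x ∈ A, ∀ z ∈ A, π (x ^ 2) = π (z ^ 2) → ι x + ι x = ι z + ι z := fun x hx z hz e => by
    rw [← hι.mul x hx x hx, ← hι.mul z hz z hz, ← sq, ← sq,
      inv_mul_eq_one.1 ((hπ.eq_iff (hsq x (hAQ hx)) (hsq z (hAQ hz))).1 e)]
  have f0 : ∀ v, ρ r (ρ r v) = v := fun v => by rw [← m, ← sq, tr _ hr2]
  have t3 : ∀ v, ρ t (ρ t (ρ t v)) = v := fun v => by rw [← m, ← m, tr _ ht3]
  have ti : ∀ v, ρ t⁻¹ v = ρ t (ρ t v) := fun v => by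
    conv_lhs => rw [← t3 v, ← m, inv_mul_cancel, tr _ (one_mem _)]
  have f2 : ρ r (0,0,1) = (1,0,1) := by
    rw [hι.mul _ c3 _ (inv_mem c2), hι.inv c2, ← hρ r _ c2, i2] at i0
    exact (eq_sub_of_add_eq i0).trans (by decide)
  have f1 : ρ r (1,0,0) = (3,0,0) := by
    have := f0 (0,0,1)
    rw [f2, show ((1,0,1) : V4) = (1,0,0) + (0,0,1) from rfl, map_add, f2] at this
    exact (eq_sub_of_add_eq this).trans (by decide)
  have t1 : ρ t (0,1,0) = (0,0,1) := by rw [← i1, hρ t y c1, i2]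
  have t2 : ρ t (0,0,1) = (0,3,3) := by
    have e : ι y = ρ t (ι x') - ρ t (ρ t (ι x')) := by
      rw [← hy, hι.mul _ c0 _ (inv_mem c0'), hι.inv c0', hρ t _ hx', hρ t _ c0, sub_eq_add_neg]
    have e' : ι y + ρ t (ι y) + ρ t (ρ t (ι y)) = 0 := by simp only [e, map_sub, t3]; abel
    rw [i1, t1] at e'
    exact (eq_neg_of_add_eq_zero_right e').trans (by decide)
  have hf : ∀ v, ρ r v = ff (ρ r (0,1,0)) v := fun v => (lm_eq (ρ r) v).trans (congrArg₂ (fun a b => lm a _ b v) f1 f2)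
  have hT : ∀ v, ρ t v = tt (ρ t (1,0,0)) v := fun v => (lm_eq (ρ t) v).trans (congrArg₂ (fun a b => lm _ a b v) t1 t2)
  have h3 : ∀ v, ρ (t * (t * r * t⁻¹) * t⁻¹) v = ρ r (ρ (t * r * t⁻¹) v) := fun v => by
    rw [← m r, ← inv_mul_cancel_right (r * (t * r * t⁻¹)) (t * (t * r * t⁻¹) * t⁻¹), m _ (t * _ * t⁻¹), tr _ hx]
  obtain ⟨⟨E, hE, g1⟩, g2⟩ := LL1 (ρ r (0,1,0)) (by
      rw [← i1, hρ r y c1, db _ (hA.conj_mem y c1 r) y c1 (by rw [hG _ _ c1, d1, hr]; decide), i1]; decide)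
    (ρ t (1,0,0)) (by
      rw [← i0, hρ t _ (mul_mem c3 (inv_mem c2)), db _ (hA.conj_mem _ (mul_mem c3 (inv_mem c2)) t) _
        (mul_mem c3 (inv_mem c2)) (by rw [hG _ _ (mul_mem c3 (inv_mem c2)), d3, ht]; decide), i0]; decide)
    (by rw [← hf, f0]) (by rw [← hT, ← hT, t3]) fun v _ => by
      have := h3 (ρ t v)
      simp only [m, ti, t3] at this
      simp only [← hf, ← hT, this]
  rw [g1] at hf
  rw [g2] at hT
  obtain ⟨k1, k2, k3⟩ := LL2 E hE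
  have hg : ∀ v, ρ (t * r * t⁻¹) v = gg E v := fun v => by rw [m, m, ti, ← k1, ← hT, ← hT, ← hf, ← hT]
  obtain ⟨l1, w, l2, l3, l4⟩ := rels hι (F := fun g v => ρ g v) hρ hr2 hx (inv_mul_cancel_right _ _).symm
  simp only [h3, hg, hf, hT] at l1 l2 l3 l4
  obtain ⟨u, -, v, -, n1, n2, n3⟩ := k3 _ l1 w l2 l3 _ l4
  obtain ⟨u, hu, rfl⟩ := hι.surj u
  obtain ⟨v, hv, rfl⟩ := hι.surj v
  have sq' : ∀ x ∈ A, ∀ s, s ^ 2 ∈ A → inP (ι x + ρ s (ι x) + ι (s ^ 2)) → (x * s) ^ 2 ∈ hι.pre UP := fun x hx s hs e => by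
    have := hA.conj_mem x hx s
    rw [show (x * s) ^ 2 = x * (s * x * s⁻¹) * s ^ 2 by simp [sq, mul_assoc]]
    exact ⟨mul_mem (mul_mem hx this) hs, by rwa [hι.mul _ (mul_mem hx this) _ hs, hι.mul _ hx _ this, ← hρ s x hx]⟩
  have le : hι.pre UP ≤ hι.pre UQ := fun x hx => ⟨hx.1, (by decide +kernel : ∀ v, inP v → inP (v + v)) _ hx.2⟩
  have o1 := hA.conj_mem _ hr2 t
  have o2 := hA.conj_mem v hv r
  refine sec (ψ := ψ) h.sr le (fun x hx => hAQ hx.1) ?_ (r := u * r) (s := v * (t * r * t⁻¹))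
    (by rw [map_mul, show ψ u = 1 from hAQ hu, one_mul, hr])
    (by simp only [map_mul, map_inv, show ψ v = 1 from hAQ hv, hr, ht]; decide) (sq' u hu r hr2 (by rwa [hf]))
    (sq' v hv _ (by rwa [conj_pow]) (by rwa [conj_pow, hg, ← hρ t _ hr2, hT])) ?_
    (fun x hx => ⟨pow_mem hx.1 2, by rw [sq, hι.mul x hx.1 x hx.1]; exact hx.2⟩) fun x hx => ?_
  · have := relIndex_mul_relIndex ⊥ _ _ bot_le le
    rw [relIndex_bot_left, relIndex_bot_left, card_pre, card_pre, show Nat.card UP = 2 from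
      (Nat.card_eq_fintype_card (α := {v // inP v})).trans (by decide +kernel), show Nat.card UQ = 16 from
      (Nat.card_eq_fintype_card (α := {v // inP (v + v)})).trans (by decide +kernel)] at this
    omega
  · rw [show u * r * (v * (t * r * t⁻¹)) = u * (r * v * r⁻¹) * (r * (t * r * t⁻¹) * (t * (t * r * t⁻¹) * t⁻¹)⁻¹) *
      (t * (t * r * t⁻¹) * t⁻¹) by group]
    refine sq' _ (mul_mem (mul_mem hu o2) hx) _ (by rw [conj_pow, conj_pow]; exact hA.conj_mem _ o1 t) ?_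
    rwa [conj_pow, conj_pow, ← hρ t _ o1, ← hρ t _ hr2, hι.mul _ (mul_mem hu o2) _ hx, hι.mul _ hu _ o2, ← hρ r v hv,
      h3, hg, hf, hf, hT, hT]
  · have cm : ∀ s, inP (ρ s (ι x) - ι x) → s * x * s⁻¹ * x⁻¹ ∈ hι.pre UP := fun s e =>
      ⟨mul_mem (hA.conj_mem x hx.1 s) (inv_mem hx.1), by
        rwa [hι.mul _ (hA.conj_mem x hx.1 s) _ (inv_mem hx.1), hι.inv hx.1, ← hρ s x hx.1, ← sub_eq_add_neg]⟩
    exact ⟨cm _ (by rw [m, tr _ hu, hf]; exact (k2 _ hx.2).1), cm _ (by rw [m, tr _ hv, hg]; exact (k2 _ hx.2).2)⟩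

end CA.H5Sr
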