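import Cfsg.Agent.Lib.Loc.H5Sr8

/-! 2-constrained groups of sectional 2-rank at most four involving `GL₃(2)`. -/

set_option autoImplicit false
set_option linter.unusedSectionVars false

namespace CA.H5Sr
open Subgroup Cfsg CA.HigLin CA.H7SR Module Matrix

universe u

section
variable {Y : Type u} [Group Y] [Finite Y] {ψ : Y →* L}

theorem Add.cm {W : Type*} [AddCommGroup W] {A B : Subgroup Y} [hA : A.Normal] {π : Y → W} (hπ : Add A B π) (g : Y) {x : Y}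
    (hx : x ∈ A) : π (g * x * g⁻¹ * x⁻¹) = π (g * x * g⁻¹) - π x := by
  rw [hπ.mul _ (hA.conj_mem x hx g) _ (inv_mem hx), hπ.inv hx, sub_eq_add_neg]

theorem big (h : Hyp ψ) {H : Subgroup Y} (h1 : Sq ψ.ker ≤ H) (h2 : ∀ g, ∀ x ∈ ψ.ker, g * x * g⁻¹ * x⁻¹ ∈ H) :
    ∃ P, Sq ψ.ker ≤ P ∧ P ≤ H ∧ P ≤ ψ.ker ∧ (Sq ψ.ker).relIndex P = 8 ∧
      ∀ x ∈ ψ.ker, x ∉ P → ∀ y ∈ ψ.ker, y ∉ P → x⁻¹ * y ∈ P := by
  obtain ⟨W, _, _, _, π, τ, hπ, hρ, h5, hτ⟩ := h.lin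
  obtain ⟨g, hg⟩ := h.surj s7
  have b1 := seven hτ h5
  have b2 := relIndex_pre hπ (R τ s7)
  have b3 := relIndex_mul_relIndex _ _ _ (hπ.le_pre (Sq_le_self _) (R τ s7).toAddSubgroup) fun x hx => hx.1
  rw [hπ.relIndex, card_eq, b2, b1.1] at b3
  rw [b1.1] at b2
  refine ⟨_, hπ.le_pre (Sq_le_self _) (R τ s7).toAddSubgroup, ?_, fun x hx => hx.1, ?_, fun x hx hx' y hy hy' => ?_⟩
  · rintro x ⟨hx, v, hv⟩
    obtain ⟨y, hy, rfl⟩ := hπ.surj v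
    exact (mul_mem_cancel_left (inv_mem (h2 g y hy))).1 (h1 ((hπ.eq_iff (mul_mem (Normal.conj_mem inferInstance y hy g)
      (inv_mem hy)) hx).1 (by rw [Add.cm hπ g hy, ← hρ g y hy, hg]; exact hv)))
  · rcases (by omega : finrank (ZMod 2) W = 3 ∨ finrank (ZMod 2) W = 4) with e | e <;> rw [e] at b3 <;> omega
  · rcases (by omega : finrank (ZMod 2) W = 3 ∨ finrank (ZMod 2) W = 4) with e | e <;> rw [e] at b2
    · exact (hx' (relIndex_eq_one.1 b2 hx)).elim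
    · exact (mul_mem_iff_of_index_two b2 (a := ⟨x, hx⟩⁻¹) (b := ⟨y, hy⟩)).2 (iff_of_false (fun e => hx' (inv_mem_iff.1 e)) hy')

theorem nt3 (h : Hyp ψ) :
    ¬ ∀ g, ∀ x ∈ ψ.ker, g * (g * x * g⁻¹ * x⁻¹) * g⁻¹ * (g * x * g⁻¹ * x⁻¹)⁻¹ ∈ Sq ψ.ker := fun e => by
  obtain ⟨W, _, _, _, π, τ, hπ, hρ, h5, hτ⟩ := h.lin
  obtain ⟨g, hg⟩ := h.surj s7
  have b1 := seven hτ h5
  have b2 := rk (τ := τ) s7
  have b3 : R τ s7 ≤ K τ s7 := by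
    rintro _ ⟨v, rfl⟩
    obtain ⟨x, hx, rfl⟩ := hπ.surj v
    have c1 := mul_mem (Normal.conj_mem inferInstance x hx g) (inv_mem hx)
    have c2 := (hπ.zero _ (mul_mem (Normal.conj_mem inferInstance _ c1 g) (inv_mem c1))).2 (e g x hx)
    rw [Add.cm hπ g c1, ← hρ g _ c1, Add.cm hπ g hx, ← hρ g x hx, hg, sub_eq_zero] at c2
    exact mem_K.2 c2
  have := Submodule.finrank_mono b3
  omega

theorem sqc {x y : Y} (h1 : x * (x * y * x⁻¹ * y⁻¹) = x * y * x⁻¹ * y⁻¹ * x) (h2 : (x * y * x⁻¹ * y⁻¹) ^ 2 = 1) :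
    y * x ^ 2 = x ^ 2 * y := by
  calc _ = (x * y * x⁻¹ * y⁻¹) ^ 2 * y * x ^ 2 := by rw [h2, one_mul]
    _ = x * y * x⁻¹ * y⁻¹ * x * y * x := by simp only [sq]; group
    _ = _ := by rw [← h1]; simp only [sq]; group

theorem ab (h : Hyp ψ) {Z : Subgroup Y} (hZ : ∀ z ∈ Z, z ^ 2 = 1 ∧ ∀ a, a * z = z * a)
    (hc : ∀ x ∈ ψ.ker, ∀ y ∈ ψ.ker, x * y * x⁻¹ * y⁻¹ ∈ Z) : ∀ x ∈ ψ.ker, ∀ y ∈ ψ.ker, x * y = y * x := by
  have hN : ψ.ker.Normal := inferInstance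
  have hsq : ∀ x ∈ ψ.ker, x ^ 2 ∈ ψ.ker ⊓ centralizer (ψ.ker : Set Y) := fun x hx =>
    ⟨pow_mem hx 2, fun y hy => sqc ((hZ _ (hc x hx y hy)).2 x) (hZ _ (hc x hx y hy)).1⟩
  by_cases hnt : ∀ g, ∀ x ∈ ψ.ker, g * x * g⁻¹ * x⁻¹ ∈ ψ.ker ⊓ centralizer (ψ.ker : Set Y)
  · obtain ⟨P, -, h2, -, -, h3⟩ := big h (Sq_le.2 hsq) hnt
    intro x hx y hy
    by_cases e1 : x ∈ P
    · exact ((h2 e1).2 y hy).symm
    by_cases e2 : y ∈ P
    · exact (h2 e2).2 x hx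
    have := (h2 (h3 x hx e1 y hy e2)).2 x hx
    calc _ = x * (x * (x⁻¹ * y)) := by group
      _ = _ := by rw [this]; group
  obtain ⟨W, _, _, _, π, τ, hπ, hρ, h5, hτ⟩ := lin h.surj h.sr inf_le_left hsq
    (fun q hq x hx => Sq_le.2 hsq (comm_mem hq hx)) hnt
  obtain ⟨a, m, h6, h7⟩ : ∃ (a : L) (m : ℕ), a ^ (2 * m + 1) = 1 ∧ finrank (ZMod 2) (K τ a) = 1 := by
    have b1 := seven hτ h5
    have b2 := rk (τ := τ) s7
    by_cases e : finrank (ZMod 2) W = 4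
    · exact ⟨s7, 3, s7_pow, by omega⟩
    have := Fact.mk Nat.prime_three
    have b3 := modEq (τ := τ) (s := T) (p := 3) (by decide)
    have b4 := K_lt hτ (s := T) (by decide)
    refine ⟨T, 1, by decide, ?_⟩
    rw [show finrank (ZMod 2) W = 3 by omega] at b3 b4
    generalize finrank (ZMod 2) (K τ T) = k at *
    interval_cases k <;> simp_all [Nat.ModEq]
  obtain ⟨⟨k, hk⟩, hk0⟩ := finrank_pos_iff_exists_ne_zero.1 (h7 ▸ one_pos : 0 < finrank (ZMod 2) (K τ a))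
  replace hk0 : k ≠ 0 := fun e => hk0 (Subtype.ext e)
  obtain ⟨x, hx, rfl⟩ := hπ.surj k
  obtain ⟨g, rfl⟩ := h.surj a
  refine (hk0 ((hπ.zero x hx).2 ⟨hx, fun y hy => ?_⟩)).elim
  obtain ⟨l, hl, _, ⟨w, rfl⟩, e⟩ := oddKR (τ := τ) h6 (π y)
  obtain ⟨w, hw, rfl⟩ := hπ.surj w
  have c0 := hN.conj_mem w hw g
  have c1 := ((hπ.eq_iff hx (hN.conj_mem x hx g)).1 ((mem_K.1 hk).symm.trans (hρ g x hx))).2 _ c0
  have c2 : Commute x (g * w * g⁻¹ * w⁻¹) := by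
    have d := (hZ _ (hc x hx w hw)).2
    have e1 : x * (g * w * g⁻¹) * x⁻¹ = x * w * x⁻¹ * w⁻¹ * (g * w * g⁻¹) := by
      calc _ = x * (g * w * g⁻¹ * (x⁻¹ * (g * x * g⁻¹))) * (g * x * g⁻¹)⁻¹ := by group
        _ = g * (x * w * x⁻¹ * w⁻¹) * (w * g⁻¹) := by rw [c1]; group
        _ = _ := by rw [d g]; group
    calc x * _ = x * (g * w * g⁻¹) * x⁻¹ * (x * w⁻¹) := by group
      _ = g * w * g⁻¹ * (w⁻¹ * (x * w * x⁻¹ * w⁻¹)) * (w * x * w⁻¹) := by rw [e1, ← d (g * w * g⁻¹), d w⁻¹]; group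
      _ = _ := by group
  have c3 := mul_mem c0 (inv_mem hw)
  rw [LinearMap.sub_apply, hρ g w hw, Module.End.one_apply, ← Add.cm hπ g hw] at e
  rcases le1 h7.le hk hl hk0 with rfl | rfl
  · rw [← mul_inv_cancel_left (g * w * g⁻¹ * w⁻¹) y]
    exact (c2.mul_right (((hπ.eq_iff c3 hy).1 (by rwa [zero_add] at e)).2 x hx)).symm
  · rw [← mul_inv_cancel_left (x * (g * w * g⁻¹ * w⁻¹)) y]
    exact (((Commute.refl x).mul_right c2).mul_right (((hπ.eq_iff (mul_mem hx c3) hy).1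
      (by rwa [hπ.mul _ hx _ c3])).2 x hx)).symm

theorem cenPhi (h : Hyp ψ) {Z : Subgroup Y} (hZ : ∀ z ∈ Z, z ^ 2 = 1 ∧ ∀ a, a * z = z * a) {c : Y}
    (hq : ∀ q ∈ ψ.ker, q * c = c * q) (hc : ∀ a, a * c * a⁻¹ * c⁻¹ ∈ Z) : ∀ a, a * c = c * a := by
  let χ : Y →* Y := MonoidHom.mk' (fun a => a * c * a⁻¹ * c⁻¹) fun a b => by
    calc _ = a * (b * c * b⁻¹ * c⁻¹) * (c * a⁻¹ * c⁻¹) := by group
      _ = (b * c * b⁻¹ * c⁻¹) * (a * c * a⁻¹ * c⁻¹) := by rw [(hZ _ (hc b)).2 a]; group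
      _ = _ := ((hZ _ (hc b)).2 _).symm
  have e1 : ∀ a, a ^ 2 ∈ χ.ker := fun a => by rw [MonoidHom.mem_ker, map_pow]; exact (hZ _ (hc a)).1
  have e2 : ψ.ker ≤ χ.ker := fun q hq' => by simp [χ, hq q hq']
  obtain ⟨g, hg⟩ := h.surj T
  have e3 := (IsSimpleGroup.eq_bot_or_eq_top_of_normal _ (Normal.map inferInstance ψ h.surj : (χ.ker.map ψ).Normal)).resolve_left
    fun e => (by decide : T ^ 2 ≠ 1) (hg ▸ map_pow ψ g 2 ▸ e.le ⟨_, e1 g, rfl⟩)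
  intro a
  have : χ a = 1 := (comap_map_eq_self e2).le (e3.ge (mem_top (ψ a)))
  exact mul_inv_eq_iff_eq_mul.1 (mul_inv_eq_one.1 this)

/-- elements of bounded order in an abelian subgroup -/
def Om {Q : Subgroup Y} (hab : ∀ x ∈ Q, ∀ y ∈ Q, x * y = y * x) (n : ℕ) : Subgroup Y where
  carrier := {x | x ∈ Q ∧ x ^ n = 1}
  one_mem' := ⟨one_mem _, one_pow _⟩
  mul_mem' := fun {a b} ha hb => ⟨mul_mem ha.1 hb.1, by rw [Commute.mul_pow (hab a ha.1 b hb.1), ha.2, hb.2, one_mul]⟩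
  inv_mem' := fun ha => ⟨inv_mem ha.1, by rw [inv_pow, ha.2, inv_one]⟩

instance Om_normal {Q : Subgroup Y} [hQ : Q.Normal] (hab : ∀ x ∈ Q, ∀ y ∈ Q, x * y = y * x) (n : ℕ) : (Om hab n).Normal :=
  ⟨fun x hx g => ⟨hQ.conj_mem x hx.1 g, by rw [conj_pow, hx.2, mul_one, mul_inv_cancel]⟩⟩

theorem cmOm {Q : Subgroup Y} [hQ : Q.Normal] (hab : ∀ x ∈ Q, ∀ y ∈ Q, x * y = y * x)
    (hc : ∀ c ∈ Sq Q, ∀ g, g * c = c * g) (g : Y) : ∀ x ∈ Q, g * x * g⁻¹ * x⁻¹ ∈ Om hab 2 := fun x hx =>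
  ⟨mul_mem (hQ.conj_mem x hx g) (inv_mem hx), by
    rw [Commute.mul_pow (hab _ (hQ.conj_mem x hx g) _ (inv_mem hx)), conj_pow, hc _ (sq_mem x hx)]; simp⟩

theorem caseB8 {ψ₀ : Y →* L} (h₀ : Hyp ψ₀) {Q : Subgroup Y} [hQ : Q.Normal] (hk₀ : ψ₀.ker = Q)
    (hab : ∀ x ∈ Q, ∀ y ∈ Q, x * y = y * x) (hc : ∀ c ∈ Sq Q, ∀ g, g * c = c * g) (h4 : Nat.card (Sq Q) = 4) {d : Y}
    (hd : d ∈ Q) (hd4 : (d ^ 2) ^ 2 ≠ 1) : False := by
  have a0 := sq_mem d hd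
  generalize hc' : d ^ 2 = c at hd4 a0
  have a1' : ∀ u ∈ Sq Q, u ^ 4 = 1 := fun u hu => congrArg Subtype.val (h4 ▸ pow_card_eq_one' (x := (⟨u, hu⟩ : Sq Q)))
  have a2' : orderOf c = 4 := orderOf_eq_prime_pow (p := 2) (n := 1) hd4 (a1' c a0)
  have a3 : ∀ u ∈ Sq Q, u ^ 2 = 1 → u = 1 ∨ u = c ^ 2 := fun u hu e => by
    obtain ⟨n, rfl⟩ := (mem_powers_iff_mem_zpowers).2 ((eq_of_le_of_card_ge (zpowers_le.2 a0)
      (by rw [Nat.card_zpowers, a2', h4])).ge hu)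
    simp only at e ⊢
    rw [← pow_mul, ← orderOf_dvd_iff_pow_eq_one, a2'] at e
    rw [← pow_mod_orderOf, a2']
    rcases (by omega : n % 4 = 0 ∨ n % 4 = 2) with e | e <;> simp [e]
  have a4 : (c ^ 2) ^ 2 = 1 := by rw [← pow_mul]; exact a1' c a0
  have a5 : c ^ 2 ∈ center Y := mem_center_iff.2 (hc _ (pow_mem a0 2))
  have := normal_zpowers a5
  have a6 : zpowers (c ^ 2) ≤ Om hab 2 := zpowers_le.2 ⟨pow_mem (Sq_le_self _ a0) 2, a4⟩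
  have a7 : ∀ x ∈ Q, x ^ 2 ∈ Om hab 2 → ∃ b, ∃ m ∈ Om hab 2, x = b * m ∧ (∀ g, g * b = b * g) ∧ (b = 1 ∨ b = c) := fun x hx e => by
    rcases a3 _ (sq_mem x hx) e.2 with e' | e'
    · exact ⟨1, x, ⟨hx, e'⟩, by simp⟩
    · have := inv_mem (Sq_le_self _ a0)
      exact ⟨c, c⁻¹ * x, ⟨mul_mem this hx, by rw [Commute.mul_pow (hab _ this _ hx), e']; simp⟩, by simp, hc c a0, .inr rfl⟩
  have a8 := cmOm hab hc
  have hnt : ¬ ∀ g, ∀ x ∈ Om hab 2, g * x * g⁻¹ * x⁻¹ ∈ zpowers (c ^ 2) := fun e => nt3 h₀ fun g x hx =>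
    hk₀ ▸ zpowers_le.2 (pow_mem a0 2) (e g _ (a8 g x (hk₀ ▸ hx)))
  have hQ' : ∀ {ψ : Y →* L}, ψ.ker = Q → ∀ q ∈ ψ.ker, ∀ x ∈ Om hab 2, q * x * q⁻¹ * x⁻¹ = 1 := fun e q hq x hx => by
    rw [hab q (e ▸ hq) x hx.1]; simp
  obtain ⟨ψ, κ, h, hk, hκ, hF⟩ := std h₀ a6 (fun x hx => hx.2 ▸ one_mem _) (fun q hq x hx => hQ' hk₀ q hq x hx ▸ one_mem _)
    hnt (by
      have e1 := h₀.sr.card_le (A := Om hab 2) fun x hx => hx.2
      have e2 := relIndex_mul_relIndex ⊥ _ _ bot_le a6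
      rw [relIndex_bot_left, relIndex_bot_left, Nat.card_zpowers, orderOf_eq_prime a4 hd4] at e2
      omega)
  rw [hk₀] at hk
  obtain ⟨W, _, _, _, π, τ, hπ, hρ, -, -⟩ := lin (H := Om hab 2) (N := ⊥) h.surj h.sr bot_le (fun x hx => hx.2)
    (hQ' hk) fun e => hnt fun g x hx => mem_bot.1 (e g x hx) ▸ one_mem _
  obtain ⟨κ', hκ'⟩ := hπ.lift κ hκ.mul fun x _ hx => mem_bot.1 hx ▸ hκ.one
  obtain ⟨t, ht⟩ := h.surj T
  have sq' : ∀ x ∈ Q, ∀ s, (x * s) ^ 2 = x ^ 2 * (s * x * s⁻¹ * x⁻¹) * s ^ 2 := fun x hx s => by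
    rw [← hab _ (a8 s x hx).1 _ (pow_mem hx 2), ← mul_inv_cancel_left x (_ * x ^ 2), ← hab _ (mul_mem (a8 s x hx).1 (pow_mem hx 2)) _ (inv_mem hx)]
    simp only [sq]; group
  obtain ⟨r, hr, hr2⟩ : ∃ r, ψ r = a1 ∧ r ^ 2 ∈ Om hab 2 := by
    obtain ⟨r, hr⟩ := h.surj a1
    have b1 : r ^ 2 ∈ Q := by rw [← hk, MonoidHom.mem_ker, map_pow, hr]; decide
    have b2 := hk.le (xker hr ht)
    obtain ⟨U, _, p, hp⟩ := exists_add (fun x hx => hx.1 : Om hab 2 ≤ Q) fun x _ => a8 x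
    obtain ⟨-, w, c2, -, c4⟩ := rels hp (F := fun _ v => v) (fun g x hx => by
      rw [eq_comm, ← sub_eq_zero, ← Add.cm hp g hx]; exact (hp.zero _ (a8 g x hx).1).2 (a8 g x hx)) b1 b2
      (inv_mul_cancel_right _ _).symm
    generalize r * (t * r * t⁻¹) * _ = x at b2 c4
    have c5 := (hp.zero _ (pow_mem (pow_mem b2 2) 2)).2 ⟨pow_mem (pow_mem b2 2) 2, by
      rw [← pow_mul]; exact a1' _ (sq_mem x b2)⟩
    rw [sq, hp.mul _ (pow_mem b2 2) _ (pow_mem b2 2), sq, hp.mul _ b2 _ b2] at c5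
    obtain ⟨b, m, hm, e, -, rfl | rfl⟩ := a7 _ b1 ((hp.zero _ (pow_mem b1 2)).1 (by
      rw [sq, hp.mul _ b1 _ b1]; linear_combination (norm := abel1) c4 + c4 + c2 + c5))
    · exact ⟨r, hr, by rwa [e, one_mul]⟩
    · refine ⟨d * r, by rw [map_mul, show ψ d = 1 from hk.ge hd, one_mul, hr], ?_⟩
      rw [sq' d hd, hc', e, ← hc _ a0, mul_assoc, ← mul_assoc b, ← sq]
      exact mul_mem (a8 r d hd) (mul_mem (a6 (mem_zpowers _)) hm)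
  have hM := Om_normal hab 2
  have b0 : ∀ b, b = 1 ∨ b = c → b ∈ Q ∧ b ^ 2 ∈ zpowers (c ^ 2) := by
    rintro _ (rfl | rfl)
    exacts [⟨one_mem _, by simp⟩, ⟨Sq_le_self _ a0, mem_zpowers _⟩]
  have o1 := hM.conj_mem _ hr2 t
  have o2 := hM.conj_mem _ o1 t
  have hs : ψ (t * r * t⁻¹) = a2 := by simp only [map_mul, map_inv, hr, ht]; decide
  have b1 : r⁻¹ * (t * r * t⁻¹) * r * (t * r * t⁻¹)⁻¹ ∈ Om hab 2 := by
    have c0 : r⁻¹ * (t * r * t⁻¹) * r * (t * r * t⁻¹)⁻¹ ∈ Q := by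
      rw [← hk, MonoidHom.mem_ker]; simp only [map_mul, map_inv, hr, ht]; decide
    have i2 : r * (t * r ^ 2 * t⁻¹) * r⁻¹ = r⁻¹ * (t * r ^ 2 * t⁻¹) * r := by
      calc _ = r ^ 2 * (r⁻¹ * (t * r ^ 2 * t⁻¹) * r⁻¹⁻¹) * (r ^ 2)⁻¹ := by simp only [sq]; group
        _ = _ := by rw [hab _ hr2.1 _ (hQ.conj_mem _ o1.1 _)]; group
    have i3 : τ T (π (r ^ 2)) = π (t * r ^ 2 * t⁻¹) := by rw [← ht, hρ t _ hr2]
    rw [← conj_pow (a := t)] at i2 o1 i3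
    generalize t * r * t⁻¹ = s at *
    have i1 : s * r ^ 2 * s⁻¹ = r * (r⁻¹ * s * r * s⁻¹) * r⁻¹ * r ^ 2 * (r⁻¹ * s * r * s⁻¹) := by simp only [sq]; group
    replace i2 : r * s ^ 2 * r⁻¹ = (r⁻¹ * s * r * s⁻¹) * (s * (r⁻¹ * s * r * s⁻¹) * s⁻¹) * s ^ 2 := by
      rw [i2]; simp only [sq]; group
    generalize r⁻¹ * s * r * s⁻¹ = w at *
    obtain ⟨b, m, hm, rfl, hb, hb'⟩ := a7 w c0 (by
      have := hM.conj_mem _ hr2 s
      rw [i1, show r * w * r⁻¹ * r ^ 2 * w = r * w * r⁻¹ * w⁻¹ * (w * (r ^ 2 * w)) by group, hab _ hr2.1 w c0,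
        ← mul_assoc w, ← sq] at this
      exact (mul_mem_cancel_right hr2).1 ((mul_mem_cancel_left (a8 r w c0)).1 this))
    have c1 := a6 (b0 b hb').2
    have c2 := hM.conj_mem m hm r
    have c3 := hM.conj_mem m hm s
    replace i1 : s * r ^ 2 * s⁻¹ = r * m * r⁻¹ * r ^ 2 * m * b ^ 2 := by
      calc _ = r * (b * (m * r⁻¹ * r ^ 2 * (b * m))) := by rw [i1]; group
        _ = _ := by rw [← hb m, ← hb]; simp only [sq]; group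
    replace i2 : r * s ^ 2 * r⁻¹ = m * (s * m * s⁻¹) * s ^ 2 * b ^ 2 := by
      calc _ = b * (m * s * (b * (m * s⁻¹ * s ^ 2))) := by rw [i2]; group
        _ = _ := by rw [← hb (m * s⁻¹ * s ^ 2), ← hb]; simp only [sq]; group
    have c4 := linB (τ := τ) (κ := κ') (fun v => by obtain ⟨x, hx, rfl⟩ := hκ.surj v; exact ⟨_, hκ' x hx⟩) (ζ := π (c ^ 2))
      (fun u => by
        obtain ⟨x, hx, rfl⟩ := hπ.surj u
        rw [hκ' x hx, hκ.zero x hx, hπ.zero x hx, eq_comm (a := π x), hπ.eq_iff (a6 (mem_zpowers _)) hx, mem_bot, mem_bot,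
          inv_mul_eq_one]
        exact ⟨fun e => (mem_zpowers_two a4 e).imp_right Eq.symm, by rintro (rfl | rfl) <;> simp⟩)
      (fun g u => by
        obtain ⟨g, rfl⟩ := h.surj g
        obtain ⟨x, hx, rfl⟩ := hπ.surj u
        rw [hρ g x hx, hκ' _ (hM.conj_mem x hx g), hκ' x hx, hF g x hx])
      (fun g => by
        obtain ⟨g, rfl⟩ := h.surj g
        rw [hρ g _ (a6 (mem_zpowers _)), hc _ (pow_mem a0 2), mul_inv_cancel_right])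
      (η := π (r ^ 2)) (μ := π m) (ζ' := π (b ^ 2)) (by rcases hb' with rfl | rfl; exacts [.inl (by simpa using hπ.one), .inr rfl])
      (by rw [← hr, hρ r _ hr2]; congr 1; group)
      (by rw [← hr, ← hs, hρ s _ hr2, i1, hπ.mul _ (mul_mem (mul_mem c2 hr2) hm) _ c1, hπ.mul _ (mul_mem c2 hr2) _ hm,
        hπ.mul _ c2 _ hr2, hρ r m hm])
      (by rw [i3, ← hr, ← hs, hρ r _ o1, i2, hπ.mul _ (mul_mem (mul_mem hm c3) o1) _ c1, hπ.mul _ (mul_mem hm c3) _ o1,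
        hπ.mul _ hm _ c3, hρ s m hm])
    rcases hb' with rfl | rfl
    · rwa [one_mul]
    · exact (hd4 ((hπ.zero _ c1).1 c4)).elim
  obtain ⟨r, hr, hr2, hx⟩ : ∃ r, ψ r = a1 ∧ r ^ 2 ∈ Om hab 2 ∧
      r * (t * r * t⁻¹) * (t * (t * r * t⁻¹) * t⁻¹)⁻¹ ∈ Om hab 2 := by
    have c0 := hk.le (xker hr ht)
    obtain ⟨b, m, hm, e, hb, hb'⟩ := a7 _ c0 (by
      have := mul_mem (mul_mem hr2 b1) o1
      rw [show r ^ 2 * (r⁻¹ * (t * r * t⁻¹) * r * (t * r * t⁻¹)⁻¹) * (t * r ^ 2 * t⁻¹) = (r * (t * r * t⁻¹)) ^ 2 by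
        simp only [sq]; group, ← inv_mul_cancel_right (r * (t * r * t⁻¹)) (t * (t * r * t⁻¹) * t⁻¹), sq' _ c0, conj_pow,
        conj_pow] at this
      exact (mul_mem_cancel_right (a8 _ _ c0)).1 ((mul_mem_cancel_right o2).1 this))
    refine ⟨b⁻¹ * r, by rw [map_mul, map_inv, show ψ b = 1 from hk.ge (b0 b hb').1, inv_one, one_mul, hr], ?_, ?_⟩
    · rw [Commute.mul_pow (Commute.inv_left (hb r).symm), inv_pow]
      exact mul_mem (inv_mem (a6 (b0 b hb').2)) hr2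
    · have c1 : ∀ g, g * b⁻¹ = b⁻¹ * g := fun g => Commute.inv_right (hb g)
      have c2 : ∀ g u, g * (b⁻¹ * u) * g⁻¹ = b⁻¹ * (g * u * g⁻¹) := fun g u => by rw [← mul_assoc g, c1]; group
      rw [c2, c2]
      convert hm using 1
      calc _ = b⁻¹ * (r * b⁻¹) * ((t * r * t⁻¹) * (t * (t * r * t⁻¹) * t⁻¹)⁻¹) * b := by group
        _ = b⁻¹ * b⁻¹ * (r * (t * r * t⁻¹) * (t * (t * r * t⁻¹) * t⁻¹)⁻¹) * b := by rw [c1 r]; group
        _ = b⁻¹ * (m * b) := by rw [e]; group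
        _ = _ := by rw [hb]; group
  obtain ⟨c1, w, c2, c3, c4⟩ := rels hκ (F := fun g v => (ψ g).1 *ᵥ v) hF hr2 hx (inv_mul_cancel_right _ _).symm
  simp only [map_mul, map_inv, hr, ht, show T * a1 * T⁻¹ = a2 by decide] at c1 c2 c3 c4
  obtain ⟨v, hv⟩ := SQc _ c1 w c2 c3 _ c4
  have hN : ∀ x ∈ Om hab 2, κ x = 0 ∨ κ x = e0 → x ∈ hκ.pre (Submodule.span (ZMod 2) {e0}).toAddSubgroup := by
    rintro x hx (e | e)
    exacts [⟨hx, e ▸ zero_mem _⟩, ⟨hx, e ▸ Submodule.mem_span_singleton_self _⟩]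
  have le : Om hab 2 ≤ Om hab 4 := fun x hx => ⟨hx.1, by rw [show 4 = 2 * 2 from rfl, pow_mul, hx.2, one_pow]⟩
  have hE : ∀ x ∈ Om hab 4, x ^ 2 ∈ Om hab 2 := fun x hx => ⟨pow_mem hx.1 2, by rw [← pow_mul]; exact hx.2⟩
  have o1 := hM.conj_mem _ hr2 t
  have o2 := hM.conj_mem _ o1 t
  have hs : ψ (t * r * t⁻¹) = a2 := by simp only [map_mul, map_inv, hr, ht]; decide
  refine sec (ψ := ψ) h.sr (Q := Om hab 4) (N := hκ.pre (Submodule.span (ZMod 2) {e0}).toAddSubgroup) (fun x hx => le hx.1) (fun x hx => hk.ge hx.1) ?_ hr hs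
    (hN _ hr2 (by revert hv; generalize κ _ = y; revert v y; decide))
    (by rw [conj_pow]; exact hN _ o1 (by rw [← hF t _ hr2, ht]; revert hv; generalize κ _ = y; revert v y; decide)) ?_
    (fun x hx => hκ.le_pre a6 _ ?_) fun x hx => ?_
  · have e1 := relIndex_pre hκ (Submodule.span (ZMod 2) {e0})
    rw [finrank_span_singleton (by decide), finrank_fin_fun] at e1
    have e2 : (Om hab 2).relIndex (Om hab 4) ≠ 1 := fun e => hd4 (relIndex_eq_one.1 e ⟨Sq_le_self _ a0, a1' c a0⟩).2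
    have e3 : (Om hab 2).relIndex (Om hab 4) ≠ 0 := index_ne_zero_of_finite
    rw [← relIndex_mul_relIndex (hκ.pre _) _ _ (fun x hx => hx.1) le, e1]
    omega
  · rw [← inv_mul_cancel_right (r * (t * r * t⁻¹)) (t * (t * r * t⁻¹) * t⁻¹)]
    generalize r * (t * r * t⁻¹) * _ = x at hx
    have e1 := hM.conj_mem x hx (t * (t * r * t⁻¹) * t⁻¹)
    rw [show (x * (t * (t * r * t⁻¹) * t⁻¹)) ^ 2 = x * (t * (t * r * t⁻¹) * t⁻¹ * x * (t * (t * r * t⁻¹) * t⁻¹)⁻¹) *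
      (t * (t * r ^ 2 * t⁻¹) * t⁻¹) by simp [sq, mul_assoc]]
    refine hN _ (mul_mem (mul_mem hx e1) o2) ?_
    rw [hκ.mul _ (mul_mem hx e1) _ o2, hκ.mul _ hx _ e1, ← hF _ x hx, ← hF t _ o1, ← hF t _ hr2, map_mul, map_mul, hs,
      map_inv, ht]
    revert hv; generalize κ (r ^ 2) = y, κ x = u; revert v y u; decide +kernel
  · obtain ⟨b, m, hm, rfl, hb, hb'⟩ := a7 x hx.1 (hE x hx)
    rw [Commute.mul_pow (hb m).symm, hm.2, mul_one]; exact (b0 b hb').2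
  · obtain ⟨b, m, hm, rfl, hb, hb'⟩ := a7 x hx.1 (hE x hx)
    have e : ∀ s, s * (b * m) * s⁻¹ * (b * m)⁻¹ = s * m * s⁻¹ * m⁻¹ := fun s => by
      calc _ = s * (b * (m * s⁻¹ * m⁻¹)) * b⁻¹ := by group
        _ = _ := by rw [← hb]; group
    rw [e, e]
    constructor <;> refine hN _ (a8 _ m hm.1) ?_ <;> rw [Add.cm hκ _ hm, ← hF _ m hm] <;> simp only [hr, hs] <;>
      generalize κ m = u <;> revert u <;> decide

end

end CA.H5Sr
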