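import Cfsg.Agent.Lib.Loc.H6Odd
import Cfsg.Agent.Lib.Loc.H6Ctl
import Cfsg.Agent.Lib.Grp.Trf

/-! Transfer and normalizers of characteristic subgroups of a Sylow subgroup (odd primes). -/

set_option autoImplicit false
set_option linter.unusedVariables false

namespace CA.H6Tr

open Subgroup Cfsg CA.Amb CA.AmbSyl CA.AmbCore CA.AmbRes CA.AmbWC CA.AmbSpe CA.H6Nat CA.H6Nat2
open CA.H6Core CA.H6Core2 CA.H6J CA.H6Bau CA.H6Pull CA.H6E0 CA.H6Am1 CA.H6Am2 CA.H6Am3 CA.H6Exp CA.H6Odd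
open scoped commutatorElement MatrixGroups

universe u

section chr

variable {G : Type*} [Group G] {G' : Type*} [Group G'] {K S : Subgroup G}

/-- nontrivial characteristic subgroup -/
def Chr (K S : Subgroup G) : Prop := K ≤ S ∧ K ≠ ⊥ ∧ (K.subgroupOf S).Characteristic

theorem Chr.self (h : S ≠ ⊥) : Chr S S := ⟨le_rfl, h, by rw [subgroupOf_self]; infer_instance⟩

theorem Chr.norm [Finite G] (h : Chr K S) : 𝐍 S ≤ 𝐍 K := by
  simpa using norm_of_char (f := MonoidHom.id G) Function.injective_id h.1 h.2.2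

theorem chr_of_reg {G : Type u} [Group G] [Finite G] {K S : Subgroup G} (h1 : K ≤ S) (h2 : K ≠ ⊥)
    (h3 : 𝐍 (S.map (H6PU.reg G)) ≤ 𝐍 (K.map (H6PU.reg G))) : Chr K S :=
  ⟨h1, h2, characteristic_iff_le_comap.2 fun φ s hs => by
    obtain ⟨σ, hσ⟩ := H6PU.exists_perm S φ
    have : σ ∈ 𝐍 (S.map (H6PU.reg G)) := mem_normalizer_of_cj_le (cj_le_iff'.2 (by
      rintro _ ⟨t, ht, rfl⟩
      exact ⟨_, (φ ⟨t, ht⟩).2, (hσ ⟨t, ht⟩).symm⟩))
    exact (mem_map_iff_mem (K := K) H6PU.reg_injective).1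
      (hσ s ▸ conj_mem_of_mem_normalizer (h3 this) (mem_map_of_mem _ hs) : H6PU.reg G (φ s) ∈ _)⟩

/-- restriction of a homomorphism injective on `S` -/
noncomputable def eqv (f : G →* G') (hf : S ⊓ f.ker = ⊥) : S ≃* S.map f :=
  MulEquiv.ofBijective (f.subgroupMap S) ⟨(injective_iff_map_eq_one _).2 fun s hs =>
    Subtype.ext (mem_bot.1 (hf.le ⟨s.2, congrArg Subtype.val hs⟩)), f.subgroupMap_surjective S⟩

theorem Chr.comap {f : G →* G'} (hf : S ⊓ f.ker = ⊥) {K : Subgroup G'} (h : Chr K (S.map f)) :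
    Chr (S ⊓ K.comap f) S := by
  refine ⟨inf_le_left, fun e => h.2.1 (eq_bot_iff.2 fun y hy => ?_),
    characteristic_iff_le_comap.2 fun φ s hs => ⟨(φ s).2, ?_⟩⟩
  · obtain ⟨x, hx, rfl⟩ := h.1 hy
    rw [mem_bot.1 (e.le ⟨hx, hy⟩), map_one]; exact one_mem _
  · have := characteristic_iff_le_comap.1 h.2.2 (((eqv f hf).symm.trans φ).trans (eqv f hf))
      (x := eqv f hf s) hs.2
    have h2 : eqv f hf (φ s) ∈ K.subgroupOf (S.map f) := by simpa using this
    exact h2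

theorem Chr.map {f : G →* G'} (hf : Function.Injective f) (h : Chr K S) : Chr (K.map f) (S.map f) := by
  refine ⟨map_mono h.1, fun e => h.2.1 ((map_eq_bot_iff_of_injective _ hf).1 e),
    characteristic_iff_le_comap.2 ?_⟩
  rintro φ ⟨_, s, hs, rfl⟩ hk
  let e := S.equivMapOfInjective f hf
  exact ⟨_, characteristic_iff_le_comap.1 h.2.2 ((e.trans φ).trans e.symm) (x := ⟨s, hs⟩)
    ((mem_map_iff_mem hf).1 hk), congrArg Subtype.val (e.apply_symm_apply _)⟩

/-- the subgroup generated by the local focal subgroups -/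
def DD (L S : Subgroup G) : Subgroup G := ⨆ K : {K // Chr K S}, S ⊓ ⁅L ⊓ 𝐍 K.1, L ⊓ 𝐍 K.1⁆

theorem le_DD {L : Subgroup G} (h : Chr K S) : S ⊓ ⁅L ⊓ 𝐍 K, L ⊓ 𝐍 K⁆ ≤ DD L S :=
  le_iSup (fun K : {K // Chr K S} => S ⊓ ⁅L ⊓ 𝐍 K.1, L ⊓ 𝐍 K.1⁆) ⟨K, h⟩

theorem DD_le {L X : Subgroup G} (h : ∀ K, Chr K S → S ⊓ ⁅L ⊓ 𝐍 K, L ⊓ 𝐍 K⁆ ≤ X) : DD L S ≤ X :=
  iSup_le fun K => h K.1 K.2

theorem DD_mono {L L' : Subgroup G} (h : L ≤ L') : DD L S ≤ DD L' S := DD_le fun K hK =>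
  (inf_le_inf_left _ (commutator_mono (inf_le_inf_right _ h) (inf_le_inf_right _ h))).trans (le_DD hK)

theorem DD_le_S {L : Subgroup G} : DD L S ≤ S := DD_le fun _ _ => inf_le_left

theorem map_DD {f : G →* G'} (hf : Function.Injective f) (L : Subgroup G) :
    (DD L S).map f ≤ DD (L.map f) (S.map f) := by
  rw [map_le_iff_le_comap]
  refine DD_le fun K hK => map_le_iff_le_comap.1 (le_trans ?_ (le_DD (hK.map hf)))
  have := le_inf (map_mono (f := f) (inf_le_left : L ⊓ 𝐍 K ≤ L)) (norm_map f inf_le_right)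
  exact le_inf (map_mono inf_le_left) ((map_mono inf_le_right).trans
    ((map_commutator _ _ _).le.trans (commutator_mono this this)))

end chr

section put

variable {G : Type u} [Group G] [Finite G] {p : ℕ} [Fact p.Prime] {F : Type*} [Field F] [Finite F]
  [CharP F p] {X B M : Subgroup G}

theorem exR (hp : p ≠ 2) (h : VS p F X B M) (hc : X ⊓ 𝐂 (Zo p X) ≤ pCoreOf p X) :
    ¬ X ⊓ Kn X (pCoreOf p X) ≤ Kn (Zo p X) (Zo p X ⊓ 𝐂 X) := fun hle => by
  obtain ⟨d, hd⟩ := acts_iff.1 h.nat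
  obtain ⟨t, ht, e⟩ := (d.mem_rim le_rfl).1 (hd ▸ mem_top (-1))
  have h1 := (d.mem_Kn ht).1 (hle ⟨ht, mem_Kn'.2 ⟨norm_pCoreOf p X ht, fun y hy => ?_⟩⟩)
  · rw [e] at h1
    have h2 : (-1 : F) = 1 := by simpa using congrArg (fun m : SL(2, F) => m.1 0 0) h1
    have h3 : ((2 : ℕ) : F) = 0 := by rw [Nat.cast_ofNat, ← one_add_one_eq_two]; nth_rw 1 [← h2]; ring
    exact hp ((Nat.prime_dvd_prime_iff_eq Fact.out Nat.prime_two).1 ((CharP.cast_eq_zero_iff F p 2).1 h3))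
  · have h2 := comm_le_of_le le_rfl le_rfl (commutator_mem_commutator ht hy)
    refine hc ⟨h2, h.Kn_le ⟨h2, (d.mem_Kn h2).2 ?_⟩⟩
    rw [commutatorElement_def, d.r_mul (mul_mem (mul_mem ht hy) (inv_mem ht)) (inv_mem hy), d.r_conj ht hy,
      d.r_inv hy, e, neg_mul, one_mul, ← mul_neg_one, mul_inv_cancel_right, mul_inv_cancel]

omit [Finite G] [Fact p.Prime] [Finite F] [CharP F p] in
theorem step {V C R U : Subgroup G} (h : Nt F X V C) (hR : R ≤ X) (hn : X ≤ 𝐍 R) (hk : ¬ R ≤ Kn V C)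
    (hU : X ≤ 𝐍 U) : U ⊓ V ≤ (⁅U, R⁆ ⊓ V) ⊔ C := by
  by_cases h1 : ⁅U, R⁆ ⊓ V ≤ C
  · rcases h.irr (h.le_Fx hR) (Fx_le _ _ _) (norm_Fx h.norm h.norm₀ hn) with e | e
    · refine le_trans ?_ (e.le.trans le_sup_right)
      exact le_Fx_iff.2 ⟨inf_le_right, inf_le_right.trans h.normU₀, (le_inf (commutator_mono inf_le_left le_rfl)
        ((commutator_mono inf_le_right le_rfl).trans (commutator_le_left_of_norm (hR.trans h.norm)))).trans h1⟩
    · exact absurd (le_Kn_iff.2 ⟨hR.trans h.norm₀, (le_Fx_iff.1 e.ge).2.2⟩) hk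
  · exact inf_le_right.trans (h.le_sup inf_le_right (norm_inf (norm_commutator hU hn) h.norm) h1)

theorem put_core (hp : p ≠ 2) (h : VS p F X B M) (ho : OutA p X B ∨ ∃ V C, OutB p F X B V C)
    {U : Subgroup G} (hU : X ≤ 𝐍 U) (hQ : U ≤ pCoreOf p X) (e : ⁅U, pResidualOf p X⁆ = U) :
    U ≤ ⁅U, 𝐍 B⁆ := by
  have hc : X ⊓ 𝐂 (Zo p X) ≤ pCoreOf p X :=
    ho.elim (fun o => o.cent_le h.charP) fun ⟨_, _, o⟩ => o.cent_le h.charP
  have hk := exR hp h hc
  set R := X ⊓ Kn X (pCoreOf p X) with hR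
  have n1 : X ≤ 𝐍 R := norm_inf le_normalizer (norm_Kn le_normalizer (norm_pCoreOf p X))
  have n2 : X ≤ 𝐍 ⁅U, R⁆ := norm_commutator hU n1
  have hUX := hQ.trans (pCoreOf_le p X)
  have l1 : ⁅U, R⁆ ≤ U := commutator_le_left_of_norm (inf_le_left.trans hU)
  have l2 : ⁅⁅U, R⁆, pResidualOf p X⁆ ≤ ⁅U, R⁆ := commutator_le_left_of_norm ((res_le p X).trans n2)
  have h1 : U ≤ ⁅U, R⁆ ⊔ (U ⊓ Zo p X) := by
    rcases ho with o | ⟨V, C, o⟩
    · exact le_sup_of_le_right (le_inf le_rfl (e.ge.trans ((commutator_mono hQ le_rfl).trans o.res)))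
    · have hV : U ≤ V := e.ge.trans ((commutator_mono hQ le_rfl).trans o.res)
      have h2 := step o.nt inf_le_left n1 (fun hle => hk (le_trans (le_inf inf_le_left hle) ?_)) hU
      · have h3 : U ≤ ⁅U, R⁆ ⊔ (C ⊓ U) := by
          rw [← sup_inf_of_norm ((l1.trans hUX).trans o.nt.norm₀) l1]
          exact le_inf ((le_inf le_rfl hV).trans (h2.trans (sup_le_sup_right inf_le_left _))) le_rfl
        have n3 := norm_sup n2 (norm_inf hU (norm_Zo p X))
        refine e.ge.trans ((commutator_mono h3 le_rfl).trans (comm_sup_le ((l1.trans hUX).trans n3)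
          ((inf_le_right.trans hUX).trans n3) (l2.trans le_sup_left) (le_sup_of_le_right (le_inf ?_ ?_))))
        · exact (commutator_mono inf_le_right le_rfl).trans e.le
        · exact (commutator_mono inf_le_left (res_le p X)).trans o.cC
      · have h4 : X ⊓ Kn (Zo p X) (Zo p X ⊓ 𝐂 X) ≤ X ⊓ Kn V C :=
          le_inf inf_le_left ((le_inf inf_le_left h.Kn_le).trans o.cent)
        refine le_trans (eq_of_le_of_card_ge h4 ?_).ge inf_le_right
        have e1 := card_inf_mul_relIndex (Kn V C) X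
        have e2 := card_inf_mul_relIndex (Kn (Zo p X) (Zo p X ⊓ 𝐂 X)) X
        rw [o.nt.relIndex_Kn, inf_comm] at e1
        rw [h.nat.relIndex_Kn, inf_comm, ← e1] at e2
        exact (Nat.eq_of_mul_eq_mul_right Nat.card_pos e2).ge
  have h5 : ⁅U ⊓ Zo p X, pResidualOf p X⁆ ≤ ⁅U, R⁆ :=
    (commutator_mono (step h.nat inf_le_left n1 hk hU) le_rfl).trans (comm_sup_le
      ((inf_le_left.trans (l1.trans hUX)).trans n2) ((inf_le_left.trans ((Zo_le p X).trans
        (pCoreOf_le p X))).trans n2) ((commutator_mono inf_le_left le_rfl).trans l2)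
      (comm_bot_le (inf_le_right.trans (centralizer_anti (res_le p X)))))
  refine e.ge.trans ((commutator_mono h1 le_rfl).trans ((comm_sup_le ((l1.trans hUX).trans n2)
    ((inf_le_left.trans hUX).trans n2) l2 h5).trans (commutator_mono le_rfl (norm_of_commutator_le ?_))))
  exact (commutator_mono h.r1.syl.le inf_le_right).trans ((comm_Kn_le _ _).trans h.r1.Q_le)

theorem put (hp : p ≠ 2) {S Q : Subgroup G} (hc : AmbChar.CharP p (⊤ : Subgroup G)) (hS : SylIn p S ⊤)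
    (hM : UMax S M ⊤) (hd : ∀ K, Chr K S → 𝐍 K ≠ ⊤) [Q.Normal] (hQ : IsPGroup p Q) :
    ⁅Q, (⊤ : Subgroup G)⁆ ≤ ⁅Q, M⁆ := by
  have hf := H6PU.reg_injective (G := G)
  have g2 : ∀ W, W ≤ S → W ≠ ⊥ → 𝐍 (S.map (H6PU.reg G)) ≤ 𝐍 (W.map (H6PU.reg G)) → 𝐍 W ≤ M :=
    fun W h1 h2 h3 => (umax_top_iff.1 hM).2.2 _ (le_normalizer.trans (chr_of_reg h1 h2 h3).norm)
      (hd _ (chr_of_reg h1 h2 h3))
  have h0 : S ≠ ⊥ := fun e => hc.pCoreOf_ne_bot (fun e' => hM.not_le (e'.le.trans bot_le))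
    (eq_bot_iff.2 ((pCoreOf_le_syl hS).trans e.le))
  have s : SS p (OZ p (pCoreOf p ⊤)) S M := ⟨rfl, hc, hS, hM, le_trans (centralizer_le_normalizer _)
    (g2 _ (OZ_le _ _) (OZ_ne_bot hS.pg h0) (by rw [map_OZ hf]; exact norm_OZ le_rfl)),
    g2 _ (J_le _ _) (J_ne_bot dvd_rfl (dvd_card_of_ne_bot hS.pg h0)) (by rw [← J_map hf]; exact norm_J le_rfl)⟩
  have g3 : 𝐍 (S.map (H6PU.reg G)) ≤ 𝐍 ((Bm p S).map (H6PU.reg G)) := by
    convert norm_Bm (n := p) (le_refl (𝐍 (S.map (H6PU.reg G)))) using 3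
    rw [Bm, Bm, J_map hf, ← map_OZ hf, map_inf _ _ _ hf, map_centralizer_of_injective hf, ← inf_assoc,
      inf_eq_left.2 (map_le_range _ _)]
  obtain ⟨F, _, _, _, X, h, ho, hX, hK⟩ := H6Exp.exp s fun W h1 h2 h3 =>
    g2 W (h1.trans inf_le_left) h2 (g3.trans (norm_of_char hf h1 h3))
  have hB : 𝐍 (Bm p S) ≤ M := g2 _ inf_le_left (fun e => h.r1.nt (e.le.trans bot_le)) g3
  have n1 : X ≤ 𝐍 ⁅Q, pResidualOf p X⁆ := norm_commutator norm_of_normal (norm_res p X)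
  have l1 : ⁅Q, pResidualOf p X⁆ ≤ Q := commutator_le_left _ _
  have h1 := (put_core hp h ho n1 (le_pCoreOf ((commutator_le_right_of_norm (((le_pCoreOf le_top hQ
    norm_of_normal).trans hX).trans (normalizer_le_res p X))).trans (res_le p X)) (hQ.to_le l1) n1)
    (AmbChar.comm_res_comm_res hQ norm_of_normal)).trans (commutator_mono l1 hB)
  have h2 : M ≤ Kn Q ⁅Q, M⁆ := le_Kn_iff.2 ⟨norm_comm_right _ _, le_rfl⟩
  rw [← hM.eq_of_not_le (hM.le.trans h2) le_top fun hle => hK (le_trans (le_Kn_iff.2 ⟨?_, h1⟩) hle)]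
  · exact comm_Kn_le _ _
  · exact norm_of_between h1 (commutator_le_left _ _)

end put

section main

variable {p : ℕ} [Fact p.Prime]

/-- the statement for all smaller groups -/
def IH (p n : ℕ) : Prop := ∀ (G : Type u) [Group G] [Finite G], Nat.card G < n →
  ∀ S : Subgroup G, SylIn p S ⊤ → S ≠ ⊥ → S ⊓ ⁅(⊤ : Subgroup G), ⊤⁆ ≤ DD ⊤ S

variable {G : Type u} [Group G] [Finite G] {S : Subgroup G}

omit [Fact p.Prime] in
theorem IH.sub (ih : IH.{u} p (Nat.card G)) {L T : Subgroup G} (hL : L ≠ ⊤) (hT : SylIn p T L)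
    (h0 : T ≠ ⊥) : T ⊓ ⁅L, L⁆ ≤ DD L T := by
  have h1 := map_mono (f := L.subtype) (ih L (H6NPC.card_lt_of_ne_top hL) _ (H6NPC.sylIn_subgroupOf_top hT)
    fun e => h0 (by rw [← map_subgroupOf_eq_of_le hT.le, e, Subgroup.map_bot]))
  have h2 := h1.trans (map_DD L.subtype_injective _)
  rwa [map_inf _ _ _ L.subtype_injective, map_commutator, map_subtype_top, map_subgroupOf_eq_of_le hT.le] at h2

theorem case_bot (ih : IH.{u} p (Nat.card G)) (hS : SylIn p S ⊤) (hQ : pCoreOf p (⊤ : Subgroup G) = ⊥) :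
    S ⊓ ⁅(⊤ : Subgroup G), ⊤⁆ ≤ DD ⊤ S := by
  have hR : ∀ (A : Subgroup G) g, A ≤ S → cj g A ≤ S → ∀ a ∈ A, ⁅g, a⁆ ∈ DD ⊤ S := by
    refine Alperin.alperin hS.toSylowTop (fun A g => ∀ a ∈ A, ⁅g, a⁆ ∈ DD ⊤ S) ?_ ?_ ?_
    · exact fun D E g hE _ _ h a ha => h a (hE ha)
    · intro D g h _ _ _ h1 h2 a ha
      have := mul_mem (h2 _ (conj_mem_cj.2 ha)) (h1 a ha)
      convert this using 1
      simp only [commutatorElement_def]; group
    intro D hD hT0 IH n hn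
    change D ≤ S at hD
    replace hT0 : SylIn p (S ⊓ 𝐍 D) (𝐍 D) := sylIn_iff.2 hT0
    replace IH : ∀ (E : Subgroup G) g, Nat.card D < Nat.card E → E ≤ S → cj g E ≤ S →
      ∀ a ∈ E, ⁅g, a⁆ ∈ DD ⊤ S := IH
    have key : ∀ k : ℕ, ∀ Q T : Subgroup G, Nat.card S - Nat.card T = k → Q ≠ ⊥ → Q ≤ T → T ≤ S →
        SylIn p T (𝐍 Q) → (T = S ∨ Nat.card D < Nat.card T) → T ⊓ ⁅𝐍 Q, 𝐍 Q⁆ ≤ DD ⊤ S := by
      intro k
      induction k using Nat.strong_induction_on with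
      | _ k ih' =>
      intro Q T hk hQ0 hQT hTS hT hDT
      refine (ih.sub (fun e => hQ0 (eq_bot_iff.2 ((le_pCoreOf le_top (hT.pg.to_le hQT) e.ge).trans hQ.le)))
        hT fun e => hQ0 (eq_bot_iff.2 (hQT.trans e.le))).trans ?_
      rcases hTS.eq_or_lt with rfl | hlt'
      · exact DD_mono le_top
      refine DD_le fun K hK x hx => ?_
      replace hDT := hDT.resolve_left hlt'.ne
      obtain ⟨T1, hT1, hT1'⟩ := exists_sylIn_ge (L := 𝐍 K) (hS.pg.to_inf_left (K := 𝐍 T))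
        (inf_le_right.trans hK.norm)
      have hlt1 : T < T1 := (lt_inf_normalizer hS.pg hlt').trans_le hT1'
      obtain ⟨y, -, hy⟩ := hS.exists_conj_le hT1.pg le_top
      have hc1 : Nat.card T < Nat.card (cj y T1) := by rw [card_cj]; exact card_lt_of_lt hlt1
      have hc2 := H6Basic.card_le_of_le' hy
      have h1 := ih' _ (by omega) (cj y K) (cj y T1) rfl (fun e => hK.2.1 (cj_eq_bot.1 e))
        (cj_mono y (hK.1.trans hlt1.le)) hy (by rw [← cj_normalizer]; exact hT1.conj y)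
        (Or.inr (hDT.trans hc1))
      rw [← cj_normalizer, ← cj_commutator, ← cj_inf] at h1
      have h2 := h1 (conj_mem_cj.2 ⟨hlt1.le hx.1, commutator_mono inf_le_right inf_le_right hx.2⟩)
      have h3 := mul_mem (inv_mem (IH T y hDT hTS ((cj_mono y hlt1.le).trans hy) x hx.1)) h2
      convert h3 using 1
      simp only [commutatorElement_def]; group
    intro a ha
    by_cases h0 : D = ⊥
    · rw [mem_bot.1 (h0.le ha)]; simp
    refine key _ D _ rfl h0 (le_inf hD le_normalizer) inf_le_left hT0 ?_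
      ⟨le_inf hD le_normalizer (commutator_le_right_of_norm le_rfl (commutator_mem_commutator hn ha)),
        commutator_mem_commutator hn (le_normalizer ha)⟩
    rcases hD.eq_or_lt with rfl | hlt
    · exact Or.inl (inf_eq_left.2 le_normalizer)
    · exact Or.inr (card_lt_of_lt (lt_inf_normalizer hS.pg hlt))
  have := commutator_inf_eq_focalSubgroup hS.toSylowTop
  rw [inf_comm]
  refine this.le.trans ((closure_le _).2 ?_)
  rintro _ ⟨h1, x, hx, g, rfl⟩
  rw [SetLike.mem_coe, ← inv_mem_iff, commutatorElement_inv]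
  refine hR (zpowers x) g (zpowers_le.2 hx) ?_ x (mem_zpowers x)
  rw [cj_zpowers, zpowers_le]
  rw [show g * x * g⁻¹ = ⁅x, g⁆⁻¹ * x by rw [commutatorElement_def]; group]
  exact mul_mem (inv_mem h1) hx

theorem comm_le (hp : p ≠ 2) (ih : IH.{u} p (Nat.card G)) (hS : SylIn p S ⊤) (h0 : S ≠ ⊥)
    (hd : ∀ K, Chr K S → 𝐍 K ≠ ⊤) : ⁅pCoreOf p (⊤ : Subgroup G), (⊤ : Subgroup G)⁆ ≤ DD ⊤ S := by
  set Q := pCoreOf p (⊤ : Subgroup G) with hQ
  have hQS : Q ≤ S := pCoreOf_le_syl hS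
  haveI : Q.Normal := normalizer_eq_top_iff.1 (top_le_iff.1 (norm_pCoreOf p ⊤))
  have h1 : ∀ H, S ≤ H → H ≠ ⊤ → ⁅Q, H⁆ ≤ Q ⊓ DD ⊤ S := fun H hH hne => le_inf (commutator_le_left _ _)
    ((le_inf ((commutator_le_left _ _).trans hQS) (commutator_mono (hQS.trans hH) le_rfl)).trans
      ((ih.sub hne (hS.mono hH le_top) h0).trans (DD_mono le_top)))
  have h2 : ∀ H, S ≤ H → H ≠ ⊤ → H ≤ Kn Q (Q ⊓ DD ⊤ S) := fun H hH hne =>
    le_Kn_iff.2 ⟨norm_of_between (h1 H hH hne) inf_le_left, h1 H hH hne⟩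
  by_cases hM : Kn Q (Q ⊓ DD ⊤ S) = ⊤
  · exact ((le_Kn_iff.1 hM.ge).2).trans inf_le_right
  set M := Kn Q (Q ⊓ DD ⊤ S) with hMd
  have hSM : S ≤ M := h2 S le_rfl fun e => hd S (Chr.self h0) (top_le_iff.1 (e.ge.trans le_normalizer))
  have hU : UMax S M ⊤ := umax_top_iff.2 ⟨hM, hSM, h2⟩
  have hC : 𝐂 Q ≤ M := le_Kn_iff.2 ⟨norm_of_centralizer (centralizer_anti inf_le_left), comm_bot_le' le_rfl⟩
  have hc : S ⊓ 𝐂 Q ≤ Q := by
    have h3 := hS.inf_norm (N := 𝐂 Q) le_top (norm_centralizer norm_of_normal)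
    have h4 := h3.frattini_sup le_top (norm_centralizer norm_of_normal)
    refine le_pCoreOf le_top h3.pg ?_
    by_contra hn
    exact hM (top_le_iff.1 (h4.ge.trans (sup_le hC (inf_le_right.trans (h2 _ (norm_inf le_normalizer
      (norm_centralizer norm_of_normal)) fun e => hn e.ge)))))
  have hk := H6PSolv.inf_π_ker (p := p) hS.pg
  have hkC : (H6PSolv.π p G).ker ≤ 𝐂 Q := commutator_eq_bot_iff'.1 (eq_bot_iff.2 ((le_inf
    ((commutator_le_left _ _).trans hQS) (commutator_le_right _ _)).trans hk.le))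
  have hU' := hU.map (H6PSolv.π p G) (inf_le_right.trans (hkC.trans hC))
  rw [map_top_of_surjective _ H6PSolv.π_surj] at hU'
  haveI : (Q.map (H6PSolv.π p G)).Normal := Normal.map inferInstance _ H6PSolv.π_surj
  have h5 := put hp (H6Ctl.charP_quot_of_centric hS hQS hc) (H6NPC.sylIn_map_top hS H6PSolv.π_surj) hU'
    (fun K hK e => ?_) ((isPGroup_pCoreOf p ⊤).map (H6PSolv.π p G))
  · rw [← map_top_of_surjective _ H6PSolv.π_surj, ← map_commutator, ← map_commutator, Subgroup.map_le_map_iff] at h5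
    refine (le_inf h5 (commutator_le_left _ _)).trans ?_
    rw [sup_inf_of_norm norm_of_normal (commutator_le_left _ _)]
    exact sup_le ((comm_Kn_le _ _).trans inf_le_right) ((le_inf (inf_le_right.trans hQS) inf_le_left).trans
      (hk.le.trans bot_le))
  · haveI : K.Normal := normalizer_eq_top_iff.1 e
    have h6 := (hK.comap hk)
    have h7 := (hS.inf_norm (N := K.comap (H6PSolv.π p G)) le_top norm_of_normal).frattini_sup le_top
      norm_of_normal
    refine hM (top_le_iff.1 (h7.ge.trans (sup_le ?_ (inf_le_right.trans (h2 _ (le_normalizer.trans h6.norm)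
      (hd _ h6))))))
    refine (comap_mono hK.1).trans ?_
    rw [comap_map_eq]
    exact sup_le hSM (hkC.trans hC)

theorem main (hp : p ≠ 2) (n : ℕ) : IH.{u} p n := by
  induction n with
  | zero => exact fun G _ _ h => absurd h (Nat.not_lt_zero _)
  | succ n ih0 =>
  intro G _ _ hG S hS h0
  have ih : IH.{u} p (Nat.card G) := fun G' _ _ h => ih0 G' (by omega)
  by_cases hQ0 : pCoreOf p (⊤ : Subgroup G) = ⊥
  · exact case_bot ih hS hQ0
  by_cases hd : ∀ K, Chr K S → 𝐍 K ≠ ⊤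
  swap
  · push Not at hd
    obtain ⟨K, hK, e⟩ := hd
    have := le_DD (L := ⊤) hK
    rwa [e, inf_idem] at this
  have h1 := comm_le hp ih hS h0 hd
  have hQS : pCore p G ≤ S := pCoreOf_top p G ▸ pCoreOf_le_syl hS
  rw [pCoreOf_top] at h1 hQ0
  set f := QuotientGroup.mk' (pCore p G) with hf
  have hs : Function.Surjective f := QuotientGroup.mk'_surjective _
  have hk : f.ker = pCore p G := QuotientGroup.ker_mk' _
  have hSS : ⁅S, S⁆ ≤ DD ⊤ S := le_trans (le_inf (comm_le_of_le le_rfl le_rfl) (commutator_mono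
    (le_inf le_top le_normalizer) (le_inf le_top le_normalizer))) (le_DD (Chr.self h0))
  have h2 := ih _ (H6NPC.card_quot_lt hQ0) _ (H6NPC.sylIn_map_top hS hs) fun e => hd S (Chr.self h0) (by
    rw [le_antisymm ((Subgroup.map_eq_bot_iff _).1 e |>.trans hk.le) hQS]
    exact normalizer_eq_top_iff.2 inferInstance)
  have h3 : DD ⊤ (S.map f) ≤ (DD ⊤ S).map f := DD_le fun K hK => by
    have hH : S ≤ (𝐍 K).comap f := map_le_iff_le_comap.1 (le_normalizer.trans hK.norm)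
    have hne : (𝐍 K).comap f ≠ ⊤ := fun e => hK.2.1 (eq_bot_iff.2 (by
      rw [← pCore_quotient_pCore p G, ← pCoreOf_top p (G ⧸ pCore p G)]
      refine le_pCoreOf le_top ((hS.pg.map f).to_le hK.1) ?_
      rw [← map_top_of_surjective f hs, map_le_iff_le_comap, e]))
    rw [top_inf_eq, ← map_comap_eq_self_of_surjective hs (𝐍 K), ← map_commutator]
    rintro _ ⟨⟨s, hs1, rfl⟩, c, hc, e⟩
    have h4 : c ∈ S := by
      have : c * s⁻¹ ∈ f.ker := by rw [MonoidHom.mem_ker, map_mul, map_inv, e, mul_inv_cancel]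
      exact mem_of_div' (hQS (hk.le this)) hs1
    exact ⟨c, DD_mono le_top (ih.sub hne (hS.mono hH le_top) h0 ⟨h4, hc⟩), e⟩
  intro x hx
  obtain ⟨d, hd', e⟩ := h3 (h2 ⟨mem_map_of_mem f hx.1, by
    rw [← map_top_of_surjective f hs, ← map_commutator]; exact mem_map_of_mem f hx.2⟩)
  have h5 : x * d⁻¹ ∈ pCore p G := by
    rw [← hk, MonoidHom.mem_ker, map_mul, map_inv, e, mul_inv_cancel]
  have h6 : x * d⁻¹ ∈ ⁅(⊤ : Subgroup G), (⊤ : Subgroup G)⁆ := mul_mem hx.2 (inv_mem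
    (DD_le (fun K _ => inf_le_right.trans (commutator_mono le_top le_top)) hd'))
  refine mem_of_div' ?_ hd'
  by_contra hn
  obtain ⟨e', he⟩ := hS.pg ⟨_, hQS h5⟩
  obtain ⟨N, -, h7, h8, -⟩ := Trf.exists_normal_not_mem hSS (by simpa using hS.not_dvd) (hQS h5)
    (congrArg Subtype.val he) hn fun k _ t _ => by
      convert h1 (commutator_mem_commutator (inv_mem (pow_mem h5 k)) (mem_top t)) using 1
      simp only [commutatorElement_def]; group
  exact h8 (h7 h6)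

end main

end CA.H6Tr
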