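import Cfsg.Agent.Lib.Solv.Bertrand2
import Cfsg.Agent.Lib.Odd.BG2
import Cfsg.Agent.Lib.Loc.EqO1
import Cfsg.Agent.Lib.Grp.Subn

/-! Groups with the order and the element orders of an alternating group. -/

set_option autoImplicit false
set_option linter.unusedSectionVars false

namespace CA.SpecAn

section num
open Nat

theorem centralBinom_le (n q : ℕ) (n_large : 2 < n) (hq : n < q) (hq2 : q ≤ 2 * n)
    (no_prime : ∀ p : ℕ, p.Prime → n < p → p ≤ 2 * n → p = q) :
    centralBinom n ≤ 2 * n * ((2 * n) ^ sqrt (2 * n) * 4 ^ (2 * n / 3)) := by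
  have n_pos : 0 < n := (Nat.zero_le _).trans_lt n_large
  have n2_pos : 1 ≤ 2 * n := mul_pos (zero_lt_two' ℕ) n_pos
  let S := {p ∈ Finset.range (2 * n / 3 + 1) | Nat.Prime p}
  let f x := x ^ n.centralBinom.factorization x
  have h0 : centralBinom n = ∏ p ∈ insert q (Finset.range (2 * n / 3 + 1)), f p := by
    refine (Eq.trans ?_ n.prod_pow_factorization_centralBinom).symm
    apply Finset.prod_subset
    · intro x hx
      simp only [Finset.mem_insert, Finset.mem_range] at hx ⊢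
      omega
    intro x hx h2x
    simp only [Finset.mem_insert, Finset.mem_range, not_or] at hx h2x
    by_cases h : x.Prime
    · have h1 : x ≤ n := by have := no_prime x h; omega
      simp only [f]
      rw [factorization_centralBinom_of_two_mul_self_lt_three_mul n_large h1 (by omega), Nat.pow_zero]
    · simp only [f]
      rw [factorization_eq_zero_of_not_prime n.centralBinom h, Nat.pow_zero]
  have : ∏ x ∈ S, f x = ∏ x ∈ Finset.range (2 * n / 3 + 1), f x := by
    refine Finset.prod_filter_of_ne fun p _ h => ?_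
    contrapose h; dsimp only [f]
    rw [factorization_eq_zero_of_not_prime n.centralBinom h, _root_.pow_zero]
  rw [h0, Finset.prod_insert (by simp only [Finset.mem_range]; omega), ← this, ←
    Finset.prod_filter_mul_prod_filter_not S (· ≤ sqrt (2 * n))]
  refine mul_le_mul' (pow_factorization_choose_le (mul_pos two_pos n_pos)) (mul_le_mul' ?_ ?_)
  · refine (Finset.prod_le_prod' fun p _ => (?_ : f p ≤ 2 * n)).trans ?_
    · exact pow_factorization_choose_le (mul_pos two_pos n_pos)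
    have : (Finset.Icc 1 (sqrt (2 * n))).card = sqrt (2 * n) := by rw [card_Icc, Nat.add_sub_cancel]
    rw [Finset.prod_const]
    refine pow_right_mono₀ n2_pos ((Finset.card_le_card fun x hx => ?_).trans this.le)
    obtain ⟨h1, h2⟩ := Finset.mem_filter.1 hx
    exact Finset.mem_Icc.mpr ⟨(Finset.mem_filter.1 h1).2.one_lt.le, h2⟩
  · refine le_trans ?_ (primorial_le_four_pow (2 * n / 3))
    refine (Finset.prod_le_prod' fun p hp => (?_ : f p ≤ p)).trans ?_
    · obtain ⟨h1, h2⟩ := Finset.mem_filter.1 hp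
      refine (pow_right_mono₀ (Finset.mem_filter.1 h1).2.one_lt.le ?_).trans (pow_one p).le
      exact Nat.factorization_choose_le_one (sqrt_lt'.mp <| not_le.1 h2)
    refine Finset.prod_le_prod_of_subset_of_one_le' (Finset.filter_subset _ _) ?_
    exact fun p hp _ => (Finset.mem_filter.1 hp).2.one_lt.le

theorem two_primes {n : ℕ} (hn : 11 ≤ n) : ∃ p q : ℕ, p.Prime ∧ q.Prime ∧ p < q ∧ n < 2 * p ∧ q ≤ n := by
  rcases le_or_gt 1764 n with h | h
  · obtain ⟨m, hm⟩ : ∃ m, m = n / 2 := ⟨_, rfl⟩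
    by_contra hc
    obtain ⟨q, hq, q1, q2⟩ := Nat.exists_prime_lt_and_le_two_mul m (by omega)
    have h1 := Nat.four_pow_lt_mul_centralBinom m (by omega)
    have h2 := centralBinom_le m q (by omega) q1 q2 fun p hp h3 h4 => by
      by_contra h5
      rcases lt_or_gt_of_ne h5 with h6 | h6
      · exact hc ⟨p, q, hp, hq, h6, by omega, by omega⟩
      · exact hc ⟨q, p, hq, hp, h6, by omega, by omega⟩
    exact absurd (h1.trans_le ((Nat.mul_le_mul_left m h2).trans (AltP.main_ineq (by omega)))) (lt_irrefl _)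
  by_cases h1 : n < 13; · exact ⟨7, 11, by norm_num, by norm_num, by omega, by omega, by omega⟩
  by_cases h1 : n < 17; · exact ⟨11, 13, by norm_num, by norm_num, by omega, by omega, by omega⟩
  by_cases h1 : n < 23; · exact ⟨13, 17, by norm_num, by norm_num, by omega, by omega, by omega⟩
  by_cases h1 : n < 31; · exact ⟨17, 23, by norm_num, by norm_num, by omega, by omega, by omega⟩
  by_cases h1 : n < 43; · exact ⟨23, 31, by norm_num, by norm_num, by omega, by omega, by omega⟩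
  by_cases h1 : n < 61; · exact ⟨31, 43, by norm_num, by norm_num, by omega, by omega, by omega⟩
  by_cases h1 : n < 83; · exact ⟨43, 61, by norm_num, by norm_num, by omega, by omega, by omega⟩
  by_cases h1 : n < 113; · exact ⟨61, 83, by norm_num, by norm_num, by omega, by omega, by omega⟩
  by_cases h1 : n < 163; · exact ⟨83, 113, by norm_num, by norm_num, by omega, by omega, by omega⟩
  by_cases h1 : n < 223; · exact ⟨113, 163, by norm_num, by norm_num, by omega, by omega, by omega⟩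
  by_cases h1 : n < 317; · exact ⟨163, 223, by norm_num, by norm_num, by omega, by omega, by omega⟩
  by_cases h1 : n < 443; · exact ⟨223, 317, by norm_num, by norm_num, by omega, by omega, by omega⟩
  by_cases h1 : n < 631; · exact ⟨317, 443, by norm_num, by norm_num, by omega, by omega, by omega⟩
  by_cases h1 : n < 883; · exact ⟨443, 631, by norm_num, by norm_num, by omega, by omega, by omega⟩
  by_cases h1 : n < 1259; · exact ⟨631, 883, by norm_num, by norm_num, by omega, by omega, by omega⟩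
  exact ⟨883, 1259, by norm_num, by norm_num, by omega, by omega, by omega⟩

theorem not_sq_dvd {n p : ℕ} (hp : p.Prime) (h : n < 2 * p) : ¬ p ^ 2 ∣ n ! := by
  have h2 := hp.two_le
  rcases Nat.eq_zero_or_pos n with rfl | h0
  · intro h3
    have := Nat.le_of_dvd one_pos h3
    nlinarith
  rw [hp.pow_dvd_factorial_iff (b := 2) (Nat.log_lt_of_lt_pow h0.ne' (by nlinarith))]
  have : n / p < 2 := (Nat.div_lt_iff_lt_mul hp.pos).2 h
  simp; omega

end num

theorem perm_order {n p q : ℕ} (hp : p.Prime) (hq : q.Prime) (hne : p ≠ q) (σ : Equiv.Perm (Fin n))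
    (h : orderOf σ = p * q) : p + q ≤ n := by
  have h0 : ∀ r : ℕ, r.Prime → r ∣ orderOf σ → ∃ a ∈ σ.cycleType, r ∣ a := fun r hr hd =>
    hr.prime.exists_mem_multiset_dvd (hd.trans (by
      rw [← Equiv.Perm.lcm_cycleType]; exact Multiset.lcm_dvd.2 fun b hb => Multiset.dvd_prod hb))
  obtain ⟨a, ha, pa⟩ := h0 p hp (h ▸ dvd_mul_right _ _)
  obtain ⟨b, hb, qb⟩ := h0 q hq (h ▸ dvd_mul_left _ _)
  have hs := σ.sum_cycleType_le
  rw [Fintype.card_fin] at hs
  have a0 := Equiv.Perm.two_le_of_mem_cycleType ha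
  have b0 := Equiv.Perm.two_le_of_mem_cycleType hb
  obtain ⟨s, e⟩ := Multiset.exists_cons_of_mem ha
  rw [e, Multiset.sum_cons] at hs
  by_cases hab : b = a
  · subst hab
    have := Nat.le_of_dvd (by omega) (((Nat.coprime_primes hp hq).2 hne).mul_dvd_of_dvd_of_dvd pa qb)
    have := Nat.add_le_mul hp.two_le hq.two_le
    omega
  · rw [e, Multiset.mem_cons] at hb
    have := Multiset.single_le_sum (fun _ _ => Nat.zero_le _) b (hb.resolve_left hab)
    have := Nat.le_of_dvd (by omega) pa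
    have := Nat.le_of_dvd (by omega) qb
    omega

open Subgroup CA.BG CA.EqO

variable {G : Type*} [Group G] [Finite G] {p q : ℕ} {P N : Subgroup G}

theorem exists_pq (hp : p.Prime) (hq : q.Prime) (hne : p ≠ q) (hP : ♯P = p) (h : q ∣ ♯𝓝(P))
    (h1 : ¬ q ∣ p - 1) : ∃ g : G, orderOf g = p * q := by
  obtain ⟨X, hX, cX⟩ := exists_card_eq_prime hq h
  obtain ⟨x, hx, ox⟩ := exists_orderOf_eq hq (cX ▸ dvd_rfl : q ∣ ♯X)
  obtain ⟨y, hy, oy⟩ := exists_orderOf_eq hp (hP ▸ dvd_rfl : p ∣ ♯P)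
  have hc : X ≤ 𝓒(P) := by
    rcases eq_bot_or_eq_of_prime (X := X) (Y := X ⊓ 𝓒(P)) (cX ▸ hq) inf_le_left with e | e
    · have h2 := card_inf_mul_relIndex 𝓒(P) X
      rw [inf_comm, e, card_bot, one_mul, cX] at h2
      exact absurd (h2 ▸ relIndex_cent_abelem1_dvd hp hP hX) h1
    · exact e ▸ inf_le_right
  have hcm : Commute y x := mem_cent.1 (hc hx) y hy
  exact ⟨y * x, by rw [hcm.orderOf_mul_eq_mul_orderOf_of_coprime (by
    rw [ox, oy]; exact (Nat.coprime_primes hp hq).2 hne), ox, oy]⟩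

theorem card_syl (hp : p.Prime) (h2 : ¬ p ^ 2 ∣ Nat.card G) (hP : Syl p P N) (h : p ∣ ♯N) : ♯P = p := by
  obtain ⟨k, e⟩ := hP.pi.exists_card hp
  have h3 := hP.dvd_card hp rfl h
  have h4 : ♯P ∣ Nat.card G := card_subgroup_dvd_card P
  rw [e] at h3 h4 ⊢
  rcases k with _ | _ | k
  · exact absurd (Nat.le_of_dvd one_pos h3) (by have := hp.two_le; omega)
  · simp
  · exact absurd ((pow_dvd_pow p (by omega)).trans h4) h2

theorem dvd_of_dvd (hp : p.Prime) (hq : q.Prime) (hne : p ≠ q) (h2 : ¬ p ^ 2 ∣ Nat.card G)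
    (h3 : q ∣ Nat.card G) (h1 : ¬ q ∣ p - 1) (ho : ∀ g : G, orderOf g ≠ p * q) [N.Normal] (h : p ∣ ♯N) :
    q ∣ ♯N := by
  obtain ⟨P, hP⟩ := syl_exists hp N
  have h4 := hP.syl_frattini_sup hp le_top (top_norm N ⊤)
  have h5 := card_sup_dvd (top_norm N (⊤ ⊓ 𝓝(P)))
  rw [sup_comm, h4, card_top, top_inf_eq] at h5
  rcases (Nat.Prime.dvd_mul hq).1 (h3.trans h5) with h6 | h6
  · obtain ⟨g, hg⟩ := exists_pq hp hq hne (card_syl hp h2 hP h) h6 h1
    exact absurd hg (ho g)
  · exact h6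

theorem simple_of_min (hp : p.Prime) [N.Normal] (h : p ∣ ♯N) (h2 : ¬ p ^ 2 ∣ Nat.card G)
    (hmin : ∀ K : Subgroup G, K.Normal → K ≤ N → K = ⊥ ∨ K = N) : IsSimpleGroup N := by
  have hN : N ≠ ⊥ := by
    rintro rfl
    rw [card_bot] at h
    exact hp.one_lt.ne' (Nat.dvd_one.1 h)
  haveI := (nontrivial_iff_ne_bot N).2 hN
  refine ⟨fun K0 hK0 => ?_⟩
  set K := K0.map N.subtype with hK
  have hle : K ≤ N := map_subtype_le _
  have hn : N ≤ 𝓝(K) := by
    have := le_normalizer_map (H := K0) N.subtype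
    rwa [normalizer_eq_top, ← MonoidHom.range_eq_map, range_subtype] at this
  suffices K = ⊥ ∨ K = N by
    refine this.imp (fun e => ?_) fun e => ?_
    · exact (map_eq_bot_iff_of_injective _ N.subtype_injective).1 e
    · exact map_injective N.subtype_injective (by rw [← hK, e, ← MonoidHom.range_eq_map, range_subtype])
  by_cases hd : p ∣ ♯K
  · obtain ⟨P, hP⟩ := syl_exists hp N
    have h3 : ¬ p ∣ K.relIndex N := fun h4 => h2 (by
      have := card_mul_relIndex hle
      exact (pow_two p ▸ (this ▸ Nat.mul_dvd_mul hd h4)).trans (card_subgroup_dvd_card N))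
    have h4 : P ≤ K.normalCore := fun x hx g => by
      have h5 := (hP.pi.cj g).le_of_relIndex (N := K) (M := N)
        ((cj_mono g hP.le).trans (cj_normal N g).le) hn ((piNat_compl_iff hp).2 h3)
      exact h5 (conj_mem_cj.2 hx)
    rcases hmin K.normalCore inferInstance (K.normalCore_le.trans hle) with e | e
    · exact absurd (BG.eq_bot_mono h4 e) (hP.ne_bot hp rfl h)
    · exact Or.inr (le_antisymm hle (e ▸ K.normalCore_le))
  · have h3 := le_core ((isPi_compl_iff hp).2 hd) hle hn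
    rcases hmin 𝓞({p}ᶜ, N) (normal_of (norm_core _ (top_norm N ⊤))) (core_le _ _) with e | e
    · exact Or.inl (BG.eq_bot_mono h3 e)
    · exact absurd h ((isPi_compl_iff hp).1 (e ▸ core_pi {p}ᶜ N))

theorem section_ (π : Set ℕ) (h0 : ∀ p ∈ π, p.Prime ∧ p ∣ Nat.card G ∧ ¬ p ^ 2 ∣ Nat.card G)
    (h1 : ∀ p ∈ π, ∀ q ∈ π, p ≠ q → ¬ q ∣ p - 1 ∧ ∀ g : G, orderOf g ≠ p * q)
    (hp : p ∈ π) (hq : q ∈ π) (hne : p ≠ q) :
    ∃ (N H : Subgroup G) (_ : N.Normal), H.Normal ∧ N < H ∧
      IsSimpleGroup (↥H ⧸ N.subgroupOf H) ∧ ¬ IsMulCommutative (↥H ⧸ N.subgroupOf H) ∧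
      ∀ r ∈ π, r ∣ Nat.card (↥H ⧸ N.subgroupOf H) := by
  have key : ∀ (N : Subgroup G) [N.Normal], ∀ a ∈ π, ∀ b ∈ π, a ∣ ♯N → b ∣ ♯N := fun N _ a ha b hb h => by
    by_cases e : a = b
    · exact e ▸ h
    · exact dvd_of_dvd (h0 a ha).1 (h0 b hb).1 e (h0 a ha).2.2 (h0 b hb).2.1 (h1 a ha b hb e).1
        (h1 a ha b hb e).2 h
  have pp := (h0 p hp).1
  obtain ⟨N, -, ⟨hN, hd⟩, hmax⟩ := exists_maximal_ge (P := fun N : Subgroup G => N.Normal ∧ ¬ p ∣ ♯N) (H := ⊥)
    ⟨inferInstance, by rw [card_bot]; exact fun h => pp.one_lt.ne' (Nat.dvd_one.1 h)⟩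
  have hNt : (⊤ : Subgroup (G ⧸ N)) ≠ ⊥ := fun e => by
    have h2 : N = ⊤ := by
      rw [eq_top_iff]; intro x _
      exact (QuotientGroup.eq_one_iff x).1 (mem_bot.1 (e ▸ mem_top _))
    rw [h2, card_top] at hd
    exact hd (h0 p hp).2.1
  obtain ⟨M, -, M0, Mn, hmin⟩ := Subn.exists_minimal_normal hNt
  have hs := QuotientGroup.mk'_surjective N
  set H := M.comap (QuotientGroup.mk' N) with hH
  have hc : ♯H = ♯M * ♯N := by rw [hH, card_comap hs, QuotientGroup.ker_mk']
  have hle : N ≤ H := by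
    have := ker_le_comap (QuotientGroup.mk' N) M
    rwa [QuotientGroup.ker_mk'] at this
  have hlt : N < H := lt_of_le_of_ne hle fun e => M0 (by
    rw [← map_comap_eq_self_of_surjective hs M, ← hH, ← e]; exact QuotientGroup.map_mk'_self N)
  have hd2 : p ∣ ♯H := by
    by_contra h
    exact hlt.ne' (hmax H ⟨inferInstance, h⟩ hle)
  have hM : ∀ r ∈ π, r ∣ ♯M := fun r hr =>
    ((Nat.Prime.dvd_mul (h0 r hr).1).1 (hc ▸ key H p hp r hr hd2)).resolve_right fun h => hd (key N r hr p hp h)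
  have hsim := simple_of_min pp (hM p hp) (fun h => (h0 p hp).2.2 (h.trans (card_quotient_dvd_card N)))
    fun K hK h => hmin K hK h
  have hk : N.subgroupOf H = ((QuotientGroup.mk' N).subgroupComap M).ker := by
    ext x
    rw [mem_subgroupOf, MonoidHom.mem_ker, Subtype.ext_iff]
    exact (QuotientGroup.eq_one_iff _).symm
  let e : (H ⧸ N.subgroupOf H) ≃* M := (QuotientGroup.quotientMulEquivOfEq hk).trans
    (QuotientGroup.quotientKerEquivOfSurjective _ (MonoidHom.subgroupComap_surjective_of_surjective _ M hs))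
  have ec := Nat.card_congr e.toEquiv
  refine ⟨N, H, hN, inferInstance, hlt, e.isSimpleGroup, fun hcm => ?_, fun r hr => ec ▸ hM r hr⟩
  haveI := e.isSimpleGroup
  letI : CommGroup (H ⧸ N.subgroupOf H) := { (inferInstance : Group _) with mul_comm := hcm.is_comm.comm }
  have h3 := IsSimpleGroup.prime_card (α := H ⧸ N.subgroupOf H)
  rw [ec] at h3
  exact hne (((Nat.prime_dvd_prime_iff_eq pp h3).1 (hM p hp)).trans
    ((Nat.prime_dvd_prime_iff_eq (h0 q hq).1 h3).1 (hM q hq)).symm)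

theorem card_two {n : ℕ} (hn : 2 ≤ n) (hcard : Nat.card G = Nat.card (alternatingGroup (Fin n))) :
    2 * Nat.card G = n.factorial := by
  haveI : Nontrivial (Fin n) := Fin.nontrivial_iff_two_le.2 hn
  rw [hcard, two_mul_nat_card_alternatingGroup, Nat.card_perm, Nat.card_fin]

theorem no_pq {n : ℕ} (hspec : Set.range (orderOf : G → ℕ) = Set.range (orderOf : alternatingGroup (Fin n) → ℕ))
    (hp : p.Prime) (hq : q.Prime) (hne : p ≠ q) (h : n < p + q) (g : G) : orderOf g ≠ p * q := fun e => by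
  obtain ⟨σ, hσ⟩ : p * q ∈ Set.range (orderOf : alternatingGroup (Fin n) → ℕ) := hspec ▸ ⟨g, e⟩
  have := perm_order hp hq hne σ.1 (by rw [orderOf_coe, hσ])
  omega

theorem main {n : ℕ} (hn : 5 ≤ n) (hcard : Nat.card G = Nat.card (alternatingGroup (Fin n)))
    (hspec : Set.range (orderOf : G → ℕ) = Set.range (orderOf : alternatingGroup (Fin n) → ℕ))
    (h : ∃ p q : ℕ, p.Prime ∧ q.Prime ∧ p < q ∧ n < 2 * p ∧ q ≤ n) :
    ∃ (N H : Subgroup G) (_ : N.Normal), H.Normal ∧ N < H ∧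
      IsSimpleGroup (↥H ⧸ N.subgroupOf H) ∧ ¬ IsMulCommutative (↥H ⧸ N.subgroupOf H) ∧
      ∀ p : ℕ, p.Prime → n < 2 * p → p ≤ n → p ∣ Nat.card (↥H ⧸ N.subgroupOf H) := by
  obtain ⟨p, q, hp, hq, h1, h2, h3⟩ := h
  have hc := card_two (by omega) hcard
  obtain ⟨N, H, a, b, c, d, e, f⟩ := section_ (G := G) {r | r.Prime ∧ n < 2 * r ∧ r ≤ n} (p := p) (q := q)
    (fun r ⟨r1, r2, r3⟩ => ⟨r1, (((Nat.coprime_primes r1 Nat.prime_two).2 (by omega)).dvd_mul_left).1
      (hc ▸ (r1.dvd_factorial).2 r3), fun h => not_sq_dvd r1 r2 (hc ▸ h.mul_left 2)⟩)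
    (fun a ⟨a1, a2, a3⟩ b ⟨b1, b2, b3⟩ ne => ⟨fun ⟨c, hc⟩ => by
      have := a1.two_le
      have := a1.eq_two_or_odd
      have := b1.eq_two_or_odd
      rcases c with _ | _ | c
      · omega
      · omega
      · have : b * 2 ≤ b * (c + 1 + 1) := Nat.mul_le_mul_left _ (by omega)
        omega, no_pq hspec a1 b1 ne (by omega)⟩)
    ⟨hp, h2, by omega⟩ ⟨hq, by omega, h3⟩ h1.ne
  exact ⟨N, H, a, b, c, d, e, fun r r1 r2 r3 => f r ⟨r1, r2, r3⟩⟩

theorem solv_pq (hs : Group.IsSolvable G) (hp : p.Prime) (hq : q.Prime) (hne : p ≠ q) (h0 : p ∣ Nat.card G)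
    (h2 : ¬ p ^ 2 ∣ Nat.card G) (h3 : q ∣ Nat.card G) (h4 : ¬ q ^ 3 ∣ Nat.card G) (h1 : ¬ q ∣ p - 1)
    (h5 : q % p ≠ 1) (h6 : q ^ 2 % p ≠ 1) : ∃ g : G, orderOf g = p * q := by
  haveI := Fact.mk hp
  obtain ⟨H, hH⟩ := hall_exists {p, q} (H := (⊤ : Subgroup G)) inferInstance
  obtain ⟨P, hP⟩ := syl_exists hp H
  have cP := card_syl hp h2 hP (hH.dvd_card hp (by simp) (card_top (G := G) ▸ h0))
  refine exists_pq hp hq hne cP ((hH.dvd_card hq (by simp) (card_top (G := G) ▸ h3)).trans (card_dvd ?_)) h1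
  obtain ⟨S, rfl⟩ := hP.exists_sylow hp
  have a1 := card_sylow_modEq_one p H
  have a2 := S.card_dvd_index
  have a3 : PiNat {q} (Nat.card (Sylow p H)) := fun r hr hd => by
    rcases hH.pi r hr ((hd.trans a2).trans (index_dvd_card _)) with e | e
    · exact absurd ((e ▸ hd).trans a2) S.not_dvd_index
    · exact e
  obtain ⟨k, e⟩ := a3.exists_pow hq Nat.card_pos.ne'
  have a4 : q ^ k ∣ Nat.card G := e ▸ (a2.trans (index_dvd_card _)).trans (card_subgroup_dvd_card H)
  rw [e, Nat.ModEq, Nat.mod_eq_of_lt hp.one_lt] at a1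
  have a5 : k = 0 := by
    rcases k with _ | _ | _ | k
    · rfl
    · exact absurd (by simpa using a1) h5
    · exact absurd a1 h6
    · exact absurd ((pow_dvd_pow q (by omega)).trans a4) h4
  rw [a5, pow_zero, S.card_eq_index_normalizer, index_eq_one] at e
  have := le_normalizer_map (H := (S : Subgroup H)) H.subtype
  rwa [show normalizer ((S : Subgroup H) : Set H) = ⊤ from e, ← MonoidHom.range_eq_map, range_subtype] at this

end CA.SpecAn
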