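import Cfsg.Agent.Lib.Loc.H6Ctl2
import Cfsg.Prelude.Def_LocalEven

/-!
Glauberman's Theorem C, part 1: configurations `Conf` (a Borel subgroup of `SL(2,p)` acting on a
plane section that meets `Y`), their transport, and their consequences.
-/

set_option autoImplicit false

namespace CA.ZJC

open Subgroup Cfsg CA.Amb CA.AmbSyl CA.AmbCore CA.AmbRes CA.H6Stab CA.H6Ctl CA.H6Qd CA.SL2Unip
open scoped commutatorElement MatrixGroups

variable {G : Type*} [Group G] {G' : Type*} [Group G'] {p : ℕ} [hp : Fact p.Prime]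

def Act (θ : G → Fin 2 → ZMod p) (V : Subgroup G) (g : G) (M : SL(2, ZMod p)) : Prop :=
  ∀ v ∈ V, g * v * g⁻¹ ∈ V ∧ θ (g * v * g⁻¹) = mv M (θ v)

variable (p) in
def Conf (L Y : Subgroup G) : Prop :=
  ∃ (V : Subgroup G) (θ : G → Fin 2 → ZMod p), IsPGroup p V ∧ V ≤ L ∧
    (∀ v ∈ V, ∀ w ∈ V, θ (v * w) = θ v + θ w) ∧ (∀ c, ∃ v ∈ V, θ v = c) ∧
    (∀ M ∈ B (ZMod p), ∃ g ∈ L, Act θ V g M) ∧ ∃ y ∈ V, y ∈ Y ∧ θ y ≠ 0

theorem Conf.mono {L L' Y Y' : Subgroup G} (h : Conf p L Y) (hL : L ≤ L') (hY : Y ≤ Y') :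
    Conf p L' Y' := by
  obtain ⟨V, θ, h1, h2, h3, h4, h5, y, y1, y2, y3⟩ := h
  exact ⟨V, θ, h1, h2.trans hL, h3, h4, fun M hM => let ⟨g, a, b⟩ := h5 M hM; ⟨g, hL a, b⟩,
    y, y1, hY y2, y3⟩

theorem Conf.of_map (f : G →* G') {L Y : Subgroup G} (hk : IsPGroup p ↥(L ⊓ f.ker)) (hY : Y ≤ L)
    (h : Conf p (L.map f) (Y.map f)) : Conf p L Y := by
  obtain ⟨V, θ, h1, h2, h3, h4, h5, _, y1, ⟨y, y2, rfl⟩, y3⟩ := h
  refine ⟨L ⊓ V.comap f, fun x => θ (f x), isPGroup_inf_comap f hk h1, inf_le_left,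
    fun v hv w hw => by simpa only [map_mul] using h3 _ hv.2 _ hw.2, fun c => ?_, fun M hM => ?_,
    y, ⟨hY y2, y1⟩, y2, y3⟩
  · obtain ⟨v, hv, e⟩ := h4 c
    obtain ⟨x, hx, rfl⟩ := h2 hv
    exact ⟨x, ⟨hx, hv⟩, e⟩
  · obtain ⟨_, ⟨g, hg, rfl⟩, a⟩ := h5 M hM
    refine ⟨g, hg, fun v hv => ?_⟩
    obtain ⟨a1, a2⟩ := a _ hv.2
    have hg' : g ∈ L := hg
    refine ⟨mem_inf.2 ⟨mul_mem (mul_mem hg' hv.1) (inv_mem hg'), ?_⟩, ?_⟩
    · rw [mem_comap, map_mul, map_mul, map_inv]; exact a1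
    · simpa only [map_mul, map_inv] using a2

theorem Conf.map_inj {f : G →* G'} (hf : Function.Injective f) {L Y : Subgroup G}
    (h : Conf p L Y) : Conf p (L.map f) (Y.map f) := by
  obtain ⟨V, θ, h1, h2, h3, h4, h5, y, y1, y2, y3⟩ := h
  have e := Function.leftInverse_invFun hf
  refine ⟨V.map f, fun x => θ (Function.invFun f x), h1.map f, map_mono h2, ?_, fun c => ?_,
    fun M hM => ?_, f y, mem_map_of_mem f y1, mem_map_of_mem f y2, by simpa only [e y] using y3⟩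
  · rintro _ ⟨v, hv, rfl⟩ _ ⟨w, hw, rfl⟩
    simp only [← map_mul, e _]
    exact h3 v hv w hw
  · obtain ⟨v, hv, rfl⟩ := h4 c
    exact ⟨f v, mem_map_of_mem f hv, by simp only [e v]⟩
  · obtain ⟨g, hg, a⟩ := h5 M hM
    refine ⟨f g, mem_map_of_mem f hg, ?_⟩
    rintro _ ⟨v, hv, rfl⟩
    simp only [← map_inv, ← map_mul, e _]
    exact ⟨mem_map_of_mem f (a v hv).1, (a v hv).2⟩

theorem Conf.conj {L Y : Subgroup G} (h : Conf p L Y) (g : G) : Conf p (cj g L) (cj g Y) :=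
  h.map_inj (conj_injective g)

theorem Conf.of_subgroupOf {H L Y : Subgroup G} (hL : L ≤ H) (hY : Y ≤ H)
    (h : Conf p (L.subgroupOf H) (Y.subgroupOf H)) : Conf p L Y := by
  have := h.map_inj H.subtype_injective
  rwa [map_subgroupOf_eq_of_le hL, map_subgroupOf_eq_of_le hY] at this

theorem Conf.ctl [Finite G] {L S M Y : Subgroup G} (hS : SylIn p S L) (hc : Ctl L S M)
    (hSM : S ≤ M) (hn : L ≤ 𝐍 Y) (h : Conf p L Y) : Conf p (L ⊓ M) Y := by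
  obtain ⟨V₀, θ₀, h1, h2, h0⟩ := h
  obtain ⟨k, hk, hkS⟩ := hS.exists_conj_le h1 h2
  have h' : Conf p (cj k L) (cj k Y) ∧ ∃ θ : G → Fin 2 → ZMod p,
      (∀ v ∈ cj k V₀, ∀ w ∈ cj k V₀, θ (v * w) = θ v + θ w) ∧ (∀ c, ∃ v ∈ cj k V₀, θ v = c) ∧
      (∀ M ∈ B (ZMod p), ∃ g ∈ L, Act θ (cj k V₀) g M) ∧ ∃ y ∈ cj k V₀, y ∈ Y ∧ θ y ≠ 0 := by
    refine ⟨Conf.conj ⟨V₀, θ₀, h1, h2, h0⟩ k, fun x => θ₀ (k⁻¹ * x * k), ?_⟩
    obtain ⟨h3, h4, h5, y, y1, y2, y3⟩ := h0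
    refine ⟨fun v hv w hw => ?_, fun c => ?_, fun M hM => ?_, k * y * k⁻¹, conj_mem_cj.2 y1,
      conj_mem_of_mem_normalizer (hn hk) y2, by simpa [mul_assoc] using y3⟩
    · rw [← h3 _ (mem_cj.1 hv) _ (mem_cj.1 hw)]
      exact congrArg θ₀ (by group)
    · obtain ⟨v, hv, rfl⟩ := h4 c
      exact ⟨k * v * k⁻¹, conj_mem_cj.2 hv, by simp [mul_assoc]⟩
    · obtain ⟨g, hg, a⟩ := h5 M hM
      refine ⟨k * g * k⁻¹, mul_mem (mul_mem hk hg) (inv_mem hk), fun v hv => ?_⟩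
      obtain ⟨a1, a2⟩ := a _ (mem_cj.1 hv)
      have e : k⁻¹ * (k * g * k⁻¹ * v * (k * g * k⁻¹)⁻¹) * k = g * (k⁻¹ * v * k) * g⁻¹ := by group
      exact ⟨mem_cj.2 (e ▸ a1), by simp only [e]; exact a2⟩
  obtain ⟨-, θ, h3, h4, h5, hy⟩ := h'
  refine ⟨cj k V₀, θ, isPGroup_cj h1 k, hkS.trans (le_inf hS.le hSM), h3, h4, fun M hM => ?_, hy⟩
  obtain ⟨g, hg, a⟩ := h5 M hM
  obtain ⟨m, hm, e⟩ := hc _ hkS g hg (cj_le_iff'.2 fun x hx => hkS (a x hx).1)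
  exact ⟨m, hm, fun v hv => e v hv ▸ a v hv⟩

/-! ### eigenvectors -/

theorem exists_eig [Finite G] {A : Subgroup G} (hA : IsMulCommutative A) (hAp : IsPGroup p A)
    {g : G} (hg : ∀ a ∈ A, g * a * g⁻¹ ∈ A) (χ : G → ZMod p)
    (hadd : ∀ v ∈ A, ∀ w ∈ A, χ (v * w) = χ v + χ w) (k : ZMod p)
    (hk : ∀ a ∈ A, χ (g * a * g⁻¹) = k * χ a) {y : G} (hy : y ∈ A) (hy' : χ y ≠ 0) :
    ∃ c ∈ A, orderOf c = p ∧ g * c * g⁻¹ = c ^ k.val := by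
  have hcomm : ∀ a ∈ A, ∀ b ∈ A, a * b = b * a := fun a ha b hb =>
    H6Basic.comm_of_isMulCommutative hA ha hb
  have h0 : χ 1 = 0 := by simpa using hadd 1 (one_mem _) 1 (one_mem _)
  have hpow : ∀ a ∈ A, ∀ n : ℕ, χ (a ^ n) = n * χ a := fun a ha n => by
    induction n with
    | zero => simp [h0]
    | succ n ih => rw [pow_succ, hadd _ (pow_mem ha n) _ ha, ih]; push_cast; ring
  have hinv : ∀ a ∈ A, χ a⁻¹ = -χ a := fun a ha => by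
    rw [eq_neg_iff_add_eq_zero, ← hadd _ (inv_mem ha) _ ha, inv_mul_cancel, h0]
  let f : A → A := fun a => ⟨g * a * g⁻¹ * ((a : G) ^ k.val)⁻¹,
    mul_mem (hg a a.2) (inv_mem (pow_mem a.2 _))⟩
  have hns : ¬ Function.Surjective f := fun hs => by
    obtain ⟨a, ha⟩ := hs ⟨y, hy⟩
    apply hy'
    rw [← show g * a * g⁻¹ * ((a : G) ^ k.val)⁻¹ = y from congrArg Subtype.val ha,
      hadd _ (hg a a.2) _ (inv_mem (pow_mem a.2 _)), hinv _ (pow_mem a.2 _), hpow _ a.2, hk _ a.2,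
      ZMod.natCast_zmod_val, add_neg_cancel]
  rw [← Finite.injective_iff_surjective, Function.not_injective_iff] at hns
  obtain ⟨a, b, hab, hne⟩ := hns
  have hab' : g * a * g⁻¹ * ((a : G) ^ k.val)⁻¹ = g * b * g⁻¹ * ((b : G) ^ k.val)⁻¹ :=
    congrArg Subtype.val hab
  have hd : (b : G)⁻¹ * a ∈ A := mul_mem (inv_mem b.2) a.2
  have e1 : g * ((b : G)⁻¹ * a) * g⁻¹ = ((b : G)⁻¹ * a) ^ k.val := by
    rw [(show Commute (b : G)⁻¹ a from hcomm _ (inv_mem b.2) _ a.2).mul_pow, inv_pow]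
    have : g * a * g⁻¹ = g * b * g⁻¹ * ((b : G) ^ k.val)⁻¹ * a ^ k.val := by rw [← hab']; group
    calc g * ((b : G)⁻¹ * a) * g⁻¹ = (g * b * g⁻¹)⁻¹ * (g * a * g⁻¹) := by group
      _ = _ := by rw [this]; group
  have hne' : (b : G)⁻¹ * a ≠ 1 := fun e => hne (Subtype.ext (inv_mul_eq_one.1 e).symm)
  obtain ⟨c, hc, hc'⟩ := exists_orderOf_eq_of_ne_bot (Q := zpowers ((b : G)⁻¹ * a))
    (hAp.to_le (zpowers_le_of_mem hd)) (by simpa using hne')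
  obtain ⟨n, rfl⟩ := mem_zpowers_iff.1 hc
  refine ⟨_, zpow_mem hd n, hc', ?_⟩
  rw [← conj_zpow, e1, ← zpow_natCast, ← zpow_natCast, ← zpow_mul, ← zpow_mul, mul_comm]

theorem Conf.eig [Finite G] {L Y : Subgroup G} (h : Conf p L Y) (hn : L ≤ 𝐍 Y)
    (hY : IsMulCommutative Y) (k : (ZMod p)ˣ) :
    ∃ g ∈ L, ∃ c ∈ Y, orderOf c = p ∧ g * c * g⁻¹ = c ^ (k : ZMod p).val := by
  obtain ⟨V, θ, h1, h2, h3, h4, h5, y, y1, y2, y3⟩ := h
  have h0 : θ 1 = 0 := by simpa using h3 1 (one_mem _) 1 (one_mem _)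
  have hinv : ∀ a ∈ V, θ a⁻¹ = -θ a := fun a ha => by
    rw [eq_neg_iff_add_eq_zero, ← h3 _ (inv_mem ha) _ ha, inv_mul_cancel, h0]
  let A : Subgroup G :=
    { carrier := {v | (v ∈ V ∧ v ∈ Y) ∧ θ v 1 = 0}
      one_mem' := ⟨⟨one_mem _, one_mem _⟩, by rw [h0]; rfl⟩
      mul_mem' := fun {a b} ha hb => ⟨⟨mul_mem ha.1.1 hb.1.1, mul_mem ha.1.2 hb.1.2⟩, by
        rw [h3 _ ha.1.1 _ hb.1.1, Pi.add_apply, ha.2, hb.2, add_zero]⟩
      inv_mem' := fun {a} ha => ⟨⟨inv_mem ha.1.1, inv_mem ha.1.2⟩, by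
        rw [hinv _ ha.1.1, Pi.neg_apply, ha.2, neg_zero]⟩ }
  have hy : ∃ z ∈ A, θ z 0 ≠ 0 := by
    by_cases e : θ y 1 = 0
    · exact ⟨y, ⟨⟨y1, y2⟩, e⟩, fun e' => y3 (vec_ext e' e)⟩
    · obtain ⟨g, hg, a⟩ := h5 (u 1) (U_le_B (u_mem_U 1))
      obtain ⟨a1, a2⟩ := a y y1
      have e2 : θ (g * y * g⁻¹ * y⁻¹) = ![θ y 1, 0] := by
        rw [h3 _ a1 _ (inv_mem y1), a2, hinv _ y1]
        refine vec_ext ?_ ?_ <;> simp [mv_apply, u]
      exact ⟨g * y * g⁻¹ * y⁻¹, ⟨⟨mul_mem a1 (inv_mem y1), mul_mem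
        (conj_mem_of_mem_normalizer (hn hg) y2) (inv_mem y2)⟩, by rw [e2]; rfl⟩, by rw [e2]; exact e⟩
  obtain ⟨z, hz, hz'⟩ := hy
  obtain ⟨g, hg, a⟩ := h5 (SL2Torus.dg k) (dg_mem_B k)
  have hAY : A ≤ Y := fun v hv => hv.1.2
  obtain ⟨c, hc, e⟩ := exists_eig (A := A) (H6Basic.isMulCommutative_of_le hY hAY)
    (h1.to_le fun v hv => hv.1.1) (g := g) (fun v hv => ⟨⟨(a v hv.1.1).1,
      conj_mem_of_mem_normalizer (hn hg) hv.1.2⟩, by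
        rw [(a v hv.1.1).2, mv_apply, hv.2, mul_zero, add_zero]
        exact zero_mul _⟩) (fun v => θ v 0)
    (fun v hv w hw => by rw [h3 _ hv.1.1 _ hw.1.1]; rfl) k
    (fun v hv => by rw [(a v hv.1.1).2, mv_apply, hv.2, mul_zero, add_zero]; rfl) hz hz'
  exact ⟨g, hg, c, hAY hc, e⟩

/-! ### the section `F(p)` -/

theorem sec_f_of_action (hp2 : p ≠ 2) [Finite G] (ψ : G →* SL(2, ZMod p))
    (hψ : ∀ M ∈ B (ZMod p), ∃ g, ψ g = M) (κ : (Fin 2 → ZMod p) → G)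
    (hadd : ∀ c d, κ (c + d) = κ c * κ d)
    (hκ : ∀ c, κ c = 1 → c = 0) (h : ∀ x c, x * κ c * x⁻¹ = κ (mv (ψ x) c)) :
    Sec (fOver (ZMod p)) (⊤ : Subgroup G) ⊥ := by
  have : Fact (Nat.Prime 2) := ⟨Nat.prime_two⟩
  have h0 : κ 0 = 1 := by simpa using hadd 0 0
  have hneg : ∀ c, κ (-c) = (κ c)⁻¹ := fun c => by
    rw [eq_inv_iff_mul_eq_one, ← hadd, neg_add_cancel, h0]
  have hinj : ∀ c d, κ c = κ d → c = d := fun c d hcd => by
    have := hκ (c + -d) (by rw [hadd, hneg, hcd, mul_inv_cancel])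
    rwa [add_neg_eq_zero] at this
  have hpow : ∀ c (n : ℕ), κ (n • c) = κ c ^ n := fun c n => by
    induction n with
    | zero => rw [zero_smul, h0, pow_zero]
    | succ n ih => rw [succ_nsmul, hadd, ih, pow_succ]
  have hψκ : ∀ c, ψ (κ c) = 1 := fun c => eq_one_of_mulVec fun d => hinj _ _ (by
    rw [← h, ← hadd, add_comm, hadd, mul_inv_cancel_right])
  let U : Subgroup G :=
    { carrier := Set.range κ
      one_mem' := ⟨0, h0⟩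
      mul_mem' := by rintro _ _ ⟨c, rfl⟩ ⟨d, rfl⟩; exact ⟨_, hadd c d⟩
      inv_mem' := by rintro _ ⟨c, rfl⟩; exact ⟨_, hneg c⟩ }
  have hU : U.Normal := ⟨by rintro _ ⟨c, rfl⟩ g; exact ⟨_, (h g c).symm⟩⟩
  have hz : (zpowers (-1 : SL(2, ZMod p))).Normal :=
    normal_iff_top_le.2 (norm_of_centralizer (cent_symm (by
      rw [centralizer_top]
      exact zpowers_le_of_mem ((SL2Basic.mem_center_iff _).2 (Or.inr rfl)))))
  let Z : Subgroup G := (zpowers (-1 : SL(2, ZMod p))).comap ψ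
  obtain ⟨T, hT⟩ := exists_sylIn 2 Z
  have hTm : T.map ψ = zpowers (-1) := by
    have := hT.map ψ
    rw [map_comap_eq_self (by
      obtain ⟨g, hg⟩ := hψ _ neg_one_mem_B
      exact zpowers_le_of_mem ⟨g, hg⟩)] at this
    exact this.eq_of_isPGroup (isPGroup_zpowers (k := 1) (by simp))
  have hN : ∀ M ∈ B (ZMod p), ∃ n ∈ 𝐍 T, ψ n = M := fun M hM => by
    obtain ⟨g, rfl⟩ := hψ M hM
    obtain ⟨z, hz, hz'⟩ := hT.frattini (L := ⊤) norm_of_normal (mem_top g)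
    obtain ⟨t, ht, ht'⟩ : ψ z ∈ T.map ψ := hTm ▸ hz
    refine ⟨t * (z⁻¹ * g), mul_mem (le_normalizer ht) hz', ?_⟩
    rw [map_mul, map_mul, ht', map_inv, mul_inv_cancel_left]
  have hUN : ∀ c, κ c ∈ 𝐍 T → c = 0 := fun c hc => by
    obtain ⟨t, ht, ht'⟩ : (-1 : SL(2, ZMod p)) ∈ T.map ψ := hTm ▸ mem_zpowers _
    have h1 : κ (-c + -c) ∈ T := by
      have h2 := h t c
      rw [ht', neg_mv, mv_one] at h2
      rw [hadd]
      nth_rewrite 1 [← h2]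
      rw [hneg]
      have := mul_mem ht (conj_mem_of_mem_normalizer hc (inv_mem ht))
      simpa only [mul_assoc] using this
    obtain ⟨k, hk⟩ := isPGroup_iff_mem.1 hT.pg _ h1
    rw [← hpow] at hk
    have h3 := hκ _ hk
    rw [← two_nsmul, smul_smul, ← pow_succ, ← Nat.cast_smul_eq_nsmul (ZMod p), smul_eq_zero,
      Nat.cast_pow] at h3
    rcases h3 with h3 | h3
    · exact absurd (pow_eq_zero_iff (Nat.succ_ne_zero k) |>.1 h3) (by exact_mod_cast two_ne hp2)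
    · exact neg_eq_zero.1 h3
  have huniq : ∀ (x : G) c d, (κ c)⁻¹ * x ∈ 𝐍 T → (κ d)⁻¹ * x ∈ 𝐍 T → c = d := fun x c d h1 h2 => by
    have := hUN (-c + d) (by
      rw [hadd, hneg]
      simpa only [_root_.mul_inv_rev, inv_inv, mul_assoc, mul_inv_cancel_left] using
        mul_mem h1 (inv_mem h2))
    rwa [neg_add_eq_zero] at this
  have hex : ∀ x : ↥(U ⊔ 𝐍 T), ∃ c, (κ c)⁻¹ * x ∈ 𝐍 T := fun x => by
    obtain ⟨_, ⟨c, rfl⟩, n, hn, hx⟩ := (mem_sup_of_norm' norm_of_normal).1 x.2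
    exact ⟨c, by rw [← hx, inv_mul_cancel_left]; exact hn⟩
  choose d hd using hex
  let θ : ↥(U ⊔ 𝐍 T) →* qdOver (ZMod p) := MonoidHom.mk' (fun x => aff (ψ x) (d x)) fun x y => by
    rw [aff_mul, coe_mul, map_mul, aff_inj]
    refine ⟨rfl, huniq _ _ _ (hd _) ?_⟩
    have e1 : ψ x = ψ ((κ (d x))⁻¹ * x) := by rw [map_mul, map_inv, hψκ, inv_one, one_mul]
    rw [hadd, e1, ← h, coe_mul]
    have := mul_mem (hd x) (hd y)
    convert this using 1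
    group
  refine (sec_of_hom ((qdOver (ZMod p)).subtype.comp θ) (N := ⊥) (fun x hx => ?_)
    (L := fOver (ZMod p)) ((closure_le _).2 fun g hg => ?_) (MulEquiv.refl _)).mono le_top le_rfl
  · rw [show x = 1 from Subtype.ext hx]; exact map_one _
  · obtain ⟨M, c, e⟩ := exists_aff (F := ZMod p) ⟨g, mem_qd.2 hg.2⟩
    have e' : g = (aff M c).1 := congrArg Subtype.val e
    obtain ⟨n, hn, rfl⟩ := hN M (mem_B.2 (by
      have := hg.1; rw [e', aff_val] at this; exact this))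
    refine ⟨⟨κ c * n, mul_mem (mem_sup_left ⟨c, rfl⟩) (mem_sup_right hn)⟩, ?_⟩
    rw [e']
    refine congrArg Subtype.val (aff_inj.2 ⟨?_, ?_⟩ : θ _ = _)
    · rw [map_mul, hψκ, one_mul]
    · exact huniq _ _ _ (hd _) (by rw [inv_mul_cancel_left]; exact hn)

theorem sec_f_top (hp2 : p ≠ 2) [Finite G] {V : Subgroup G}
    (θ : G → Fin 2 → ZMod p) (hadd : ∀ v ∈ V, ∀ w ∈ V, θ (v * w) = θ v + θ w)
    (hs : ∀ c, ∃ v ∈ V, θ v = c) (h1 : ∀ x, ∃ M, Act θ V x M)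
    (h2 : ∀ M ∈ B (ZMod p), ∃ x, Act θ V x M) : Sec (fOver (ZMod p)) (⊤ : Subgroup G) ⊥ := by
  choose ψ0 hψ using h1
  have hψ0 : ∀ x, ∀ v ∈ V, θ (x * v * x⁻¹) = mv (ψ0 x) (θ v) := fun x v hv => (hψ x v hv).2
  have hconj : ∀ x, ∀ v ∈ V, x * v * x⁻¹ ∈ V := fun x v hv => (hψ x v hv).1
  choose s hsV hs using hs
  have huniq : ∀ x M, (∀ v ∈ V, θ (x * v * x⁻¹) = mv M (θ v)) → ψ0 x = M := fun x M h => by
    rw [← inv_mul_eq_one]
    refine eq_one_of_mulVec fun c => ?_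
    rw [mv_mul, ← hs c, ← h _ (hsV c), hψ0 _ _ (hsV c), mv_inv_mv]
  let ψ : G →* SL(2, ZMod p) := MonoidHom.mk' ψ0 fun x y => huniq _ _ fun v hv => by
    rw [mv_mul, ← hψ0 y v hv, ← hψ0 x _ (hconj y v hv)]
    congr 1; group
  have h0 : θ 1 = 0 := by simpa using hadd 1 (one_mem _) 1 (one_mem _)
  have hinv : ∀ v ∈ V, θ v⁻¹ = -θ v := fun v hv => by
    rw [eq_neg_iff_add_eq_zero, ← hadd _ (inv_mem hv) _ hv, inv_mul_cancel, h0]
  let M0 : Subgroup G :=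
    { carrier := {v | v ∈ V ∧ θ v = 0}
      one_mem' := ⟨one_mem _, h0⟩
      mul_mem' := fun {a b} ha hb => ⟨mul_mem ha.1 hb.1, by rw [hadd _ ha.1 _ hb.1, ha.2, hb.2, add_zero]⟩
      inv_mem' := fun {a} ha => ⟨inv_mem ha.1, by rw [hinv _ ha.1, ha.2, neg_zero]⟩ }
  have : M0.Normal := ⟨fun a ha g => ⟨hconj g a ha.1, by rw [hψ0 g a ha.1, ha.2, mv_zero]⟩⟩
  have hker : M0 ≤ ψ.ker := fun m hm => huniq _ _ fun v hv => by
    rw [hadd _ (mul_mem hm.1 hv) _ (inv_mem hm.1), hadd _ hm.1 _ hv, hinv _ hm.1, hm.2, mv_one]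
    simp
  let f := QuotientGroup.mk' M0
  have hf : ∀ v ∈ V, ∀ w ∈ V, θ v = θ w → f v = f w := fun v hv w hw e =>
    QuotientGroup.eq.2 (⟨mul_mem (inv_mem hv) hw, by
      rw [hadd _ (inv_mem hv) _ hw, hinv _ hv, e, neg_add_cancel]⟩ : v⁻¹ * w ∈ M0)
  have h := sec_f_of_action hp2 (QuotientGroup.lift M0 ψ hker) (fun M hM => by
      obtain ⟨x, hx⟩ := h2 M hM
      exact ⟨f x, huniq _ _ fun v hv => (hx v hv).2⟩) (fun c => f (s c)) (fun c d => by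
      rw [← map_mul]
      exact hf _ (hsV _) _ (mul_mem (hsV _) (hsV _)) (by rw [hadd _ (hsV _) _ (hsV _), hs, hs, hs]))
    (fun c hc => by
      rw [← hs c]; exact ((QuotientGroup.eq_one_iff _).1 hc : s c ∈ M0).2)
    (fun x c => by
      obtain ⟨x, rfl⟩ := QuotientGroup.mk'_surjective _ x
      rw [← map_inv, ← map_mul, ← map_mul]
      exact hf _ (hconj _ _ (hsV c)) _ (hsV _) (by rw [hψ0 _ _ (hsV c), hs, hs]; rfl))
  exact h.of_surjective_top (QuotientGroup.mk'_surjective _)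

theorem Conf.sec (hp2 : p ≠ 2) [Finite G] {L Y : Subgroup G} (h : Conf p L Y) :
    Sec (fOver (ZMod p)) L ⊥ := by
  obtain ⟨V, θ, -, h2, h3, h4, h5, -⟩ := h
  have h0 : θ 1 = 0 := by simpa using h3 1 (one_mem _) 1 (one_mem _)
  have hinv : ∀ v ∈ V, θ v⁻¹ = -θ v := fun v hv => by
    rw [eq_neg_iff_add_eq_zero, ← h3 _ (inv_mem hv) _ hv, inv_mul_cancel, h0]
  let X : Subgroup G :=
    { carrier := {g | g ∈ L ∧ ∃ M, Act θ V g M}
      one_mem' := ⟨one_mem _, 1, fun v hv => by simpa [mv_one] using hv⟩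
      mul_mem' := by
        rintro a b ⟨ha, M, hM⟩ ⟨hb, N, hN⟩
        refine ⟨mul_mem ha hb, M * N, fun v hv => ?_⟩
        rw [show a * b * v * (a * b)⁻¹ = a * (b * v * b⁻¹) * a⁻¹ by group, mv_mul, ← (hN v hv).2]
        exact hM _ (hN v hv).1
      inv_mem' := by
        rintro a ⟨ha, M, hM⟩
        have hn : a ∈ 𝐍 V := mem_normalizer_of_cj_le (cj_le_iff'.2 fun x hx => (hM x hx).1)
        refine ⟨inv_mem ha, M⁻¹, fun v hv => ?_⟩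
        have h1 := conj_mem_of_mem_normalizer (inv_mem hn) hv
        refine ⟨h1, ?_⟩
        have := (hM _ h1).2
        rw [show a * (a⁻¹ * v * a⁻¹⁻¹) * a⁻¹ = v by group] at this
        rw [this, mv_inv_mv] }
  have hVX : V ≤ X := fun v hv => ⟨h2 hv, 1, fun w hw => ⟨mul_mem (mul_mem hv hw) (inv_mem hv), by
    rw [h3 _ (mul_mem hv hw) _ (inv_mem hv), h3 _ hv _ hw, hinv _ hv, mv_one]; abel⟩⟩
  refine (sec_top_iff.1 (sec_f_top hp2 (G := X) (V := V.subgroupOf X) (fun x => θ x)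
    (fun v hv w hw => h3 _ hv _ hw) (fun c => ?_) (fun x => ?_) fun M hM => ?_)).mono
    (fun g hg => hg.1) le_rfl
  · obtain ⟨v, hv, e⟩ := h4 c
    exact ⟨⟨v, hVX hv⟩, hv, e⟩
  · obtain ⟨M, h⟩ := x.2.2
    exact ⟨M, fun v hv => h _ hv⟩
  · obtain ⟨x, hx, h⟩ := h5 M hM
    exact ⟨⟨x, hx, M, h⟩, fun v hv => h _ hv⟩

end CA.ZJC
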