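import Cfsg.Agent.Lib.Loc.ZJC1
import Cfsg.Agent.Lib.Loc.AmbM

/-!
Glauberman's Theorem C, part 2: a quadratic element in a minimal situation yields a configuration.
-/

set_option autoImplicit false

namespace CA.ZJC

open Subgroup Cfsg CA.Amb CA.AmbSyl CA.AmbCore CA.AmbRes CA.AmbChar CA.H6Stab CA.H6Ctl CA.H6Qd
  CA.SL2Unip CA.H6Quad CA.H6EA CA.H6QdA CA.AmbSpe CA.AmbWC Matrix TensorProduct
open CA.H6J hiding Z
open scoped commutatorElement MatrixGroups

variable {G : Type*} [Group G] {p : ℕ} [hp : Fact p.Prime]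

section field
variable {K : Type*} [Field K]

theorem mv_smul (M : SL(2, K)) (k : K) (c : Fin 2 → K) : mv M (k • c) = k • mv M c :=
  mulVec_smul _ _ _

theorem plane [CharP K p] (hp2 : p ≠ 2) (H : Subgroup SL(2, K)) [Finite H] {l : K} (hl : l ≠ 0)
    (h1 : E12 1 ∈ H) (h2 : E21 l ∈ H) (c0 : K) :
    ∃ w1 : Fin 2 → K, ∃ x ∈ H, ∃ y ∈ H, mv x ![c0, 0] = ![c0, 0] ∧ mv x w1 = ![c0, 0] + w1 ∧
      mv y ![c0, 0] = ![c0, 0] - w1 ∧ mv y w1 = w1 := by
  obtain ⟨L, hL, ⟨e⟩⟩ := SL2Dickson.exists_sl2p p hp2 H (a := E12 1) (b := E21 l)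
    h1 h2 (m := 1) (n := 1) (by rw [pow_one, E12_pow_char]) (by rw [pow_one, E21_pow_char])
    (E12_E21_ne hl)
  let j : SL(2, ZMod p) →* SL(2, K) := L.subtype.comp e.symm.toMonoidHom
  have hj : Function.Injective j := L.subtype_injective.comp e.symm.injective
  have hx : j (E12 1) ∈ H := hL (e.symm _).2
  have hy : j (E21 (-1)) ∈ H := hL (e.symm _).2
  obtain ⟨T, hT, hET⟩ := exists_sylIn_ge (p := p) (Q := zpowers (E12 (1 : K))) (L := H)
    (isPGroup_zpowers (k := 1) (by rw [pow_one, E12_pow_char])) (zpowers_le_of_mem h1)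
  obtain ⟨g, hg, hgT⟩ := hT.exists_conj_le (Q := zpowers (j (E12 1)))
    (isPGroup_zpowers (k := 1) (by rw [pow_one, ← map_pow, E12_pow_char, map_one]))
    (zpowers_le_of_mem hx)
  let j' := (MulAut.conj g).toMonoidHom.comp j
  have hj' : Function.Injective j' := (conj_injective g).comp hj
  have hxT : j' (E12 1) ∈ T := hgT (conj_mem_cj.2 (mem_zpowers _))
  have hyH : j' (E21 (-1)) ∈ H := mul_mem (mul_mem hg hy) (inv_mem hg)
  obtain ⟨w0, w1, hw, f1, f2, f3, f4⟩ := braid_vectors (p := p) (x := j' (E12 1)) (y := j' (E21 (-1)))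
    (by rw [← map_pow, E12_pow_char, map_one]) (by rw [← map_pow, E21_pow_char, map_one])
    (by rw [← map_mul, ← map_mul, braid_E, map_mul, map_mul])
    (fun h => E12_ne_E21 (hj' h))
  generalize j' (E12 1) = x at *
  generalize j' (E21 (-1)) = y at *
  obtain ⟨k1, hk1⟩ := isPGroup_iff_mem.1 hT.pg _ hxT
  obtain ⟨k2, hk2⟩ := isPGroup_iff_mem.1 hT.pg _ (mul_mem hxT (hET (mem_zpowers _)))
  have t1 := trace_eq_two_of_pow hk1
  have t2 := trace_eq_two_of_pow hk2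
  simp only [sl_mul_apply, E12_val, of_apply, cons_val', cons_val_zero, cons_val_one,
    cons_val_fin_one, mul_one, mul_zero, add_zero] at t2
  have x10 : x.1 1 0 = 0 := by linear_combination t2 - t1
  have hd := x.2
  rw [det_fin_two, x10, mul_zero, sub_zero] at hd
  have x11 : x.1 1 1 = 1 := by
    have : (x.1 1 1 - 1) ^ 2 = 0 := by linear_combination (x.1 1 1) * t1 - hd
    exact sub_eq_zero.1 (pow_eq_zero_iff two_ne_zero |>.1 this)
  have x00 : x.1 0 0 = 1 := by linear_combination t1 - x11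
  have hw0 : w0 ≠ 0 := by
    rintro rfl
    rw [mv_zero, zero_sub, eq_comm, neg_eq_zero] at f3
    exact hw f3
  have g0 := congrFun f2 0
  have g1 := congrFun f2 1
  rw [mv_apply, Pi.add_apply] at g0 g1
  rw [x10, x11] at g1
  have w01 : w0 1 = 0 := by linear_combination -g1
  have w00 : w0 0 ≠ 0 := fun e => hw0 (vec_ext e w01)
  have e0 : (c0 / w0 0) • w0 = ![c0, 0] := vec_ext (by simp [w00]) (by simp [w01])
  refine ⟨(c0 / w0 0) • w1, x, hT.le hxT, y, hyH, ?_, ?_, ?_, ?_⟩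
  · rw [← e0, mv_smul, f1]
  · rw [← e0, mv_smul, f2, smul_add]
  · rw [← e0, mv_smul, f3, smul_sub]
  · rw [mv_smul, f4]

theorem neg_one_mem [CharP K p] (hp2 : p ≠ 2) (H : Subgroup SL(2, K)) [Finite H] {l : K}
    (hl : l ≠ 0) (h1 : E12 1 ∈ H) (h2 : E21 l ∈ H) : -1 ∈ H := by
  obtain ⟨L, hL, ⟨e⟩⟩ := SL2Dickson.exists_sl2p p hp2 H (a := E12 1) (b := E21 l)
    h1 h2 (m := 1) (n := 1) (by rw [pow_one, E12_pow_char]) (by rw [pow_one, E21_pow_char])
    (E12_E21_ne hl)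
  let j : SL(2, ZMod p) →* SL(2, K) := L.subtype.comp e.symm.toMonoidHom
  have hj : Function.Injective j := L.subtype_injective.comp e.symm.injective
  have h3 : (2 : K) ≠ 0 := Ring.two_ne_zero (by rwa [ringChar.eq K p])
  rw [← SL2Basic.eq_neg_one_of_mul_self h3 (j (-1)) (fun h => neg_one_not_mem_U (two_ne hp2)
    (by rw [hj (h.trans (map_one j).symm)]; exact one_mem _)) (by rw [← map_mul]; simp)]
  exact hL (e.symm _).2

theorem conf_of_sigma [Finite G] [CharP K p] [Algebra (ZMod p) K] (hp2 : p ≠ 2) {X Y M W : Subgroup G}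
    (φ : X →* SL(2, K)) (σ : (Fin 2 → K) → G) {l : K} (hl : l ≠ 0) (h1 : E12 1 ∈ φ.range)
    (h2 : E21 l ∈ φ.range) (hY : IsPGroup p Y) (hYM : Y ≤ M) (hσ : ∀ c, σ c ∈ Y)
    (hadd : ∀ c d, σ (c + d) = σ c * σ d)
    (heq : ∀ (g : X) c, g * σ c * (g : G)⁻¹ = σ (mv (φ g) c))
    (hM : ∀ g : X, (φ g).1 1 0 = 0 → (g : G) ∈ M) {c0 : K} (hc : σ ![c0, 0] ≠ 1)
    (hW : σ ![c0, 0] ∈ W) : Conf p M W := by
  have : Finite φ.range := Finite.of_surjective _ φ.rangeRestrict_surjective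
  obtain ⟨w1, _, ⟨x, rfl⟩, _, ⟨y, rfl⟩, f1, f2, f3, f4⟩ := plane hp2 φ.range hl h1 h2 c0
  have h0 : σ 0 = 1 := by simpa using hadd 0 0
  have hneg : ∀ c, σ (-c) = (σ c)⁻¹ := fun c => by
    rw [eq_inv_iff_mul_eq_one, ← hadd, neg_add_cancel, h0]
  have hc0 : c0 ≠ 0 := by
    rintro rfl
    exact hc (by rw [← h0]; congr 1; exact vec_ext rfl rfl)
  set w0 : Fin 2 → K := ![c0, 0] with hw0
  let ι := algebraMap (ZMod p) K
  let κ : (Fin 2 → ZMod p) → Fin 2 → K := fun c => ι (c 0) • w0 + ι (c 1) • w1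
  have hκ : ∀ c d, κ (c + d) = κ c + κ d := fun c d => by
    simp only [κ, Pi.add_apply, map_add, add_smul]; abel
  have hreal : ∀ N : SL(2, ZMod p), ∃ g : X, ∀ c, mv (φ g) (κ c) = κ (mv N c) := fun N => by
    have hN : N ∈ Subgroup.closure {(E12 1 : SL(2, ZMod p)), E21 (-1)} := by
      rw [closure_E]; exact mem_top N
    induction hN using Subgroup.closure_induction with
    | mem N hN =>
      rcases hN with rfl | rfl
      · refine ⟨x, fun c => ?_⟩
        simp only [κ, mv_add, mv_smul, f1, f2, mv_apply, E12_val, of_apply, cons_val', cons_val_zero,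
          cons_val_one, cons_val_fin_one, one_mul, zero_mul, zero_add, map_add, add_smul, smul_add]
        abel
      · refine ⟨y, fun c => ?_⟩
        simp only [κ, mv_add, mv_smul, f3, f4, mv_apply, E21_val, of_apply, cons_val', cons_val_zero,
          cons_val_one, cons_val_fin_one, one_mul, zero_mul, add_zero, map_add, add_smul, smul_sub,
          neg_mul, map_neg, neg_smul]
        abel
    | one => exact ⟨1, fun c => by rw [map_one, mv_one, mv_one]⟩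
    | mul a b _ _ ha hb =>
      obtain ⟨g, hg⟩ := ha
      obtain ⟨g', hg'⟩ := hb
      exact ⟨g * g', fun c => by rw [map_mul, mv_mul, hg', hg, mv_mul]⟩
    | inv a _ ha =>
      obtain ⟨g, hg⟩ := ha
      exact ⟨g⁻¹, fun c => by
        nth_rewrite 1 [← mv_mv_inv a c]
        rw [map_inv, ← hg, mv_inv_mv]⟩
  have hact : ∀ N : SL(2, ZMod p), ∃ g : X, (∀ c, mv (φ g) (κ c) = κ (mv N c)) ∧
      ∀ c, g * σ (κ c) * (g : G)⁻¹ = σ (κ (mv N c)) := fun N =>
    let ⟨g, hg⟩ := hreal N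
    ⟨g, hg, fun c => by rw [heq, hg]⟩
  have hκ0 : κ ![1, 0] = w0 := by simp [κ]
  let U : Subgroup G :=
    { carrier := Set.range fun c => σ (κ c)
      one_mem' := ⟨0, by simp [κ, h0]⟩
      mul_mem' := by rintro _ _ ⟨c, rfl⟩ ⟨d, rfl⟩; exact ⟨c + d, by simp only [hκ, hadd]⟩
      inv_mem' := by
        rintro _ ⟨c, rfl⟩
        refine ⟨-c, ?_⟩
        simp only [← hneg, κ, Pi.neg_apply, map_neg, neg_smul, neg_add] }
  have hker : ∀ c, σ (κ c) = 1 → c = 0 := fun c h => by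
    by_contra hne
    obtain ⟨N, hN⟩ := exists_mulVec_eq' hne (d := ![1, 0]) (fun e => by simpa using congrFun e 0)
    obtain ⟨g, -, hg⟩ := hact N
    have := hg c
    rw [h, hN, hκ0, mul_one, mul_inv_cancel] at this
    exact hc this.symm
  have hinj : Function.Injective fun c => σ (κ c) := fun c d h => by
    have h' : σ (κ c) = σ (κ d) := h
    have e : κ (-d) = -κ d := by simp only [κ, Pi.neg_apply, map_neg, neg_smul, neg_add]
    have := hker (c + -d) (by rw [hκ, hadd, e, hneg, h', mul_inv_cancel])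
    rwa [add_neg_eq_zero] at this
  have e := Function.leftInverse_invFun hinj
  have hUY : U ≤ Y := by rintro _ ⟨c, rfl⟩; exact hσ _
  refine ⟨U, Function.invFun fun c => σ (κ c), hY.to_le hUY, hUY.trans hYM, ?_,
    fun c => ⟨_, ⟨c, rfl⟩, e c⟩, fun N hN => ?_, σ w0, ⟨![1, 0], congrArg σ hκ0⟩, hW, ?_⟩
  · rintro _ ⟨c, rfl⟩ _ ⟨d, rfl⟩
    simp only [← hadd, ← hκ]
    rw [e, e, e]
  · obtain ⟨g, hg, hg'⟩ := hact N
    refine ⟨g, hM g ?_, ?_⟩
    · have := congrFun (hg ![1, 0]) 1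
      simp only [κ, mv_apply, mem_B.1 hN, hw0] at this
      simpa [hc0] using this
    · rintro _ ⟨c, rfl⟩
      simp only [hg']
      exact ⟨⟨_, rfl⟩, by rw [e, e]⟩
  · rw [← hκ0, e]
    exact fun e => by simpa using congrFun e 0

end field

theorem exists_sigma [Finite G] {Y : Subgroup G} (hY : IsAb p Y) {a b : G} (ha : a ∈ 𝐍 Y)
    (hb : b ∈ 𝐍 Y) (hqa : ⁅⁅Y, zpowers a⁆, zpowers a⁆ = ⊥) (hqb : ⁅⁅Y, zpowers b⁆, zpowers b⁆ = ⊥)
    (hnp : ¬ pResidualOf p (closure {a, b}) ≤ 𝐂 Y) :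
    ∃ (n : ℕ) (l : GaloisField p n) (φ : (closure {a, b} : Subgroup G) →* SL(2, GaloisField p n))
      (σ : (Fin 2 → GaloisField p n) → G), n ≠ 0 ∧ l ≠ 0 ∧
      φ ⟨a, subset_closure (Or.inl rfl)⟩ = E12 1 ∧ φ ⟨b, subset_closure (Or.inr rfl)⟩ = E21 l ∧
      (∀ c, σ c ∈ Y) ∧ (∀ c d, σ (c + d) = σ c * σ d) ∧ σ ![1, 0] ≠ 1 ∧
      ∀ (g : (closure {a, b} : Subgroup G)) c, g * σ c * (g : G)⁻¹ = σ (mv (φ g) c) := by
  have hH : closure {a, b} ≤ 𝐍 Y := pair_le ha hb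
  obtain ⟨n, l, φ, v, hn, hl, e1, e2, hv, hφ, -⟩ := exists_hom_of_quad hY hH
    (subset_closure (Or.inl rfl)) (subset_closure (Or.inr rfl)) rfl hqa hqb hnp
  let ι : (Fin 2 → GaloisField p n) →+ GaloisField p n ⊗[ZMod p] EA hY :=
    (Fintype.linearCombination (GaloisField p n) v).toAddMonoidHom
  have hι : ∀ c, ι c = ∑ i, c i • v i := fun c => Fintype.linearCombination_apply (GaloisField p n) v c
  have hιφ : ∀ h c, repK _ hY hH h (ι c) = ι (mv (φ h) c) := fun h c => by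
    rw [hι, hι, map_sum]
    simp only [map_smul, hφ, Fin.sum_univ_two, mv_apply, add_smul, smul_add, smul_smul, mul_comm]
    abel
  obtain ⟨π, hπ, hπ'⟩ := exists_proj (e := ι ![1, 0]) fun h => by
    have := congrFun (hv _ (by rw [← hι, h])) 0
    simp at this
  refine ⟨n, l, φ, fun c => val (π (ι c)), hn, hl, e1, e2, fun c => val_mem _, fun c d => ?_,
    fun h => hπ (val_eq_one_iff.1 h), fun g c => ?_⟩
  · simp only [map_add, val_add]
  · simp only
    rw [← hιφ, repK_apply, hπ', val_rep]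

theorem conf_top [Finite G] (hp2 : p ≠ 2) {V W M Q : Subgroup G} {x h : G} [V.Normal] [Q.Normal]
    (hV : IsMulCommutative V) (hWV : W ≤ V) (hgen : ncl W ⊤ = V) (hMW : M ≤ 𝐍 W)
    (hU : UMax (zpowers x ⊔ Q) M ⊤) (hQ : IsPGroup p Q) (hVQ : V ≤ Q)
    (htop : Subgroup.closure {x, h * x * h⁻¹} ⊔ Q = ⊤) (hx : IsPGroup p (zpowers x))
    (hq : ⁅⁅V, zpowers x⁆, zpowers x⁆ = ⊥) (hne : ⁅V, pResidualOf p (⊤ : Subgroup G)⁆ ≠ ⊥)
    (hmin : ∀ N : Subgroup G, ⊤ ≤ 𝐍 N → N ≤ V → N ≠ ⊥ → ⁅V, pResidualOf p (⊤ : Subgroup G)⁆ ≤ N) :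
    Conf p M W := by
  set E := pResidualOf p (⊤ : Subgroup G) with hE
  have hEn : E.Normal := normal_iff_top_le.2 (norm_res p ⊤)
  set Y := ⁅V, E⁆ with hYd
  have hVp : IsPGroup p V := hQ.to_le hVQ
  have hYV : Y ≤ V := commutator_le_left_of_norm norm_of_normal
  have hYp : IsPGroup p Y := hVp.to_le hYV
  have hY0 := H6Basic.isMulCommutative_of_le hV hYV
  have hY : IsAb p Y := ⟨hY0, fun y hy => ((mem_omegaOne_iff hY0).1 (hmin (omegaOne p Y)
    (norm_of_normal.trans (normalizer_le_normalizer_omegaOne p Y)) ((omegaOne_le p Y).trans hYV)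
    (omegaOne_ne_bot hYp hne) hy)).2⟩
  have hQY : Q ≤ 𝐂 Y := cent_symm ((hmin (Y ⊓ 𝐂 Q) norm_of_normal (inf_le_left.trans hYV)
    (inf_centralizer_ne_bot hQ hYp norm_of_normal hne)).trans inf_le_right)
  have hEY : ¬ E ≤ 𝐂 Y := fun e => hne (comm_eq_bot_of_le' (res_le_cent_of_comm_le hVp norm_of_normal
    (cent_symm e)))
  set X := Subgroup.closure {x, h * x * h⁻¹} with hX
  have hxX : x ∈ X := subset_closure (Or.inl rfl)
  have hx'X : h * x * h⁻¹ ∈ X := subset_closure (Or.inr rfl)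
  have hnp : ¬ pResidualOf p X ≤ 𝐂 Y := fun e => hEY (res_le_of_pow fun g _ => by
    obtain ⟨a, ha, q, hq, rfl⟩ := (mem_sup_of_norm (H := X) (N := Q) norm_of_normal).1
      (htop ▸ mem_top g)
    obtain ⟨k, hk⟩ := exists_pow_mem_res (p := p) ha
    refine ⟨k, (QuotientGroup.eq_one_iff _).1 ?_⟩
    rw [QuotientGroup.mk_pow, QuotientGroup.mk_mul, (QuotientGroup.eq_one_iff q).2 (hQY hq), mul_one,
      ← QuotientGroup.mk_pow, QuotientGroup.eq_one_iff]
    exact e hk)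
  have hq1 : ⁅⁅Y, zpowers x⁆, zpowers x⁆ = ⊥ :=
    le_bot_iff.1 (hq ▸ commutator_mono (commutator_mono hYV le_rfl) le_rfl)
  have hq2 : ⁅⁅Y, zpowers (h * x * h⁻¹)⁆, zpowers (h * x * h⁻¹)⁆ = ⊥ := by
    rw [← cj_zpowers, ← cj_eq_self_of_normal h Y, ← cj_commutator, ← cj_commutator, hq1, cj_bot]
  obtain ⟨n, l, φ, σ, hn, hl, e1, e2, hσ, hadd, hσ1, heq⟩ := exists_sigma hY
    (norm_of_normal (mem_top x)) (norm_of_normal (mem_top _)) hq1 hq2 hnp
  have h0 : σ 0 = 1 := by simpa using hadd 0 0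
  have hneg : ∀ c, σ (-c) = (σ c)⁻¹ := fun c => by
    rw [eq_inv_iff_mul_eq_one, ← hadd, neg_add_cancel, h0]
  have hcY : ∀ q ∈ 𝐂 Y, ∀ c, q * σ c * q⁻¹ = σ c := fun q hq c => by
    rw [← mem_centralizer_sub.1 hq _ (hσ c), mul_inv_cancel_right]
  let R : Subgroup G :=
    { carrier := Set.range σ
      one_mem' := ⟨0, h0⟩
      mul_mem' := by rintro _ _ ⟨c, rfl⟩ ⟨d, rfl⟩; exact ⟨_, hadd c d⟩
      inv_mem' := by rintro _ ⟨c, rfl⟩; exact ⟨_, hneg c⟩ }
  have hsurj : Y ≤ R := by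
    refine hmin R (htop ▸ sup_le ?_ ?_) (by rintro _ ⟨c, rfl⟩; exact hYV (hσ c))
      fun e => hσ1 (mem_bot.1 (e ▸ (⟨_, rfl⟩ : σ ![1, 0] ∈ R)))
    · refine le_normalizer_iff_cj.2 fun g hg => cj_le_iff'.2 ?_
      rintro _ ⟨c, rfl⟩
      exact ⟨_, (heq ⟨g, hg⟩ c).symm⟩
    · refine le_normalizer_iff_cj.2 fun g hg => cj_le_iff'.2 ?_
      rintro _ ⟨c, rfl⟩
      exact ⟨_, (hcY g (hQY hg) c).symm⟩
  let Y₁ : Subgroup G :=
    { carrier := Set.range fun k => σ ![k, 0]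
      one_mem' := ⟨0, by rw [← h0]; exact congrArg σ (vec_ext rfl rfl)⟩
      mul_mem' := by
        rintro _ _ ⟨c, rfl⟩ ⟨d, rfl⟩
        exact ⟨c + d, by rw [← hadd]; exact congrArg σ (vec_ext rfl (add_zero _).symm)⟩
      inv_mem' := by
        rintro _ ⟨c, rfl⟩
        exact ⟨-c, by rw [← hneg]; exact congrArg σ (vec_ext rfl neg_zero.symm)⟩ }
  have hN1 : ∀ g : X, (φ g).1 1 0 = 0 → (g : G) ∈ 𝐍 Y₁ := fun g hg =>
    mem_normalizer_of_cj_le (cj_le_iff'.2 (by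
      rintro _ ⟨c, rfl⟩
      refine ⟨(φ g).1 0 0 * c, ?_⟩
      rw [heq]
      exact congrArg σ (vec_ext (by simp [mv_apply]) (by simp [mv_apply, hg]))))
  have hC1 : 𝐂 Y ≤ 𝐍 Y₁ := fun g hg => mem_normalizer_of_cj_le (cj_le_iff'.2 (by
    rintro _ ⟨c, rfl⟩
    exact ⟨c, (hcY g hg _).symm⟩))
  have hx1 : ∀ k, x * σ ![k, 0] * x⁻¹ = σ ![k, 0] := fun k => by
    rw [heq ⟨x, hxX⟩, e1]
    exact congrArg σ (vec_ext (by simp [mv_apply, E12_val]) (by simp [mv_apply, E12_val]))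
  have hM1 : 𝐍 Y₁ ≤ M := by
    refine hU.max' (sup_le (zpowers_le_of_mem (hN1 ⟨x, hxX⟩ (by rw [e1]; rfl))) (hQY.trans hC1))
      le_top fun e => hnp ((res_le _ _).trans ?_)
    have h1 : Y ≤ Y₁ := hmin Y₁ e (by rintro _ ⟨c, rfl⟩; exact hYV (hσ _))
      fun e => hσ1 (mem_bot.1 (e ▸ (⟨1, rfl⟩ : σ ![1, 0] ∈ Y₁)))
    have h2 : x ∈ 𝐂 Y := mem_centralizer_sub.2 fun y hy => by
      obtain ⟨k, rfl⟩ := h1 hy
      exact (mul_inv_eq_iff_eq_mul.1 (hx1 k)).symm
    exact pair_le h2 (Normal.conj_mem inferInstance _ h2 h)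
  have hWY : W ⊓ Y ≠ ⊥ := fun hb => by
    have a1 : ∀ k ∈ M, k ∈ E → k ∈ 𝐂 W := fun k hk hk' => mem_centralizer_sub.2 fun w hw => by
      have : w * (k * w⁻¹ * k⁻¹) ∈ W ⊓ Y :=
        mem_inf.2 ⟨mul_mem hw (conj_mem_of_mem_normalizer (hMW hk) (inv_mem hw)), by
          simpa only [commutatorElement_def, mul_assoc] using commutator_mem_commutator (hWV hw) hk'⟩
      rw [hb, mem_bot] at this
      exact mul_inv_eq_one.1 (by rw [← this]; group)
    have a2 : ∀ N : Subgroup G, N.Normal → N ≤ 𝐂 W → N ≤ 𝐂 V := fun N _ hN =>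
      cent_symm (hgen ▸ ncl_le_cent norm_of_normal (cent_symm hN))
    have a3 : 𝐂 Y ⊓ E ≤ 𝐂 V := a2 _ inferInstance fun k hk => a1 k (hM1 (hC1 hk.1)) hk.2
    have : Finite φ.range := Finite.of_surjective _ φ.rangeRestrict_surjective
    obtain ⟨t₀, ht₀⟩ := neg_one_mem hp2 φ.range hl ⟨_, e1⟩ ⟨_, e2⟩
    obtain ⟨k, hk⟩ := exists_pow_mem_res (p := p) (mem_top (t₀ : G))
    have ht : φ (t₀ ^ p ^ k) = -1 := by
      rw [map_pow, ht₀, Odd.neg_one_pow ((hp.out.odd_of_ne_two hp2).pow)]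
    have htE : ((t₀ ^ p ^ k : X) : G) ∈ E := hk
    generalize t₀ ^ p ^ k = t at ht htE
    have hinv : ∀ y ∈ Y, t * y * (t : G)⁻¹ = y⁻¹ := fun y hy => by
      obtain ⟨c, rfl⟩ := hsurj hy
      rw [heq, ht, neg_mv, mv_one, hneg]
    have htW := a1 t (hM1 (hN1 t (by rw [ht]; simp))) htE
    refine hne (comm_eq_bot_of_le' (a2 E hEn fun g hg => mem_centralizer_sub.2 fun w hw => ?_))
    have b1 : (t : G)⁻¹ * (g⁻¹ * t * g) ∈ 𝐂 V := a3 (mem_inf.2 ⟨mem_centralizer_sub.2 fun y hy => by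
      have c1 : g * y * g⁻¹ ∈ Y := Normal.conj_mem inferInstance _ hy g
      have c2 : (g⁻¹ * t * g) * y * (g⁻¹ * t * g)⁻¹ = t * y * (t : G)⁻¹ := by
        calc _ = g⁻¹ * (t * (g * y * g⁻¹) * (t : G)⁻¹) * g := by group
          _ = _ := by rw [hinv _ c1, hinv _ hy]; group
      calc _ = (t : G)⁻¹ * (t * y * (t : G)⁻¹) * (g⁻¹ * t * g) := by group
        _ = _ := by rw [← c2]; group,
      mul_mem (inv_mem htE) (by simpa using hEn.conj_mem _ htE g⁻¹)⟩)
    have b2 := mem_centralizer_sub.1 b1 w (hWV hw)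
    have b3 := mem_centralizer_sub.1 htW w hw
    have b4 : w * (g * w⁻¹ * g⁻¹) ∈ Y := by
      simpa only [commutatorElement_def, mul_assoc] using commutator_mem_commutator (hWV hw) hg
    have b5 : t * (w * (g * w⁻¹ * g⁻¹)) * (t : G)⁻¹ = w * (g * w⁻¹ * g⁻¹) := by
      have c1 : (g⁻¹ * t * g) * w * (g⁻¹ * t * g)⁻¹ = w := by
        calc _ = t * (((t : G)⁻¹ * (g⁻¹ * t * g)) * w) * (g⁻¹ * t * g)⁻¹ := by group
          _ = t * w * (t : G)⁻¹ := by rw [← b2]; group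
          _ = w := by rw [← b3]; group
      calc _ = (t * w) * (t : G)⁻¹ * (g * ((g⁻¹ * t * g) * w * (g⁻¹ * t * g)⁻¹)⁻¹ * g⁻¹) := by group
        _ = _ := by rw [c1, ← b3]; group
    have b6 := H6Repl.eq_one_of_sq_eq_one hp2 hYp b4 (by
      rw [sq]; nth_rewrite 1 [← b5]; rw [hinv _ b4, inv_mul_cancel])
    exact mul_inv_eq_one.1 (by rw [← b6]; group)
  have hxM : zpowers x ≤ M := le_sup_left.trans hU.le
  obtain ⟨⟨w, ⟨w1, w2⟩, w3⟩, hw⟩ := (ne_bot_iff_exists_ne_one.1 (inf_centralizer_ne_bot hx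
    (hYp.to_le inf_le_right) (norm_inf (hxM.trans hMW) norm_of_normal) hWY) :)
  obtain ⟨c, rfl⟩ := hsurj w2
  have hw' : σ c ≠ 1 := fun e => hw (Subtype.ext e)
  have hα : ∀ d, σ d * σ ![d 1, 0] = x * σ d * x⁻¹ := fun d => by
    rw [heq ⟨x, hxX⟩, e1, ← hadd]
    exact congrArg σ (vec_ext (by simp [mv_apply, E12_val]) (by simp [mv_apply, E12_val]))
  have hβ : ∀ d, σ d * σ ![0, l * d 0] = h * x * h⁻¹ * σ d * (h * x * h⁻¹)⁻¹ := fun d => by
    rw [heq ⟨_, hx'X⟩, e2, ← hadd]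
    exact congrArg σ (vec_ext (by simp [mv_apply, E21_val]) (by simp [mv_apply, E21_val, add_comm]))
  have k1 : ∀ k, σ ![k, 0] = 1 → σ ![0, l * k] = 1 := fun k hk => by
    have := hβ ![k, 0]
    rwa [hk, one_mul, mul_one, mul_inv_cancel] at this
  have k2 : ∀ k, σ ![0, k] = 1 → σ ![k, 0] = 1 := fun k hk => by
    have := hα ![0, k]
    rwa [hk, one_mul, mul_one, mul_inv_cancel] at this
  have k3 : ∀ m : ℕ, ∀ k, σ ![k, 0] = 1 → σ ![0, l ^ (m + 1) * k] = 1 := fun m => by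
    induction m with
    | zero => simpa using k1
    | succ m ih => exact fun k hk => by rw [pow_succ', mul_assoc]; exact k1 _ (k2 _ (ih k hk))
  have k4 : σ ![c 1, 0] = 1 := by
    have := hα c
    rwa [mem_centralizer_sub.1 w3 x (mem_zpowers x), mul_inv_cancel_right, mul_eq_left] at this
  have k5 : σ ![0, c 1] = 1 := by
    obtain ⟨m, hm⟩ := Nat.exists_eq_add_one_of_ne_zero (orderOf_pos (Units.mk0 l hl)).ne'
    have : l ^ (m + 1) = 1 := by
      have := congrArg Units.val (pow_orderOf_eq_one (Units.mk0 l hl))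
      rwa [hm] at this
    simpa [this] using k3 m _ k4
  have k6 : σ c = σ ![c 0, 0] := by
    rw [← mul_one (σ ![c 0, 0]), ← k5, ← hadd]
    exact congrArg σ (vec_ext (add_zero _).symm (zero_add _).symm)
  exact conf_of_sigma hp2 φ σ hl ⟨_, e1⟩ ⟨_, e2⟩ hYp (hYV.trans (hVQ.trans (le_sup_right.trans hU.le)))
    hσ hadd heq (fun g hg => hM1 (hN1 g hg)) (k6 ▸ hw') (k6 ▸ w1)

theorem conf_amb [Finite G] (hp2 : p ≠ 2) {L V W D M Q : Subgroup G} {x h : G} (hLV : L ≤ 𝐍 V)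
    (hLD : L ≤ 𝐍 D) (hDW : D ≤ W) (hWV : W ≤ V) (hVQ : V ≤ Q) (h1 : ⁅V, V⁆ ≤ D)
    (hgen : ncl W L = V) (hMW : M ≤ 𝐍 W) (hLW : ¬ L ≤ 𝐍 W)
    (hU : UMax (zpowers x ⊔ Q) M L) (hQ : IsPGroup p Q) (hLQ : L ≤ 𝐍 Q) (hh : h ∈ L)
    (htop : zpowers x ⊔ cj h (zpowers x) ⊔ Q = L) (hx : IsPGroup p (zpowers x))
    (hq : ⁅⁅V, zpowers x⁆, zpowers x⁆ ≤ D) : Conf p M W := by
  have hML : M ≤ L := hU.lt.le
  have hQM : Q ≤ M := le_sup_right.trans hU.le
  have hxM : zpowers x ≤ M := le_sup_left.trans hU.le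
  have hxL : x ∈ L := hML (hxM (mem_zpowers x))
  have hVL : V ≤ L := hVQ.trans (hQM.trans hML)
  have hD : ¬ ⁅V, pResidualOf p L⁆ ≤ D := fun e => by
    obtain ⟨P, hP, hP'⟩ := exists_sylIn_ge (isPGroup_sup_of_norm hx hQ
      ((hxM.trans hML).trans hLQ)) (hU.le.trans hML)
    have h3 : pResidualOf p L ≤ 𝐍 W :=
      norm_of_comm_le ((commutator_mono hWV le_rfl).trans e) hDW
    by_cases e' : L ≤ P
    · have : IsPGroup p L := hP.pg.to_le e'
      have hn := lt_inf_normalizer this hU.lt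
      have h5 : L ≤ 𝐍 M := by
        by_contra hc
        exact hn.not_ge (hU.max' (hU.le.trans hn.le) inf_le_left fun e => hc (e.trans inf_le_right))
      exact hU.not_le (htop ▸ sup_le (sup_le hxM (cj_le_of_le hxM (h5 hh))) hQM)
    · exact hLW (le_of_syl_of_res hP ((hU.max' hP' hP.le e').trans hMW) h3)
  obtain ⟨N, ⟨n1, n2, n3, n4⟩, hmax⟩ := Set.exists_max_image
    {N : Subgroup G | D ≤ N ∧ N ≤ V ∧ L ≤ 𝐍 N ∧ ¬ ⁅V, pResidualOf p L⁆ ≤ N} (fun N => Nat.card N)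
    (Set.toFinite _) ⟨D, le_rfl, hDW.trans hWV, hLD, hD⟩
  have : (N.subgroupOf L).Normal := normal_subgroupOf_of_norm n3
  let f : L →* L ⧸ N.subgroupOf L := QuotientGroup.mk' _
  have hf : f.ker = N.subgroupOf L := QuotientGroup.ker_mk' _
  have hfs : Function.Surjective f := QuotientGroup.mk'_surjective _
  have hcomm : ∀ A B : Subgroup G, A ≤ L → B ≤ L →
      ⁅A.subgroupOf L, B.subgroupOf L⁆ = ⁅A, B⁆.subgroupOf L := fun A B hA hB => by
    apply Subgroup.map_injective L.subtype_injective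
    rw [map_commutator, map_subgroupOf_eq_of_le hA, map_subgroupOf_eq_of_le hB,
      map_subgroupOf_eq_of_le (comm_le_of_le hA hB)]
  have hbot : ∀ A : Subgroup G, A ≤ L → ((A.subgroupOf L).map f = ⊥ ↔ A ≤ N) := fun A hA => by
    rw [Subgroup.map_eq_bot_iff, hf, ← map_le_map_iff_of_injective L.subtype_injective,
      map_subgroupOf_eq_of_le hA, map_subgroupOf_eq_of_le (n2.trans hVL)]
  have hz : zpowers (f ⟨x, hxL⟩) = ((zpowers x).subgroupOf L).map f := by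
    rw [← MonoidHom.map_zpowers]
    congr 1
    apply Subgroup.map_injective L.subtype_injective
    rw [MonoidHom.map_zpowers, map_subgroupOf_eq_of_le (zpowers_le_of_mem hxL)]; rfl
  have hres : pResidualOf p (⊤ : Subgroup (L ⧸ N.subgroupOf L)) =
      ((pResidualOf p L).subgroupOf L).map f := by
    rw [← res_subgroupOf le_rfl, subgroupOf_self, map_res, map_top_of_surjective f hfs]
  have hVn := normal_subgroupOf_of_norm hLV
  have hQn := normal_subgroupOf_of_norm hLQ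
  have := hVn.map f hfs
  have := hQn.map f hfs
  have hxz := hxM.trans hML
  have hU' : UMax (zpowers (f ⟨x, hxL⟩) ⊔ (Q.subgroupOf L).map f) ((M.subgroupOf L).map f) ⊤ := by
    have := hU.subgroupOf.map f (by
      rw [hf]; exact inf_le_right.trans (comap_mono (n2.trans (hVQ.trans hQM))))
    rwa [map_top_of_surjective f hfs, subgroupOf_sup hxz (hQM.trans hML), Subgroup.map_sup,
      ← hz] at this
  refine Conf.of_subgroupOf hML (hWV.trans hVL) (Conf.of_map f ?_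
    (comap_mono (hWV.trans (hVQ.trans hQM))) (conf_top hp2 (V := (V.subgroupOf L).map f)
      (h := f ⟨h, hh⟩) ?_ (map_mono (comap_mono hWV)) ?_ ?_ hU'
      ((isPGroup_subgroupOf hQ L).map f) (map_mono (comap_mono hVQ)) ?_ ?_ ?_ ?_ ?_))
  · rw [hf]
    exact (isPGroup_subgroupOf (hQ.to_le (n2.trans hVQ)) L).to_le inf_le_right
  · rw [H6Basic.isMulCommutative_iff', ← H6Basic.commutator_eq_bot_iff', ← map_commutator,
      hcomm V V hVL hVL, hbot _ (comm_le_of_le hVL hVL)]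
    exact h1.trans n1
  · rw [← map_top_of_surjective f hfs, ← map_ncl]
    congr 1
    apply Subgroup.map_injective L.subtype_injective
    rw [map_ncl, map_subtype_top, map_subgroupOf_eq_of_le (hWV.trans hVL), hgen,
      map_subgroupOf_eq_of_le hVL]
  · refine norm_map f ?_
    rw [normalizer_subgroupOf (hWV.trans hVL)]
    exact comap_mono hMW
  · rw [← map_inv, ← map_mul, ← map_mul, ← Set.image_pair, ← MonoidHom.map_closure,
      ← Subgroup.map_sup, ← map_top_of_surjective f hfs]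
    congr 1
    apply Subgroup.map_injective L.subtype_injective
    rw [map_subtype_top, Subgroup.map_sup, map_subgroupOf_eq_of_le (hQM.trans hML),
      MonoidHom.map_closure, Set.image_pair]
    rw [cj_zpowers, zpowers_eq_closure, zpowers_eq_closure, ← Subgroup.closure_union] at htop
    exact htop
  · rw [hz]; exact (isPGroup_subgroupOf hx L).map f
  · rw [hz, ← map_commutator, ← map_commutator, hcomm _ _ hVL hxz,
      hcomm _ _ (comm_le_of_le hVL hxz) hxz, hbot _ (comm_le_of_le (comm_le_of_le hVL hxz) hxz)]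
    exact hq.trans n1
  · rw [hres, ← map_commutator, hcomm _ _ hVL (res_le _ _), Ne,
      hbot _ (comm_le_of_le hVL (res_le _ _))]
    exact n4
  · intro N' hN' hle hne
    rw [hres, ← map_commutator, hcomm _ _ hVL (res_le _ _), map_le_iff_le_comap]
    have hN'n : N'.Normal := normal_iff_top_le.2 hN'
    have a1 : N ≤ (N'.comap f).map L.subtype := fun y hy =>
      ⟨⟨y, hVL (n2 hy)⟩, by
        rw [SetLike.mem_coe, mem_comap, show f ⟨y, hVL (n2 hy)⟩ = 1 from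
          (QuotientGroup.eq_one_iff _).2 hy]
        exact one_mem _, rfl⟩
    have a2 : (N'.comap f).map L.subtype ≤ V := by
      rw [map_le_iff_le_comap]
      refine (comap_mono hle).trans ?_
      rw [comap_map_eq, hf]
      exact sup_le le_rfl (comap_mono n2)
    rw [← map_le_map_iff_of_injective L.subtype_injective,
      map_subgroupOf_eq_of_le (comm_le_of_le hVL (res_le _ _))]
    by_contra hc
    have a3 := eq_of_le_of_card_ge a1 (hmax _ ⟨n1.trans a1, a2, norm_map_subtype _, hc⟩)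
    refine hne ?_
    rw [← map_comap_eq_self_of_surjective hfs N', Subgroup.map_eq_bot_iff, hf]
    exact fun y hy => a3.ge ⟨y, hy, rfl⟩

end CA.ZJC
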