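import Cfsg.Agent.Lib.Loc.ZN6
import Cfsg.Agent.Lib.Grp.PGDihedral

/-!
`ZN`-groups: the Sylow `2`-subgroup in the case of local characteristic two.
-/

set_option autoImplicit false

namespace CA.ZN7

open Subgroup Cfsg CA.Amb CA.AmbSyl CA.AmbCore CA.AmbRes CA.AmbChar CA.AmbSpe CA.AmbIso CA.AmbS3 CA.AmbFs CA.ZN1
open CA.ZN2 CA.ZN3 CA.ZN4 CA.ZN5 CA.ZN6 CA.AmbTr
open CA.H6J (J)
open scoped commutatorElement

variable {G : Type*} [Group G] [Finite G] {S T L L' K K' V A U : Subgroup G} {g s t u w x y z d : G}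

/-- dihedral or semidihedral -/
def DD (R : Subgroup G) : Prop := (∃ n : ℕ, 2 ≤ n ∧ Nonempty (R ≃* DihedralGroup n)) ∨ IsQuasiDihedral R

omit [Finite G] in
theorem DD.of_equiv {G' : Type*} [Group G'] {R : Subgroup G} {R' : Subgroup G'} (h : DD R) (e : R ≃* R') : DD R' := by
  rcases h with ⟨n, h1, ⟨f⟩⟩ | ⟨n, hn, hc, x, y, h1, h2, h3⟩
  · exact Or.inl ⟨n, h1, ⟨e.symm.trans f⟩⟩
  · exact Or.inr ⟨n, hn, by rw [← Nat.card_congr e.toEquiv, hc], e x, e y, by rw [e.orderOf_eq, h1],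
      by rw [e.orderOf_eq, h2], by rw [← map_pow, ← h3]; simp⟩

theorem tri (hS : SylIn 2 S ⊤) : Uniq 2 S ∨ (∃ V, Fo S V) ∨ DD S := by
  rcases PGNormalCyclic.trichotomy hS.pg with c | ⟨E, a, b, c⟩ | ⟨-, n, a, y, h1, h2, h3, -⟩
  · exact Or.inl (uniq_of_isCyclic c)
  · exact Or.inr (Or.inl ⟨_, hS, map_subtype_le E, ea_map _ b, by rw [H6Basic.card_map_subtype, c]; rfl,
      norm_map_subtype E⟩)
  have h4 := PGNormalCyclic.dqs_notMem h1 h3
  have h5 := PGBasic.card_sup_zpowers Nat.prime_two (PGNormalCyclic.dqs_normalizer h3) h4 (PGNormalCyclic.dqs_sq_mem h3)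
  rw [h2, card_top, Nat.card_zpowers, h1, ← pow_succ] at h5
  obtain ⟨n2, ⟨a1, a2⟩ | ⟨a1, a2⟩ | ⟨a1, a2, a3⟩⟩ := h3
  · exact Or.inr (Or.inr (Or.inl ⟨_, Nat.le_self_pow (by omega) 2, PGDihedral.nonempty_mulEquiv_dihedral h1 h4 a1 a2 h2⟩))
  · obtain ⟨e⟩ := PGDihedral.nonempty_mulEquiv_quaternion (n := 2 ^ (n - 1))
      (by rw [h1, ← pow_succ']; congr 1; omega) h4 a1 a2 h2
    exact Or.inl (uniq_of_quaternion hS.pg e).2
  · exact Or.inr (Or.inr (Or.inr ⟨n, a1, h5, a, y, h1, orderOf_eq_prime a2 fun e => h4 (e ▸ one_mem _), a3⟩))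

local notation "𝐎 " L:max => pCoreOf 2 L

/-- two involutions generating a dihedral group of order eight -/
structure Ab (T K L K' L' : Subgroup G) (x y z : G) : Prop extends Am T K L K' L' where
  x1 : x ∈ wOf K
  x2 : x ∉ 𝐎 L'
  y1 : y ∈ 𝐎 L'
  y2 : y ∉ 𝐎 L
  ez : z = x * y * (x * y)

theorem exists_x (a : Am T K L K' L') : ∃ x ∈ wOf K, x ∉ 𝐎 L' := SetLike.not_le_iff_exists.1 fun l =>
  a.p.jc.not_cent' ((H6J.J_le 2 T).trans (cent_symm (((le_inf l a.W_le).trans a.OZ_eq.ge).trans (OZ_le_cent 2 T))))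

namespace Ab
variable (b : Ab T K L K' L' x y z)
include b

omit [Finite G] in
theorem xx : x * x = 1 := mul_self_of_ea (ea_W K) b.x1

theorem yy : y * y = 1 := mul_self_of_ea b.symm.ea b.y1

theorem xT : x ∈ T := b.Q_le (b.W_le b.x1)

omit [Finite G] in
theorem yT : y ∈ T := b.symm.Q_le b.y1

theorem nW : T ≤ 𝐍 (wOf K) := le_sup_right.trans b.p.normW

theorem nc : x * y ≠ y * x := b.not_comm (b.W_le b.x1) b.x2 b.y1 b.y2

theorem inv : (x * y)⁻¹ = y * x := by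
  rw [mul_inv_rev, inv_eq_of_mul_eq_one_right b.xx, inv_eq_of_mul_eq_one_right b.yy]

theorem z1 : z ≠ 1 := fun e => b.nc ((inv_eq_of_mul_eq_one_right (b.ez.symm.trans e)).symm.trans b.inv)

theorem zW : z ∈ wOf K := by
  have := mul_mem b.x1 (conj_mem_of_mem_normalizer (b.nW b.yT) b.x1)
  rwa [inv_eq_of_mul_eq_one_right b.yy, show x * (y * x * y) = z by rw [b.ez]; group] at this

theorem zD : z ∈ 𝐎 L' ⊓ 𝐎 L := by
  have := mul_mem (conj_mem_of_mem_normalizer (norm_pCoreOf 2 L' (b.symm.syl.le b.xT)) b.y1) b.y1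
  rw [inv_eq_of_mul_eq_one_right b.xx, show x * y * x * y = z by rw [b.ez]; group] at this
  exact ⟨this, b.W_le b.zW⟩

theorem zz : z * z = 1 := mul_self_of_ea (ea_W K) b.zW

theorem zc : z ∈ 𝐂 T := OZ_le_cent 2 T (b.OZ_eq.ge b.zD)

theorem x0 : x ≠ 1 := fun e => b.x2 (e ▸ one_mem _)

theorem xz : x ≠ z := fun e => b.x2 (e ▸ b.zD.1)

theorem cases (h : w ∈ wOf K) : w = 1 ∨ w = x ∨ w = z ∨ w = x * z :=
  four_cases b.p.jc.card (ea_W K) b.x1 b.zW b.x0 b.z1 b.xz h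

theorem yW : y ∉ wOf K := fun h => b.y2 (b.W_le h)

theorem idxE : (wOf K).relIndex (wOf K ⊔ zpowers y) = 2 :=
  PGBasic.relIndex_sup_zpowers Nat.prime_two (b.nW b.yT) b.yW (by rw [pow_two, b.yy]; exact one_mem _)

theorem cardE : Nat.card ↥(wOf K ⊔ zpowers y) = 8 := by
  rw [← card_mul_relIndex (le_sup_left : wOf K ≤ wOf K ⊔ zpowers y), b.idxE, b.p.jc.card]

theorem E_le : wOf K ⊔ zpowers y ≤ T := sup_le (b.W_le.trans b.Q_le) (zpowers_le.2 b.yT)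

theorem mem_W (h : w ∈ wOf K ⊔ zpowers y) (h1 : w ∈ 𝐎 L) : w ∈ wOf K := by_contra fun n =>
  b.y2 ((mul_mem_cancel_left h1).1 (b.W_le ((mul_mem_of_two b.idxE h (mem_sup_right (mem_zpowers y))).2
    (iff_of_false n b.yW))))

theorem mem_D (h : w ∈ wOf K ⊔ zpowers y) (h1 : w ∈ 𝐎 L' ⊓ 𝐎 L) : w = 1 ∨ w = z := by
  rcases b.cases (b.mem_W h h1.2) with e | e | e | e
  · exact Or.inl e
  · exact absurd (e ▸ h1.1) b.x2
  · exact Or.inr e
  · exact absurd ((mul_mem_cancel_right (mem_inf.1 b.zD).1).1 (e ▸ h1.1)) b.x2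

theorem dd : DD (wOf K ⊔ zpowers y) := by
  have m : x * y ∈ zpowers (x * y) ⊔ zpowers x := mem_sup_left (mem_zpowers _)
  have m' : x ∈ zpowers (x * y) ⊔ zpowers x := mem_sup_right (mem_zpowers _)
  have e : wOf K ⊔ zpowers y = zpowers (x * y) ⊔ zpowers x := by
    refine le_antisymm (sup_le (fun w hw => ?_) (zpowers_le.2 ((mul_mem_cancel_left m').1 m))) (sup_le (zpowers_le.2
      (mul_mem (mem_sup_left b.x1) (mem_sup_right (mem_zpowers y)))) (zpowers_le.2 (mem_sup_left b.x1)))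
    rcases b.cases hw with e | e | e | e <;> rw [e]
    · exact one_mem _
    · exact m'
    · exact b.ez ▸ mul_mem m m
    · exact b.ez ▸ mul_mem m' (mul_mem m m)
  rw [e]
  refine Or.inl ⟨orderOf (x * y), ?_, PGDihedral.nonempty_subgroup_mulEquiv_dihedral rfl
    (fun h => b.nc (mul_left_cancel ((PGCyclicMax.commute_of_mem_zpowers h).trans (mul_assoc _ _ _))))
    (by rw [pow_two, b.xx]) (by rw [b.inv, ← mul_assoc, b.xx, one_mul, inv_eq_of_mul_eq_one_right b.xx])⟩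
  have h1 := orderOf_pos (x * y)
  have h2 : orderOf (x * y) ≠ 1 := fun h => b.z1 (by rw [b.ez, orderOf_eq_one_iff.1 h, one_mul])
  omega

omit b in
theorem cardT (a : Am T K L K' L') : Nat.card T = Nat.card ↥(𝐎 L' ⊓ 𝐎 L) * 4 := by
  rw [← card_mul_relIndex a.Q_le, ← card_inf_mul_relIndex (𝐎 L') (𝐎 L), a.idx2, a.idxD]; omega

theorem OZ_le (l : T ≤ S) : OZ 2 S ≤ 𝐎 L' ⊓ 𝐎 L := (ZN.OZ_le b.syl b.p.cent l).trans b.OZ_eq.le

theorem zH : z ∈ pResidual 2 G := res_top 2 G ▸ res_mono le_top (b.p.jc.res.ge (W_le K b.zW))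

/-- the case `S₄` -/
theorem case_four (hS : SylIn 2 S ⊤) (l : T ≤ S) (h : Nat.card ↥(𝐎 L' ⊓ 𝐎 L) = 2) :
    OZ 2 S ≤ pResidual 2 G ∧ DD S := by
  have e1 : zpowers z = 𝐎 L' ⊓ 𝐎 L := eq_of_le_of_card_ge (zpowers_le.2 b.zD) (by rw [h, card_two b.zz b.z1])
  have e2 : wOf K ⊔ zpowers y = T := eq_of_le_of_card_ge b.E_le (by rw [b.cardE, cardT b.toAm, h])
  have e3 : wOf K = 𝐎 L := eq_of_le_of_card_ge b.W_le (by
    rw [← card_inf_mul_relIndex (𝐎 L') (𝐎 L), b.idxD, h, b.p.jc.card])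
  have o := (b.OZ_le l).trans e1.ge
  refine ⟨o.trans (zpowers_le.2 b.zH), ?_⟩
  rcases tri hS with c | ⟨V, f⟩ | c
  · exact absurd (mem_zpowers_two b.zz (c z (l (b.Q_le b.zD.2)) (ord_of_sq b.zz b.z1) x (l b.xT)
      (by rw [pow_two, b.xx]))) (not_or.2 ⟨b.x0, b.xz⟩)
  swap
  · exact c
  obtain ⟨v, v1, v2⟩ := (bot_or_exists_ne_one _).resolve_left (inf_OZ_ne_bot hS.pg f.le f.norm
    fun e => by have := f.card; rw [e, card_bot] at this; omega)
  obtain rfl := (mem_zpowers_two b.zz (o v1.2)).resolve_left v2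
  have v3 := OZ_le_cent 2 S v1.2
  have k : ∀ u ∈ S, x * u * x⁻¹ = u → u ∈ wOf K := fun u u1 u2 => e3.ge (b.p.cent (e3 ▸ le_cent_of_two b.p.jc.card
    (ea_W K) b.x1 b.zW b.x0 b.z1 b.xz (mem_cent_iff.1 (mem_cent_symm (mem_cent_iff.2 u2)))
    (mul_inv_eq_iff_eq_mul.2 (v3 u u1))))
  have k1 : S ⊓ 𝐂 V ≤ V := by
    by_cases c : x ∈ 𝐂 V
    · have : V = wOf K := eq_of_le_of_card_ge (fun u hu => k u (f.le hu) (mul_inv_eq_iff_eq_mul.2 (c u hu).symm))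
        (by rw [f.card, b.p.jc.card])
      rw [this, e3]; exact inf_le_right.trans b.p.cent
    refine f.key v1.1 v2 v3 (l b.xT) c b.xx fun u u1 u2 => ?_
    rcases b.cases (k u u1.1 u2) with e | e | e | e
    · exact Or.inl e
    · exact absurd (e ▸ u1.2) c
    · exact Or.inr e
    · exact absurd ((mul_mem_cancel_right (ea_le_cent f.ea v1.1)).1 (e ▸ u1.2)) c
  have h1 := card_mul_relIndex (inf_le_left : S ⊓ 𝐂 V ≤ S)
  have h2 : (S ⊓ 𝐂 V).relIndex S ≤ 2 := by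
    by_cases c : S ≤ 𝐂 V
    · rw [relIndex_eq_one.2 (le_inf le_rfl c)]; omega
    · exact (f.idx' c).le
  have h3 := (card_le_of_le k1).trans f.card.le
  rw [← eq_of_le_of_card_ge l (by rw [← e2, b.cardE]; nlinarith), ← e2]
  exact b.dd

section eight
variable (h : Nat.card ↥(𝐎 L' ⊓ 𝐎 L) = 4) (d1 : d ∈ 𝐎 L' ⊓ 𝐎 L) (d2 : d ≠ 1) (d3 : centralizer {d} = L)
include d1 d2 d3

theorem dE : d ∉ wOf K ⊔ zpowers y := fun c => d2 (mem_bot.1 (b.p.jc.fpf ▸ mem_inf.2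
  ⟨b.mem_W c d1.2, mem_cent_of_le (b.p.le.trans d3.ge)⟩))

theorem dz : z ≠ d := fun e => b.dE d1 d2 d3 (e ▸ mem_sup_left b.zW)

include h

omit d1 d2 d3 in
theorem idxT : (wOf K ⊔ zpowers y).relIndex T = 2 := by
  have := card_mul_relIndex b.E_le
  rw [b.cardE, cardT b.toAm, h] at this
  omega

theorem transfer (hH : pResidual 2 G = ⊤) (hS : SylIn 2 S ⊤) (l : U ≤ S) (i : U.relIndex S = 2)
    (k : U ⊓ T ≤ wOf K ⊔ zpowers y) (n : ∀ g, cj g T ≤ S → g ∈ 𝐍 T) : False := by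
  have o : Odd S.index := by
    rw [← Nat.not_even_iff_odd, even_iff_two_dvd, ← relIndex_top_right]; exact hS.not_dvd
  obtain ⟨g, g1, g2⟩ := thompson_extremal hH o l i (u := d) (ea_pow b.ea d1.2) b.syl.pg (b.syl.le.trans d3.ge)
  have g3 := inv_mem_iff.1 (n _ g2)
  have g4 := b.OZ_eq.le (inv_conj_mem_of_mem_normalizer (normalizer_le_OZ 2 T g3) (b.OZ_eq.ge d1))
  rcases b.mem_D (k ⟨g1, b.Q_le g4.2⟩) g4 with e | e
  · exact d2 (by simpa using conj_eq_one_iff.1 (show g⁻¹ * d * g⁻¹⁻¹ = 1 by rwa [inv_inv]))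
  have m := conj_mem_of_mem_normalizer g3 (mul_mem b.xT b.yT)
  have := (mul_mem_of_two (b.idxT h) m m).2 Iff.rfl
  rw [conj_mul, ← b.ez, ← e, show g * (g⁻¹ * d * g) * g⁻¹ = d by group] at this
  exact b.dE d1 d2 d3 this

omit d2 b in
theorem norm_T (a : Am T K L K' L') (hS : IsPGroup 2 S) (l : T ≤ S) (s1 : s ∈ S) (s2 : s ∉ T) (s3 : s ∈ 𝐍 T) :
    T.relIndex S = 2 ∧ ∀ g, cj g T ≤ S → g ∈ 𝐍 T := by
  have i : T.relIndex (S ⊓ 𝐍 T) = 2 := by
    refine relIndex_eq_two_iff_exists_notMem_and'.2 ⟨s, ⟨s1, s3⟩, s2, fun u hu => ?_⟩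
    by_contra! c
    refine a.not_mem hS l (mul_mem s1 hu.1) c.1 (a.normQ.le (cj_eq_self_iff.1 ?_))
    rw [← cj_cj, a.swap hu.2 (a.not_mem hS l hu.1 c.2), a.symm.swap s3 (a.symm.not_mem hS l s1 s2)]
  have k : ∀ A ≤ S ⊓ 𝐍 T, IsElementaryAbelian 2 A → 8 ≤ Nat.card A → A ≤ T := fun A a1 a2 a3 u hu => by
    by_contra n
    have h1 := (relIndex_le_of_le_right a1 (relIndex_ne_zero T _)).trans i.le
    have h2 := card_inf_mul_relIndex T A
    have h3 := a.not_mem hS l (a1 hu).1 n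
    have h4 := a.le_D inf_le_left (ea_of_le a2 inf_le_right) (a1 hu).2 (centralizer_le_normalizer _
      (centralizer_anti inf_le_right (ea_le_cent a2 hu))) h3 (a.symm.not_mem hS l (a1 hu).1 n)
    exact h3 (d3.le (le_cent_of_mem' (ea_le_cent a2 hu)
      ((eq_of_le_of_card_ge h4 (by nlinarith)).ge d1).2))
  have c : Nat.card (𝐎 L) = 8 := by rw [← card_inf_mul_relIndex (𝐎 L') (𝐎 L), a.idxD, h]
  have k1 : ∀ g, cj g T ≤ S ⊓ 𝐍 T → g ∈ 𝐍 T := fun g hg => mem_normalizer_of_cj_le (by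
    conv_lhs => rw [← a.sup, cj_sup]
    exact sup_le (k _ ((cj_mono g a.Q_le).trans hg) (ea_cj a.ea g) (by rw [card_cj, c]))
      (k _ ((cj_mono g a.symm.Q_le).trans hg) (ea_cj a.symm.ea g) (by rw [card_cj, ← a.card_eq, c])))
  have e : S ⊓ 𝐍 T = S := eq_of_inf_normalizer_le hS inf_le_left fun g hg =>
    ⟨hg.1, k1 g (cj_le_of_le (le_inf l le_normalizer) hg.2)⟩
  rw [e] at i k1
  exact ⟨i, k1⟩

theorem case_lt (hS : SylIn 2 S ⊤) (hH : pResidual 2 G ⊔ OZ 2 S = ⊤) (l : T ≤ S) (s1 : s ∈ S) (s2 : s ∉ T)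
    (s3 : s ∈ 𝐍 T) (e : y = s * x * s⁻¹) : False := by
  obtain ⟨i, n⟩ := norm_T h d1 d3 b.toAm hS.pg l s1 s2 s3
  have ss := (mul_mem_of_two i s1 s1).2 Iff.rfl
  have sL := b.not_mem hS.pg l s1 s2
  have sw := b.swap s3 sL
  have sw' := b.symm.swap s3 (b.symm.not_mem hS.pg l s1 s2)
  have ea := ea_of_le b.ea (inf_le_right : 𝐎 L' ⊓ 𝐎 L ≤ _)
  have dd := mul_self_of_ea ea d1
  have ey : s * y * s⁻¹ = s * s * x * (s * s)⁻¹ := by rw [e]; group
  have y1 : s * y * s⁻¹ = x ∨ s * y * s⁻¹ = x * z := by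
    have m : s * y * s⁻¹ ∉ 𝐎 L' := fun c => b.y2 (conj_mem_cj.1 (sw.ge c))
    rcases b.cases (ey ▸ conj_mem_of_mem_normalizer (b.nW ss) b.x1) with c | c | c | c
    · exact absurd (c ▸ one_mem _) m
    · exact Or.inl c
    · exact absurd (c ▸ b.zD.1) m
    · exact Or.inr c
  have zx := b.zc x b.xT
  have zy := b.zc y b.yT
  have yx : y * x = x * y * z := by
    rw [← b.inv, eq_comm, ← mul_eq_one_iff_eq_inv, mul_assoc, ← b.zc _ (mul_mem b.xT b.yT), ← mul_assoc, ← b.ez, b.zz]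
  have q : x * y * z * (x * y * z) = z := by
    rw [mul_assoc, ← mul_assoc z, ← b.zc _ (mul_mem b.xT b.yT), mul_assoc (x * y), b.zz, mul_one, b.ez]
  have xy : s * (x * y) * s⁻¹ = x * y * z ∧ s * y * s⁻¹ = x ∨ s * (x * y) * s⁻¹ = x * y := by
    rw [← conj_mul, ← e]
    rcases y1 with c | c <;> rw [c]
    · exact Or.inl ⟨yx, rfl⟩
    · exact Or.inr (by rw [← mul_assoc, yx, mul_assoc, b.zz, mul_one])
  have sz : s * z * s⁻¹ = z := by
    conv_lhs => rw [b.ez, ← conj_mul]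
    rcases xy with ⟨c, -⟩ | c <;> rw [c]
    · exact q
    · exact b.ez.symm
  have cD : ∀ {w}, w ∈ 𝐎 L' ⊓ 𝐎 L → w = 1 ∨ w = z ∨ w = d ∨ w = z * d :=
    four_cases h ea b.zD d1 b.z1 d2 (b.dz d1 d2 d3)
  have sd : s * d * s⁻¹ = z * d := by
    rcases cD (b.OZ_eq.le (conj_mem_of_mem_normalizer (normalizer_le_OZ 2 T s3) (b.OZ_eq.ge d1))) with c | c | c | c
    · exact absurd (conj_eq_one_iff.1 c) d2
    · exact absurd (mul_left_cancel (mul_right_cancel (sz.trans c.symm))) (b.dz d1 d2 d3)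
    · exact absurd (d3.le (mem_cent_iff.2 c)) sL
    · exact c
  have o : OZ 2 S ≤ pResidual 2 G := fun w hw => by
    have := mul_inv_eq_iff_eq_mul.2 (OZ_le_cent 2 S hw s s1)
    rcases cD (b.OZ_le l hw) with c | c | c | c <;> rw [c] at this ⊢
    · exact one_mem _
    · exact b.zH
    · exact absurd (d3.le (mem_cent_iff.2 this)) sL
    · rw [← conj_mul, sz, sd] at this
      exact absurd (mul_eq_right.1 (mul_left_cancel this)) b.z1
  have mx : x ∈ wOf K ⊔ zpowers y := mem_sup_left b.x1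
  have my : y ∈ wOf K ⊔ zpowers y := mem_sup_right (mem_zpowers y)
  have mz : z ∈ wOf K ⊔ zpowers y := mem_sup_left b.zW
  have sE : s ∈ 𝐍 (wOf K ⊔ zpowers y : Subgroup G) := mem_normalizer_of_cj_le (by
    rw [cj_sup, cj_zpowers]
    refine sup_le (cj_le_iff'.2 fun w hw => ?_) (zpowers_le.2 (y1.elim (· ▸ mx) (· ▸ mul_mem mx mz)))
    rcases b.cases hw with c | c | c | c <;> rw [c]
    · simp
    · exact e ▸ my
    · exact sz.symm ▸ mz
    · rw [← conj_mul, sz, ← e]; exact mul_mem my mz)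
  have s4 : s * s ∈ wOf K ⊔ zpowers y := by
    by_contra c
    have e1 := (mul_mem_of_two (b.idxT h) ss (b.Q_le d1.2)).2 (iff_of_false c (b.dE d1 d2 d3))
    have e2 : s * (s * s * d) * s⁻¹ ≠ s * s * d := fun k => b.z1 (by
      rw [← conj_mul, sd, show s * (s * s) * s⁻¹ = s * s by group] at k
      exact mul_eq_right.1 (mul_left_cancel k))
    have fix : s * (s * s) * s⁻¹ = s * s := by group
    have f : ∀ {w}, w = 1 ∨ w = z → s * w * s⁻¹ = w := fun k => k.elim (fun k => by simp [k]) (· ▸ sz)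
    have n1 : s * s ∉ 𝐎 L := fun k => e2 (f (b.mem_D e1 (mul_mem ⟨fix ▸ sw.le (conj_mem_cj.2 k), k⟩ d1)))
    have n2 : s * s ∉ 𝐎 L' := fun k => n1 (fix ▸ sw'.le (conj_mem_cj.2 k))
    have n3 : s * (x * y) * s⁻¹ = x * y := xy.resolve_left fun ⟨_, k⟩ => n1 (by
      rw [← b.eq, b.p.O_eq]
      exact ⟨ss, le_cent_of_two b.p.jc.card (ea_W K) b.x1 b.zW b.x0 b.z1 b.xz (ey.symm.trans k)
        (mul_inv_eq_iff_eq_mul.2 (b.zc _ ss))⟩)
    have t1 := b.E_le e1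
    have t2 := mul_mem b.xT b.yT
    have n4 := f (b.mem_D (mul_mem e1 (mul_mem mx my))
      ⟨(mul_mem_of_two b.symm.idx2 t1 t2).2 (iff_of_false (mt (mul_mem_cancel_right (mem_inf.1 d1).1).1 n2)
        (mt (mul_mem_cancel_right b.y1).1 b.x2)),
      (mul_mem_of_two b.idx2 t1 t2).2 (iff_of_false (mt (mul_mem_cancel_right (mem_inf.1 d1).2).1 n1)
        (mt (mul_mem_cancel_left (b.W_le b.x1)).1 b.y2))⟩)
    rw [← conj_mul, n3] at n4
    exact e2 (mul_right_cancel n4)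
  have s5 := mt (b.E_le ·) s2
  have i1 := PGBasic.relIndex_sup_zpowers Nat.prime_two sE s5 (by rwa [pow_two])
  have lU : wOf K ⊔ zpowers y ⊔ zpowers s ≤ S := sup_le (b.E_le.trans l) (zpowers_le.2 s1)
  have i2 := relIndex_mul_relIndex _ _ _ le_sup_left lU
  have i3 := relIndex_mul_relIndex _ _ _ b.E_le l
  rw [i1, ← i3, b.idxT h, i] at i2
  refine b.transfer h d1 d2 d3 (by rwa [sup_eq_left.2 o] at hH) hS lU (by omega) (fun w hw => by_contra fun c => ?_) n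
  exact s2 ((mul_mem_cancel_left (mem_inf.1 hw).2).1 (b.E_le ((mul_mem_of_two i1 hw.1 (mem_sup_right (mem_zpowers s))).2
    (iff_of_false c s5))))

end eight

end Ab

/-- KS Theorem 1 of chapter 12 in local characteristic two -/
theorem thm1 (zn : ZN G) (O : pCore 2 G = ⊥) (ev : 2 ∣ Nat.card G)
    (h : ∀ S, SylIn 2 S ⊤ → pResidual 2 G ⊔ OZ 2 S = ⊤) :
    (∃ M, SPE 2 M (⊤ : Subgroup G)) ∨ ∃ S, SylIn 2 S ⊤ ∧ DD (S ⊓ pResidual 2 G) := by
  obtain ⟨S₀, h0⟩ := exists_sylIn 2 (⊤ : Subgroup G)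
  have h1 := h0.ne_bot (by rwa [card_top])
  obtain ⟨M, m1, m2⟩ := exists_max (loc (pgJ h0.pg) (H6J.J_ne_bot (p := 2) (n := 2) dvd_rfl
    (dvd_card_of_isPGroup h0.pg h1)))
  refine or_iff_not_imp_left.2 fun n => ?_
  have o := loc_O_ne m1.1
  obtain ⟨T, t⟩ := exists_maxStr (Set.nonempty_iff_ne_empty.2 fun e => n ⟨M, (spe_iff_str
    (fun e => o (by rw [e, pCoreOf_top, O])) (dvd_card_of_le (isPGroup_pCoreOf 2 M) o (pCoreOf_le 2 M))).2 e⟩)
  obtain ⟨K, L, K', L', -, a⟩ := exists_am' ⟨zn, O, ⟨S₀, h0, m2⟩, t⟩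
  obtain ⟨S, hS, l⟩ := exists_sylIn_ge a.syl.pg le_top
  obtain ⟨x, x1, x2⟩ := exists_x a
  obtain ⟨y, y1, y2⟩ := exists_x a.symm
  have b : Ab T K L K' L' x y _ := ⟨a, x1, x2, a.symm.W_le y1, y2, rfl⟩
  refine ⟨S, hS, ?_⟩
  rcases a.card with c | c
  · obtain ⟨c1, c2⟩ := b.case_four hS l c
    have := h S hS
    rw [sup_eq_left.2 c1] at this
    rwa [this, inf_top_eq]
  obtain ⟨d, d1, d2, d3⟩ := a.exists_z c
  rcases l.eq_or_lt with rfl | l'
  · have w : ∀ {K}, JC (J 2 T) K → wOf K ≤ pResidual 2 G := fun k =>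
      (ZN1.W_le _).trans (k.res.ge.trans ((res_mono le_top).trans (res_top 2 G).le))
    rcases PGBasic.eq_or_eq_of_relIndex_prime Nat.prime_two (b.idxT c)
      (le_inf b.E_le (sup_le (w a.p.jc) (zpowers_le.2 (w a.p'.jc y1)))) inf_le_left with e | e
    · exact e ▸ b.dd
    · have := h T hS
      rw [sup_eq_left.2 ((OZ_le 2 T).trans (e.ge.trans inf_le_right))] at this
      exact (b.transfer c d1 d2 d3 this hS b.E_le (b.idxT c) inf_le_left fun g => mem_normalizer_of_cj_le).elim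
  obtain ⟨s, s1, s2, s3, -⟩ := PGBasic.exists_mem_normalizer hS.pg l'
  have sw := a.swap s3 (a.not_mem hS.pg l s1 s2)
  have sw' := a.symm.swap s3 (a.symm.not_mem hS.pg l s1 s2)
  have b' : Ab T K L K' L' x (s * x * s⁻¹) _ := ⟨a, x1, x2, sw.le (conj_mem_cj.2 (a.W_le x1)),
    fun k => x2 (conj_mem_cj.1 (sw'.ge k)), rfl⟩
  exact (b'.case_lt c d1 d2 d3 hS (h S hS) l s1 s2 s3 rfl).elim

/-! ### the subgroup `O²(G) Ω₁(Z(S))` -/

/-- `O²(G) Ω₁(Z(S))` -/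
abbrev Xs (S : Subgroup G) : Subgroup G := pResidual 2 G ⊔ OZ 2 S

theorem two_dvd (ev : Even (Nat.card G)) (hO' : pPrimeCore 2 G = ⊥) (hO : pCore 2 G = ⊥) :
    2 ∣ Nat.card (pResidual 2 G) := by
  by_contra n
  have h1 := (Core.le_pPrimeCore ((Nat.Prime.coprime_iff_not_dvd Nat.prime_two).2 n).symm).trans hO'.le
  have h2 := pCoreOf_eq_self (res_eq_bot_iff.1 ((res_top 2 G).trans (le_bot_iff.1 h1)))
  rw [← card_top, ← h2, pCoreOf_top, hO, card_bot] at ev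
  exact absurd ev (by decide)

omit [Finite G] in
theorem solv_sub (hC : ∀ t : G, orderOf t = 2 → Group.IsSolvable (centralizer {t})) (X : Subgroup G) (t : X)
    (ht : orderOf t = 2) : Group.IsSolvable (centralizer {t}) := by
  have := hC t (by rwa [orderOf_coe])
  exact Group.isSolvable_of_isSolvable_injective (f := (X.subtype.comp (centralizer {t}).subtype).codRestrict
    (centralizer {(t : G)})
    fun x => mem_centralizer_singleton_iff.2 (congrArg Subtype.val (mem_centralizer_singleton_iff.1 x.2)))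
    fun a b e => Subtype.ext (Subtype.ext (Subtype.ext_iff.1 e :))

omit [Finite G] in
theorem res_X (S : Subgroup G) : pResidual 2 (Xs S) = (pResidual 2 G).subgroupOf (Xs S) := by
  rw [← subgroupOf_res, res_eq_of_le ((res_top 2 G).le.trans le_sup_left) le_top, res_top]

omit [Finite G] in
theorem sup_X (S : Subgroup G) : pResidual 2 (Xs S) ⊔ (OZ 2 S).subgroupOf (Xs S) = ⊤ := by
  rw [res_X, ← subgroupOf_sup le_sup_left le_sup_right, subgroupOf_self]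

omit [Finite G] in
theorem OZ_X (S : Subgroup G) : (OZ 2 S).subgroupOf (Xs S) ≤ OZ 2 (S.subgroupOf (Xs S)) := fun x hx =>
  have := mem_OZ.1 (mem_subgroupOf.1 hx)
  mem_OZ.2 ⟨this.1, fun y hy => Subtype.ext (this.2.1 y hy), Subtype.ext this.2.2⟩

omit [Finite G] in
theorem cent_X (hZ : 𝐂 (OZ 2 S) ≤ 𝐍 S) : 𝐂 ((OZ 2 S).subgroupOf (Xs S)) ≤ 𝐍 (S.subgroupOf (Xs S)) := by
  rw [centralizer_subgroupOf le_sup_right]
  exact norm_comap _ hZ

theorem spe_X (h2 : 2 ∣ Nat.card (pResidual 2 G)) (h : ∃ M, SPE 2 M (⊤ : Subgroup (Xs S))) :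
    ∃ M : Subgroup (pResidual 2 G), IsStronglyEmbedded M := by
  obtain ⟨M, h⟩ := h
  have h1 := h.map_injective (Xs S).subtype_injective
  rw [map_subtype_top] at h1
  exact ⟨_, se_iff.2 ((spe_subgroupOf_iff inf_le_left).2 (h1.inf_norm le_sup_left norm_of_normal h2))⟩

section
variable (hS : SylIn 2 S ⊤)
include hS

theorem sn_X : SN ⊤ (Xs S) := sn_of_sup hS.pg (by rw [← res_top]; exact syl_sup_res hS) norm_of_normal
  le_sup_left le_top

theorem syl_X : SylIn 2 (S.subgroupOf (Xs S)) ⊤ := by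
  have := (sylIn_subgroupOf_iff inf_le_right le_rfl).2 ((sn_X hS).sylIn_inf hS)
  rwa [inf_subgroupOf_right, subgroupOf_self] at this

theorem thm2' (ev : Even (Nat.card G)) (hZ : 𝐂 (OZ 2 S) ≤ 𝐍 S) (hO' : pPrimeCore 2 G = ⊥) (hO : pCore 2 G = ⊥)
    (s : Sg (Xs S)) : (∃ M : Subgroup (pResidual 2 G), IsStronglyEmbedded M) ∨
    (Nat.card ↥(OZ 2 S ⊓ pResidual 2 G) = 2 ∧
      ∀ h ∈ pResidual 2 G, ∀ z ∈ OZ 2 S ⊓ pResidual 2 G, h * z * h⁻¹ ∈ S → h * z * h⁻¹ ∈ OZ 2 S) ∨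
    (Nat.card (OZ 2 S) = 4 ∧ omegaOne 2 (S ⊓ pResidual 2 G) = OZ 2 S) ∨ IsCharacteristicTwoType (Xs S) := by
  have h2 := two_dvd ev hO' hO
  have h3 := inf_OZ_ne_bot hS.pg inf_le_left (norm_inf le_normalizer norm_of_normal)
    ((hS.inf_norm le_top norm_of_normal).ne_bot h2)
  have l : OZ 2 S ⊓ pResidual 2 G ≤ Xs S := inf_le_left.trans le_sup_right
  have e : (OZ 2 S).subgroupOf (Xs S) ⊓ pResidual 2 (Xs S) = (OZ 2 S ⊓ pResidual 2 G).subgroupOf (Xs S) := by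
    rw [res_X]; rfl
  have o : pPrimeCore 2 (Xs S) = ⊥ := (map_eq_bot_iff_of_injective _ (Xs S).subtype_injective).1
    (le_bot_iff.1 ((SN.OQ_le (sn_X hS)).trans (OQ_top.trans hO').le))
  rcases thm2 s o (syl_X hS) (OZ_X S) (cent_X hZ) (sup_X S) (fun k => h3 (by
    rw [e, subgroupOf_eq_bot, disjoint_iff, inf_eq_left.2 l] at k
    exact le_bot_iff.1 ((le_inf inf_le_right (inf_le_left.trans inf_le_right)).trans k.le))) with
    c | ⟨c1, c2⟩ | ⟨c1, c2, c3⟩ | c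
  · exact Or.inl (spe_X h2 c)
  · rw [e] at c1 c2
    rw [res_X] at c2
    exact Or.inr (Or.inl ⟨by rwa [← Nat.card_congr (subgroupOfEquivOfLe l).toEquiv],
      fun h h1 z z1 z2 => c2 ⟨h, mem_sup_left h1⟩ h1 ⟨z, l z1⟩ z1 z2⟩)
  · rw [res_X] at c2
    refine Or.inr (Or.inr (Or.inl ⟨by rwa [← Nat.card_congr (subgroupOfEquivOfLe le_sup_right).toEquiv],
      le_antisymm (H6J.omegaOne_le_iff.2 fun x x1 x2 => c3 ⟨x, mem_sup_left x1.2⟩ x1.1
        (Subtype.ext ((pow_two x).symm.trans x2))) fun x hx => ?_⟩))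
    exact H6J.mem_omegaOne ⟨OZ_le 2 S hx, c2 (show (⟨x, mem_sup_right hx⟩ : Xs S) ∈ _ from hx)⟩ (mem_OZ.1 hx).2.2
  refine Or.inr (Or.inr (Or.inr ⟨even_iff_two_dvd.2 (h2.trans (card_dvd_of_le le_sup_left)), fun T t1 t2 => ?_⟩))
  have := locP_of_cent (syl_X hS) (fun z _ z1 => by
    rw [top_inf_eq]; exact charP_of_solvable (s.solv z z1) (c z z1)) T t1 le_top t2
  rw [top_inf_eq] at this
  exact charP_iff.1 this

theorem thm1' (ev : Even (Nat.card G)) (hN : ∀ L : Subgroup G, IsTwoLocal L → Group.IsSolvable L)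
    (hZ : 𝐂 (OZ 2 S) ≤ 𝐍 S) (hO' : pPrimeCore 2 G = ⊥) (hO : pCore 2 G = ⊥) (h : IsCharacteristicTwoType (Xs S)) :
    (∃ M : Subgroup (pResidual 2 G), IsStronglyEmbedded M) ∨ DD (S ⊓ pResidual 2 G) := by
  have s := syl_X hS
  have zn : ZN (Xs S) := by
    refine ⟨fun Q a b => charP_iff.2 (h.2 Q a b), fun N ⟨Q, a, b, e⟩ => ?_, fun T hT => ?_⟩
    · have := hN _ (loc (a.map (Xs S).subtype) (mt (map_eq_bot_iff_of_injective _ (Xs S).subtype_injective).1 b))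
      have l : N.map (Xs S).subtype ≤ 𝐍 (Q.map (Xs S).subtype) := e ▸ norm_map _ le_rfl
      exact Group.isSolvable_of_isSolvable_injective (f := (inclusion l).comp
        (equivMapOfInjective N _ (Xs S).subtype_injective).toMonoidHom)
        ((inclusion_injective l).comp (MulEquiv.injective _))
    · obtain ⟨g, -, rfl⟩ := s.exists_conj hT
      rw [← cj_OZ, ← cj_centralizer, ← cj_normalizer]
      exact cj_mono g ((centralizer_anti (OZ_X S)).trans (cent_X hZ))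
  refine (thm1 zn (pCoreOf_eq_bot_iff.1 (SN.pCoreOf_eq_bot (sn_X hS) ((pCoreOf_top 2 G).trans hO)))
    (even_iff_two_dvd.1 h.1) fun T hT => ?_).imp (spe_X (two_dvd ev hO' hO)) fun ⟨T, hT, d⟩ => ?_
  · obtain ⟨g, -, rfl⟩ := s.exists_conj hT
    rw [← cj_OZ, ← cj_eq_self_of_normal g (pResidual 2 _), ← cj_sup, cj_eq_top, eq_top_iff, ← sup_X]
    exact sup_le_sup_left (OZ_X S) _
  obtain ⟨g, -, e⟩ := hT.exists_conj s
  have := d.of_equiv (cjEquiv g _)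
  rw [cj_inf, e, cj_eq_self_of_normal, res_X] at this
  exact this.of_equiv (subgroupOfEquivOfLe (inf_le_right.trans le_sup_left : S ⊓ pResidual 2 G ≤ Xs S))

end

end CA.ZN7
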