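import Cfsg.Agent.Lib.Loc.ZN7

/-!
`ZN`-groups of local characteristic two: the two maximal `2`-local subgroups of `O²(G)`.
-/

set_option autoImplicit false

namespace CA.ZNH

open Subgroup Cfsg CA.Amb CA.AmbSyl CA.AmbCore CA.AmbRes CA.AmbChar CA.AmbSpe CA.AmbIso CA.AmbS3 CA.AmbFs CA.ZN1
open CA.ZN2 CA.ZN3 CA.ZN4 CA.ZN5 CA.ZN6 CA.ZN7 CA.AmbTr
open CA.H6J (J)
open scoped commutatorElement

variable {G : Type*} [Group G] [Finite G] {S T L L' K K' U X H : Subgroup G} {s x y z d : G}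

local notation "𝐎 " L:max => pCoreOf 2 L

/-- Thompson's transfer lemma, extremal form, for an involution of `O²(G)`. -/
theorem thompson_res {S M T : Subgroup G} (hS : Odd S.index)
    (hM : M ≤ S) (hi : M.relIndex S = 2) {u : G} (hG : u ∈ pResidual 2 G) (hu : u ^ 2 = 1) (hT : IsPGroup 2 T)
    (hc : T ≤ centralizer {u}) : ∃ t : G, t⁻¹ * u * t ∈ M ∧ cj t⁻¹ T ≤ S := by
  classical
  have hn := norm_of_relIndex_two hM hi
  let Y : Set (G ⧸ S) := {q | ∃ t : G, t⁻¹ * u * t ∈ M ∧ (t : G ⧸ S) = q}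
  let σ := MulAction.toPermHom G (G ⧸ M) u
  have key : ∀ t : G, (t : G ⧸ S) ∈ Y ↔ t⁻¹ * u * t ∈ M := fun t =>
    ⟨fun ⟨s, h1, h2⟩ => by
      have := inv_conj_mem_of_mem_normalizer (hn (QuotientGroup.eq.1 h2)) h1
      simpa [mul_assoc] using this, fun h => ⟨t, h, rfl⟩⟩
  have hU : (QuotientGroup.mk ⁻¹' Y : Set G) = QuotientGroup.mk ⁻¹' (Function.fixedPoints σ) := by
    ext t
    refine (key t).trans ?_
    change _ ↔ ((u * t : G) : G ⧸ M) = t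
    rw [eq_comm, QuotientGroup.eq, mul_assoc]
  have h1 := QuotientGroup.card_preimage_mk S Y
  rw [hU, QuotientGroup.card_preimage_mk, ← card_mul_relIndex hM, hi, mul_assoc] at h1
  replace h1 := Nat.eq_of_mul_eq_mul_left Nat.card_pos h1
  have := Fintype.ofFinite (G ⧸ M)
  have h2 : Equiv.Perm.sign σ = 1 := by
    have hp : IsPGroup 2 ℤˣ := fun x => ⟨1, by simp [sq]⟩
    have := PRes.pResidual_le_ker (Equiv.Perm.sign.comp (MulAction.toPermHom G (G ⧸ M))) hp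
    exact this hG
  rw [Equiv.Perm.sign_of_pow_two_eq_one (by rw [← map_pow, hu, map_one]), ← Nat.card_eq_fintype_card,
    ← Nat.card_eq_fintype_card, h1, ← index_eq_card, ← relIndex_mul_index hM, hi,
    neg_one_pow_eq_one_iff_even (by decide), ← Nat.mul_sub, Nat.mul_div_cancel_left _ two_pos] at h2
  have h3 : Nat.card Y ≤ S.index := Nat.card_le_card_of_injective _ Subtype.val_injective
  obtain ⟨t, t1, t2⟩ := exists_fixed_coset hT (Y := Y) (fun x hx q ⟨t, t1, t2⟩ => by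
    refine ⟨x * t, ?_, by rw [← t2]; rfl⟩
    have : x⁻¹ * u * x = u := by
      rw [mul_assoc, mem_centralizer_singleton_iff.1 (hc hx) |>.symm, inv_mul_cancel_left]
    rwa [mul_inv_rev, show t⁻¹ * x⁻¹ * u * (x * t) = t⁻¹ * (x⁻¹ * u * x) * t by group, this])
    (by rw [Nat.even_sub h3] at h2; rw [← even_iff_two_dvd, ← h2, Nat.not_even_iff_odd]; exact hS)
  exact ⟨t, (key t).1 t1, t2⟩

section eight
variable (b : Ab T K L K' L' x y z) (h : Nat.card ↥(𝐎 L' ⊓ 𝐎 L) = 4) (d1 : d ∈ 𝐎 L' ⊓ 𝐎 L) (d2 : d ≠ 1)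
  (d3 : centralizer {d} = L)
include b h d1 d2 d3

theorem transfer (hH : d ∈ pResidual 2 G) (hS : SylIn 2 S ⊤) (l : U ≤ S) (i : U.relIndex S = 2)
    (k : U ⊓ T ≤ wOf K ⊔ zpowers y) (n : ∀ g, cj g T ≤ S → g ∈ 𝐍 T) : False := by
  have o : Odd S.index := by
    rw [← Nat.not_even_iff_odd, even_iff_two_dvd, ← relIndex_top_right]; exact hS.not_dvd
  obtain ⟨g, g1, g2⟩ := thompson_res o l i hH (ea_pow b.ea d1.2) b.syl.pg (b.syl.le.trans d3.ge)
  have g3 := inv_mem_iff.1 (n _ g2)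
  have g4 := b.OZ_eq.le (inv_conj_mem_of_mem_normalizer (normalizer_le_OZ 2 T g3) (b.OZ_eq.ge d1))
  rcases b.mem_D (k ⟨g1, b.Q_le g4.2⟩) g4 with e | e
  · exact d2 (by simpa using conj_eq_one_iff.1 (show g⁻¹ * d * g⁻¹⁻¹ = 1 by rwa [inv_inv]))
  have m := conj_mem_of_mem_normalizer g3 (mul_mem b.xT b.yT)
  have := (mul_mem_of_two (b.idxT h) m m).2 Iff.rfl
  rw [conj_mul, ← b.ez, ← e, show g * (g⁻¹ * d * g) * g⁻¹ = d by group] at this
  exact b.dE d1 d2 d3 this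

theorem case_lt (hS : SylIn 2 S ⊤) (hH : d ∈ pResidual 2 G) (l : T ≤ S) (s1 : s ∈ S) (s2 : s ∉ T)
    (s3 : s ∈ 𝐍 T) (e : y = s * x * s⁻¹) : False := by
  obtain ⟨i, n⟩ := Ab.norm_T h d1 d3 b.toAm hS.pg l s1 s2 s3
  have ss := (mul_mem_of_two i s1 s1).2 Iff.rfl
  have sL := b.not_mem hS.pg l s1 s2
  have sw := b.swap s3 sL
  have sw' := b.symm.swap s3 (b.symm.not_mem hS.pg l s1 s2)
  have ea := ea_of_le b.ea (inf_le_right : 𝐎 L' ⊓ 𝐎 L ≤ _)
  have dd := mul_self_of_ea ea d1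
  have ey : s * y * s⁻¹ = s * s * x * (s * s)⁻¹ := by rw [e]; group
  have y1 : s * y * s⁻¹ = x ∨ s * y * s⁻¹ = x * z := by
    have m : s * y * s⁻¹ ∉ 𝐎 L' := fun c => b.y2 (conj_mem_cj.1 (sw.ge c))
    rcases b.cases (ey ▸ conj_mem_of_mem_normalizer (b.nW ss) b.x1) with c | c | c | c
    · exact absurd (c ▸ one_mem _) m
    · exact Or.inl c
    · exact absurd (c ▸ b.zD.1) m
    · exact Or.inr c
  have zx := b.zc x b.xT
  have zy := b.zc y b.yT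
  have yx : y * x = x * y * z := by
    rw [← b.inv, eq_comm, ← mul_eq_one_iff_eq_inv, mul_assoc, ← b.zc _ (mul_mem b.xT b.yT), ← mul_assoc, ← b.ez, b.zz]
  have q : x * y * z * (x * y * z) = z := by
    rw [mul_assoc, ← mul_assoc z, ← b.zc _ (mul_mem b.xT b.yT), mul_assoc (x * y), b.zz, mul_one, b.ez]
  have xy : s * (x * y) * s⁻¹ = x * y * z ∧ s * y * s⁻¹ = x ∨ s * (x * y) * s⁻¹ = x * y := by
    rw [← conj_mul, ← e]
    rcases y1 with c | c <;> rw [c]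
    · exact Or.inl ⟨yx, rfl⟩
    · exact Or.inr (by rw [← mul_assoc, yx, mul_assoc, b.zz, mul_one])
  have sz : s * z * s⁻¹ = z := by
    conv_lhs => rw [b.ez, ← conj_mul]
    rcases xy with ⟨c, -⟩ | c <;> rw [c]
    · exact q
    · exact b.ez.symm
  have cD : ∀ {w}, w ∈ 𝐎 L' ⊓ 𝐎 L → w = 1 ∨ w = z ∨ w = d ∨ w = z * d :=
    four_cases h ea b.zD d1 b.z1 d2 (b.dz d1 d2 d3)
  have sd : s * d * s⁻¹ = z * d := by
    rcases cD (b.OZ_eq.le (conj_mem_of_mem_normalizer (normalizer_le_OZ 2 T s3) (b.OZ_eq.ge d1))) with c | c | c | c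
    · exact absurd (conj_eq_one_iff.1 c) d2
    · exact absurd (mul_left_cancel (mul_right_cancel (sz.trans c.symm))) (b.dz d1 d2 d3)
    · exact absurd (d3.le (mem_cent_iff.2 c)) sL
    · exact c
  have mx : x ∈ wOf K ⊔ zpowers y := mem_sup_left b.x1
  have my : y ∈ wOf K ⊔ zpowers y := mem_sup_right (mem_zpowers y)
  have mz : z ∈ wOf K ⊔ zpowers y := mem_sup_left b.zW
  have sE : s ∈ 𝐍 (wOf K ⊔ zpowers y : Subgroup G) := mem_normalizer_of_cj_le (by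
    rw [cj_sup, cj_zpowers]
    refine sup_le (cj_le_iff'.2 fun w hw => ?_) (zpowers_le.2 (y1.elim (· ▸ mx) (· ▸ mul_mem mx mz)))
    rcases b.cases hw with c | c | c | c <;> rw [c]
    · simp
    · exact e ▸ my
    · exact sz.symm ▸ mz
    · rw [← conj_mul, sz, ← e]; exact mul_mem my mz)
  have s4 : s * s ∈ wOf K ⊔ zpowers y := by
    by_contra c
    have e1 := (mul_mem_of_two (b.idxT h) ss (b.Q_le d1.2)).2 (iff_of_false c (b.dE d1 d2 d3))
    have e2 : s * (s * s * d) * s⁻¹ ≠ s * s * d := fun k => b.z1 (by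
      rw [← conj_mul, sd, show s * (s * s) * s⁻¹ = s * s by group] at k
      exact mul_eq_right.1 (mul_left_cancel k))
    have fix : s * (s * s) * s⁻¹ = s * s := by group
    have f : ∀ {w}, w = 1 ∨ w = z → s * w * s⁻¹ = w := fun k => k.elim (fun k => by simp [k]) (· ▸ sz)
    have n1 : s * s ∉ 𝐎 L := fun k => e2 (f (b.mem_D e1 (mul_mem ⟨fix ▸ sw.le (conj_mem_cj.2 k), k⟩ d1)))
    have n2 : s * s ∉ 𝐎 L' := fun k => n1 (fix ▸ sw'.le (conj_mem_cj.2 k))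
    have n3 : s * (x * y) * s⁻¹ = x * y := xy.resolve_left fun ⟨_, k⟩ => n1 (by
      rw [← b.eq, b.p.O_eq]
      exact ⟨ss, le_cent_of_two b.p.jc.card (ea_W K) b.x1 b.zW b.x0 b.z1 b.xz (ey.symm.trans k)
        (mul_inv_eq_iff_eq_mul.2 (b.zc _ ss))⟩)
    have t1 := b.E_le e1
    have t2 := mul_mem b.xT b.yT
    have n4 := f (b.mem_D (mul_mem e1 (mul_mem mx my))
      ⟨(mul_mem_of_two b.symm.idx2 t1 t2).2 (iff_of_false (mt (mul_mem_cancel_right (mem_inf.1 d1).1).1 n2)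
        (mt (mul_mem_cancel_right b.y1).1 b.x2)),
      (mul_mem_of_two b.idx2 t1 t2).2 (iff_of_false (mt (mul_mem_cancel_right (mem_inf.1 d1).2).1 n1)
        (mt (mul_mem_cancel_left (b.W_le b.x1)).1 b.y2))⟩)
    rw [← conj_mul, n3] at n4
    exact e2 (mul_right_cancel n4)
  have s5 := mt (b.E_le ·) s2
  have i1 := PGBasic.relIndex_sup_zpowers Nat.prime_two sE s5 (by rwa [pow_two])
  have lU : wOf K ⊔ zpowers y ⊔ zpowers s ≤ S := sup_le (b.E_le.trans l) (zpowers_le.2 s1)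
  have i2 := relIndex_mul_relIndex _ _ _ le_sup_left lU
  have i3 := relIndex_mul_relIndex _ _ _ b.E_le l
  rw [i1, ← i3, b.idxT h, i] at i2
  refine transfer b h d1 d2 d3 hH hS lU (by omega) (fun w hw => by_contra fun c => ?_) n
  exact s2 ((mul_mem_cancel_left (mem_inf.1 hw).2).1 (b.E_le ((mul_mem_of_two i1 hw.1 (mem_sup_right (mem_zpowers s))).2
    (iff_of_false c s5))))

end eight

theorem not_mem_res (a : Am T K L K' L') (h : Nat.card ↥(𝐎 L' ⊓ 𝐎 L) = 4) (d1 : d ∈ 𝐎 L' ⊓ 𝐎 L) (d2 : d ≠ 1)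
    (d3 : centralizer {d} = L) : d ∉ pResidual 2 G := fun hd => by
  obtain ⟨S, hS, l⟩ := exists_sylIn_ge a.syl.pg le_top
  obtain ⟨x, x1, x2⟩ := exists_x a
  obtain ⟨y, y1, y2⟩ := exists_x a.symm
  have b : Ab T K L K' L' x y _ := ⟨a, x1, x2, a.symm.W_le y1, y2, rfl⟩
  rcases l.eq_or_lt with rfl | l'
  · exact transfer b h d1 d2 d3 hd hS b.E_le (b.idxT h) inf_le_left fun g => mem_normalizer_of_cj_le
  obtain ⟨s, s1, s2, s3, -⟩ := PGBasic.exists_mem_normalizer hS.pg l'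
  have sw := a.swap s3 (a.not_mem hS.pg l s1 s2)
  have sw' := a.symm.swap s3 (a.symm.not_mem hS.pg l s1 s2)
  have b' : Ab T K L K' L' x (s * x * s⁻¹) _ := ⟨a, x1, x2, sw.le (conj_mem_cj.2 (a.W_le x1)),
    fun k => x2 (conj_mem_cj.1 (sw'.ge k)), rfl⟩
  exact case_lt b' h d1 d2 d3 hS hd l s1 s2 s3 rfl

theorem K_le (k : JC (J 2 T) K) : K ≤ pResidual 2 G := k.res.ge.trans ((res_mono le_top).trans (res_top 2 G).le)

theorem dvd24 (a : Am T K L K' L') : 24 ∣ Nat.card ↥(L ⊓ pResidual 2 G) ∧ 8 ∣ Nat.card ↥(T ⊓ pResidual 2 G) := by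
  obtain ⟨x, x1, x2⟩ := exists_x a
  obtain ⟨y, y1, y2⟩ := exists_x a.symm
  have b : Ab T K L K' L' x y _ := ⟨a, x1, x2, a.symm.W_le y1, y2, rfl⟩
  have h8 : 8 ∣ Nat.card ↥(T ⊓ pResidual 2 G) := b.cardE ▸ card_dvd_of_le (le_inf b.E_le
    (sup_le ((ZN1.W_le K).trans (K_le a.p.jc)) (zpowers_le.2 (K_le a.p'.jc (ZN1.W_le K' y1)))))
  refine ⟨Nat.Coprime.mul_dvd_of_dvd_of_dvd (m := 3) (n := 8) (by decide) ?_
    (h8.trans (card_dvd_of_le (inf_le_inf_right _ a.syl.le))), h8⟩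
  exact (a.p.jc.idx ▸ relIndex_dvd_card (𝐎 K) K).trans (card_dvd_of_le (le_inf a.p.le (K_le a.p.jc)))

theorem center_snd {c : Multiplicative (ZMod 2) × Equiv.Perm (Fin 4)} (h : ∀ g, g * c = c * g) : c.2 = 1 := by
  have k : ∀ σ : Equiv.Perm (Fin 4), (∀ τ, τ * σ = σ * τ) → σ = 1 := by decide
  exact k c.2 fun τ => congrArg Prod.snd (h (1, τ))

/-- the structure of `L ∩ O²(G)` -/
theorem iso_inf (a : Am T K L K' L') :
    Nonempty (↥(L ⊓ pResidual 2 G) ≃* Equiv.Perm (Fin 4)) ∧ L ≤ L ⊓ pResidual 2 G ⊔ 𝐂 L := by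
  have c4 : Nat.card (Equiv.Perm (Fin 4)) = 24 := by simp [Fintype.card_perm]; rfl
  have key : ∀ f : ↥(L ⊓ pResidual 2 G) →* Equiv.Perm (Fin 4), Function.Injective f →
      Nonempty (↥(L ⊓ pResidual 2 G) ≃* Equiv.Perm (Fin 4)) ∧ Nat.card ↥(L ⊓ pResidual 2 G) = 24 := fun f hf => by
    have h1 := Nat.card_le_card_of_injective f hf
    have h2 := Nat.le_of_dvd Nat.card_pos (dvd24 a).1
    exact ⟨⟨MulEquiv.ofBijective f ((Nat.bijective_iff_injective_and_card f).2 ⟨hf, by omega⟩)⟩, by omega⟩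
  rcases a.iso with ⟨⟨e⟩, -⟩ | ⟨⟨e⟩, -⟩
  · obtain ⟨k1, k2⟩ := key (e.toMonoidHom.comp (inclusion inf_le_left)) (e.injective.comp (inclusion_injective _))
    exact ⟨k1, le_sup_of_le_left (eq_of_le_of_card_ge inf_le_left (by rw [k2, Nat.card_congr e.toEquiv, c4])).ge⟩
  have c1 : Nat.card L = 48 := by rw [Nat.card_congr e.toEquiv, Nat.card_prod, c4]; simp
  have c2 : Nat.card ↥(𝐎 L' ⊓ 𝐎 L) = 4 := by
    have h1 := card_mul_relIndex a.syl.le
    have h2 := a.p.idx3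
    rw [a.eq] at h2
    rw [Ab.cardT a, h2, c1] at h1
    omega
  obtain ⟨d, d1, d2, d3⟩ := a.exists_z c2
  have d4 := not_mem_res a c2 d1 d2 d3
  have d5 : d ∈ L := pCoreOf_le 2 L d1.2
  have d6 : d ∈ 𝐂 L := mem_cent_of_le d3.ge
  have d7 : (e ⟨d, d5⟩).2 = 1 := center_snd fun g => by
    obtain ⟨g, rfl⟩ := e.surjective g
    rw [← map_mul, ← map_mul]
    exact congrArg e (Subtype.ext (d6 g g.2))
  have two : ∀ u v : Multiplicative (ZMod 2), u ≠ 1 → v ≠ 1 → u = v := by decide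
  obtain ⟨k1, k2⟩ := key ((MonoidHom.snd _ _).comp (e.toMonoidHom.comp (inclusion inf_le_left)))
    ((injective_iff_map_eq_one _).2 fun g hg => by
      by_contra n
      have g1 : (e (inclusion inf_le_left g)).2 = 1 := hg
      have g2 : e (inclusion inf_le_left g) = e ⟨d, d5⟩ := Prod.ext (two _ _
        (fun k => n (inclusion_injective _ (e.injective ((Prod.ext k g1).trans (by simp; rfl)))))
        fun k => d2 (Subtype.ext_iff.1 (e.injective ((Prod.ext k d7).trans (map_one e).symm)))) (g1.trans d7.symm)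
      have g3 : (g : G) = d := Subtype.ext_iff.1 (e.injective g2)
      exact d4 (g3 ▸ g.2.2))
  have i : (L ⊓ pResidual 2 G).relIndex L = 2 := by
    have := card_mul_relIndex (inf_le_left : L ⊓ pResidual 2 G ≤ L)
    rw [k2, c1] at this
    omega
  refine ⟨k1, fun g hg => ?_⟩
  by_cases c : g ∈ L ⊓ pResidual 2 G
  · exact mem_sup_left c
  · exact (mul_mem_cancel_right (mem_sup_right d6)).1 (mem_sup_left ((mul_mem_of_two i hg d5).2
      (iff_of_false c fun k => d4 k.2)))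

theorem norm_eq_of (m : IsMaximalTwoLocal L) {W : Subgroup G} (w0 : W ≠ ⊥) (w1 : IsPGroup 2 W) (w2 : W ≤ L ⊓ H)
    (w3 : L ≤ 𝐍 W) (h : L ≤ L ⊓ H ⊔ 𝐂 L) (hX : IsPGroup 2 X) (h0 : X ≠ ⊥) (n : L ⊓ H ≤ 𝐍 X) : 𝐍 X = L := by
  have k : ∀ Y, Y ≤ L → L ⊓ H ≤ 𝐍 Y → L ≤ 𝐍 Y := fun Y y1 y2 =>
    h.trans (sup_le y2 ((centralizer_anti y1).trans (centralizer_le_normalizer _)))
  have hY : IsPGroup 2 ↥(X ⊔ W) := IsPGroup.to_sup_of_normal_left' hX w1 (w2.trans n)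
  have e := max_eq m (hY.to_le (inf_le_left : (X ⊔ W) ⊓ L ≤ _))
    (fun e => w0 (le_bot_iff.1 ((le_inf le_sup_right (w2.trans inf_le_left)).trans e.le)))
    (k _ inf_le_right (norm_inf (norm_sup n (inf_le_left.trans w3)) (norm_of_le inf_le_left)))
  have e' := eq_of_inf_normalizer_le hY (inf_le_left : (X ⊔ W) ⊓ L ≤ _) (by rw [e])
  exact max_eq m hX h0 (k _ ((le_sup_left.trans e'.ge).trans inf_le_right) n)

theorem max_res (a : Am T K L K' L') : IsMaximalTwoLocal (L.subgroupOf (pResidual 2 G)) := by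
  have w0 := a.p.jc.W_ne
  have w1 : IsPGroup 2 (wOf K) := ea_pg (ea_W K)
  have w2 : wOf K ≤ pResidual 2 G := (ZN1.W_le K).trans (K_le a.p.jc)
  have w3 : L ≤ 𝐍 (wOf K) := a.eq ▸ a.p.normW
  have inj := (pResidual 2 G).subtype_injective
  refine ⟨⟨(wOf K).subgroupOf _, w1.comap_subtype, fun e => w0 (by
    rwa [subgroupOf_eq_bot, disjoint_iff, inf_eq_left.2 w2] at e), ?_⟩, ?_⟩
  · rw [normalizer_subgroupOf w2, max_eq a.p.max w1 w0 w3]
  rintro _ ⟨X, x1, x2, rfl⟩ l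
  have := norm_eq_of a.p.max w0 w1 (le_inf ((ZN1.W_le K).trans a.p.le) w2) w3 (iso_inf a).2
    (x1.map (pResidual 2 G).subtype) (mt (map_eq_bot_iff_of_injective _ inj).1 x2)
    (by rw [← subgroupOf_map_subtype]; exact norm_map _ l)
  exact le_antisymm (map_le_iff_le_comap.1 ((Amb.norm_map _ le_rfl).trans this.le)) l

theorem card_T (a : Am T K L K' L') : Nat.card ↥(T ⊓ pResidual 2 G) = 8 := by
  obtain ⟨e⟩ := (iso_inf a).1
  have h1 := card_dvd_of_le (inf_le_inf_right (pResidual 2 G) a.syl.le)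
  rw [Nat.card_congr e.toEquiv, show Nat.card (Equiv.Perm (Fin 4)) = 24 by simp [Fintype.card_perm]; rfl] at h1
  obtain ⟨n, hn⟩ := IsPGroup.iff_card.1 (a.syl.pg.to_le (inf_le_left : T ⊓ pResidual 2 G ≤ T))
  have h2 := (dvd24 a).2
  rw [hn] at h1 h2 ⊢
  exact Nat.dvd_antisymm ((Nat.Coprime.pow_left n (by decide : Nat.Coprime 2 3)).dvd_of_dvd_mul_left
    (show _ ∣ 3 * 8 from h1)) h2

theorem main (zn : ZN G) (O : pCore 2 G = ⊥) (ev : 2 ∣ Nat.card G) : (∃ M : Subgroup G, IsStronglyEmbedded M) ∨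
    ∃ M₁ M₂ : Subgroup (pResidual 2 G), M₁ ≠ M₂ ∧ IsMaximalTwoLocal M₁ ∧ IsMaximalTwoLocal M₂ ∧
      Nonempty (M₁ ≃* Equiv.Perm (Fin 4)) ∧ Nonempty (M₂ ≃* Equiv.Perm (Fin 4)) ∧ Nat.card ↥(M₁ ⊓ M₂) = 8 := by
  obtain ⟨S₀, h0⟩ := exists_sylIn 2 (⊤ : Subgroup G)
  have h1 := h0.ne_bot (by rwa [card_top])
  obtain ⟨M, m1, m2⟩ := exists_max (loc (pgJ h0.pg) (H6J.J_ne_bot (p := 2) (n := 2) dvd_rfl
    (dvd_card_of_isPGroup h0.pg h1)))
  refine or_iff_not_imp_left.2 fun n => ?_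
  have o := loc_O_ne m1.1
  obtain ⟨T, t⟩ := exists_maxStr (Set.nonempty_iff_ne_empty.2 fun e => n ⟨M, se_iff.2 ((spe_iff_str
    (fun e => o (by rw [e, pCoreOf_top, O])) (dvd_card_of_le (isPGroup_pCoreOf 2 M) o (pCoreOf_le 2 M))).2 e)⟩)
  obtain ⟨K, L, K', L', -, a⟩ := exists_am' ⟨zn, O, ⟨S₀, h0, m2⟩, t⟩
  have iso : ∀ N : Subgroup G, Nonempty (↥(N.subgroupOf (pResidual 2 G)) ≃* ↥(N ⊓ pResidual 2 G)) := fun N => by
    rw [← inf_subgroupOf_right]; exact ⟨subgroupOfEquivOfLe inf_le_right⟩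
  have c8 : Nat.card ↥(L.subgroupOf (pResidual 2 G) ⊓ L'.subgroupOf (pResidual 2 G)) = 8 := by
    obtain ⟨e⟩ := iso (L ⊓ L')
    have e2 := a.p.inf_eq' a.p' a.n
    rw [a.eq, a.symm.eq] at e2
    rw [← card_T a, ← e2, ← Nat.card_congr e.toEquiv]; rfl
  obtain ⟨e1⟩ := iso L
  obtain ⟨e2⟩ := iso L'
  obtain ⟨f1⟩ := (iso_inf a).1
  obtain ⟨f2⟩ := (iso_inf a.symm).1
  refine ⟨_, _, fun e => ?_, max_res a, max_res a.symm, ⟨e1.trans f1⟩, ⟨e2.trans f2⟩, c8⟩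
  rw [← e, inf_idem, Nat.card_congr (e1.trans f1).toEquiv] at c8
  simp [Fintype.card_perm] at c8
  exact absurd c8 (by decide)

end CA.ZNH
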